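import Cfsg.Agent.H4.Coord

/-! Coordinates for groups with an abelian regular normal subgroup and a Singer cycle. -/

set_option autoImplicit false

namespace Cfsg.Agent.H4.AffineCoord

open MulAction Cfsg.Agent.H4.Coord

variable {G Ω : Type*} [Group G] [MulAction G Ω]

theorem exists_affine_coord [Finite G] {a b : Ω} (hab : a ≠ b) (M K : Subgroup G) (hM : M.Normal)
    (hMc : ∀ u ∈ M, ∀ v ∈ M, u * v = v * u) (hMt : ∀ x : Ω, ∃ u ∈ M, u • a = x)
    (hMr : ∀ u ∈ M, u • a = a → u = 1)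
    (hKa : ∀ u ∈ K, u • a = a) (hKc : ∀ u ∈ K, ∀ v ∈ K, u * v = v * u)
    (hKn : ∀ g : G, g • a = a → ∀ u ∈ K, g * u * g⁻¹ ∈ K)
    (hKt : ∀ x y : Ω, x ≠ a → y ≠ a → ∃ u ∈ K, u • x = y)
    (F : Type*) [Field F] [Fintype F] (hF : Fintype.card F = Nat.card M) :
    ∃ e : Ω ≃ F, e a = 0 ∧ e b = 1 ∧
      ∀ g : G, ∃ (c : Fˣ) (t : F) (τ : F ≃+* F), ∀ x, e (g • x) = c * τ (e x) + t := by
  classical
  letI : CommGroup M := { (inferInstance : Group M) with
    mul_comm := fun u v => Subtype.ext (hMc u u.2 v v.2) }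
  let cj : G → (Additive M ≃+ Additive M) := fun g => MulEquiv.toAdditive (MulAut.conjNormal g)
  have hcj : ∀ g (v : Additive M), ((cj g v).toMul : G) = g * v.toMul * g⁻¹ := fun _ _ => rfl
  let f : Additive M → Ω := fun v => (v.toMul : G) • a
  have hf : Function.Bijective f := by
    constructor
    · intro u v h
      have h' : (u.toMul : G) • a = (v.toMul : G) • a := h
      have := hMr ((v.toMul : G)⁻¹ * u.toMul) (M.mul_mem (M.inv_mem v.toMul.2) u.toMul.2)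
        (by rw [mul_smul, h', inv_smul_smul])
      exact Additive.toMul.injective (Subtype.ext (inv_mul_eq_one.1 this).symm)
    · intro x
      obtain ⟨u, hu, e⟩ := hMt x
      exact ⟨Additive.ofMul ⟨u, hu⟩, e⟩
  have hf0 : f 0 = a := one_smul G a
  have hfcj : ∀ g : G, g • a = a → ∀ v, f (cj g v) = g • f v := by
    intro g hg v
    change (g * v.toMul * g⁻¹) • a = g • (v.toMul : G) • a
    rw [mul_smul, mul_smul, inv_smul_eq_iff.2 hg.symm]
  let A : Set (AddMonoid.End (Additive M)) := {α | ∃ h ∈ K, α = (cj h).toAddMonoidHom}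
  obtain ⟨v₀, hv₀⟩ := hf.2 b
  have hirr : ∀ W : AddSubgroup (Additive M), (∀ β ∈ A, ∀ w ∈ W, β w ∈ W) → W = ⊥ ∨ W = ⊤ := by
    intro W hW
    by_cases hbot : W = ⊥
    · exact Or.inl hbot
    right
    obtain ⟨w, hw⟩ := (AddSubgroup.ne_bot_iff_exists_ne_zero).1 hbot
    rw [eq_top_iff]
    intro v _
    by_cases hv : v = 0
    · exact hv ▸ W.zero_mem
    obtain ⟨k, hk, e⟩ := hKt (f w) (f v) (fun e => hw (Subtype.ext (hf.1 (e.trans hf0.symm))))
      (fun e => hv (hf.1 (e.trans hf0.symm)))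
    rw [← hfcj k (hKa k hk)] at e
    rw [← hf.1 e]
    exact hW _ ⟨k, hk, rfl⟩ w w.2
  obtain ⟨φ, hφ1, hφ2⟩ := exists_field_coord A (by
    rintro _ ⟨h, hh, rfl⟩ _ ⟨k, hk, rfl⟩
    refine AddMonoidHom.ext fun w => Additive.toMul.injective (Subtype.ext ?_)
    obtain ⟨v, hv⟩ : ∃ v : G, v = (w.toMul : M) := ⟨_, rfl⟩
    change h * (k * (w.toMul : M) * k⁻¹) * h⁻¹ = k * (h * (w.toMul : M) * h⁻¹) * k⁻¹
    rw [← hv]
    calc h * (k * (v : G) * k⁻¹) * h⁻¹ = (h * k) * v * (h * k)⁻¹ := by group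
      _ = (k * h) * v * (k * h)⁻¹ := by rw [hKc h hh k hk]
      _ = _ := by group) hirr (v₀ := v₀) (by
    rintro rfl
    exact hab (hf0.symm.trans hv₀)) F hF
  let E := Equiv.ofBijective f hf
  have hE : ∀ v, E v = f v := fun _ => rfl
  refine ⟨E.symm.trans φ.toEquiv, ?_, ?_, fun g => ?_⟩
  · rw [← hf0, ← hE]
    simp
  · rw [← hv₀, ← hE]
    simpa using hφ1
  obtain ⟨u, hu⟩ := hf.2 (g • a)
  have hh : ((u.toMul : G)⁻¹ * g) • a = a := by
    rw [mul_smul, inv_smul_eq_iff]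
    exact hu.symm
  set h := (u.toMul : G)⁻¹ * g with hhdef
  let β : F ≃+ F := (φ.symm.trans (cj h)).trans φ
  have hβ : ∀ v, β (φ v) = φ (cj h v) := fun v => by simp [β]
  obtain ⟨τ, hτ⟩ := semilinear {c : F | ∃ k ∈ K, ∀ v, φ (cj k v) = c * φ v} (by
    intro W hW
    rcases hirr (W.comap φ.toAddMonoidHom) (by
      rintro _ ⟨k, hk, rfl⟩ w hw
      obtain ⟨c, hc⟩ := hφ2 _ ⟨k, hk, rfl⟩
      change φ _ ∈ W
      rw [hc]
      exact hW c ⟨k, hk, hc⟩ _ hw) with h | h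
    · left
      rw [eq_bot_iff]
      intro w hw
      have : φ.symm w ∈ W.comap φ.toAddMonoidHom := by simpa using hw
      rw [h, AddSubgroup.mem_bot] at this
      simpa using this
    · right
      rw [eq_top_iff]
      intro w _
      have : φ.symm w ∈ W.comap φ.toAddMonoidHom := h ▸ AddSubgroup.mem_top _
      simpa using this) β (by
    rintro c ⟨k, hk, hc⟩
    obtain ⟨c', hc'⟩ := hφ2 _ ⟨h * k * h⁻¹, hKn h hh k hk, rfl⟩
    refine ⟨c', fun x => ?_⟩
    obtain ⟨v, rfl⟩ := φ.surjective x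
    rw [← hc, hβ, hβ, ← hc']
    congr 1
    refine Additive.toMul.injective (Subtype.ext ?_)
    change h * (k * (v.toMul : M) * k⁻¹) * h⁻¹ =
      h * k * h⁻¹ * (h * (v.toMul : M) * h⁻¹) * (h * k * h⁻¹)⁻¹
    group)
  refine ⟨Units.mk0 (β 1) (by simp), φ u, τ, fun x => ?_⟩
  obtain ⟨v, rfl⟩ := E.surjective x
  have h1 : g • E v = E (cj h v + u) := by
    rw [add_comm, hE, hE]
    change g • (v.toMul : G) • a = ((u.toMul : G) * (cj h v).toMul) • a
    rw [mul_smul]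
    change _ = (u.toMul : G) • f (cj h v)
    rw [hfcj h hh, hhdef, mul_smul, smul_inv_smul]
  rw [h1]
  simp only [Equiv.trans_apply, Equiv.symm_apply_apply, AddEquiv.toEquiv_eq_coe,
    EquivLike.coe_coe, map_add, Units.val_mk0]
  rw [← hβ, hτ]

end Cfsg.Agent.H4.AffineCoord
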