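import Mathlib

/-! Kernel check for groups of degree 11. -/

set_option autoImplicit false

namespace Cfsg.Agent.H4.Deg11

/-- Table of an involution. -/
def f2 (a b c d i : ℕ) : ℕ :=
  bif i.beq 0 then 1 else bif i.beq 1 then 0 else bif i.beq a then b else bif i.beq b then a else
    bif i.beq c then d else bif i.beq d then c else i

/-- Table of an element of order three. -/
def f3 (a b c d i : ℕ) : ℕ :=
  bif i.beq 0 then 1 else bif i.beq 1 then a else bif i.beq a then 0 else bif i.beq b then c else
    bif i.beq c then d else bif i.beq d then b else i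

/-- Bounded universal quantifier. -/
def allB (P : ℕ → Bool) : ℕ → Bool := fun n => Nat.rec true (fun k r => P k && r) n

/-- Bounded existential quantifier. -/
def anyB (P : ℕ → Bool) : ℕ → Bool := fun n => Nat.rec false (fun k r => P k || r) n

theorem allB_spec {P : ℕ → Bool} {n : ℕ} (h : allB P n = true) : ∀ k < n, P k = true := by
  induction n with
  | zero => intro k hk; omega
  | succ n ih =>
    intro k hk
    have h' : (P n && allB P n) = true := h
    rw [Bool.and_eq_true] at h'
    rcases Nat.lt_succ_iff_lt_or_eq.1 hk with h1 | rfl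
    · exact ih h'.2 k h1
    · exact h'.1

theorem allB_of {P : ℕ → Bool} {n : ℕ} (h : ∀ k < n, P k = true) : allB P n = true := by
  induction n with
  | zero => rfl
  | succ n ih =>
    change (P n && allB P n) = true
    rw [h n (by omega), ih fun k hk => h k (by omega)]
    rfl

theorem anyB_spec {P : ℕ → Bool} {n : ℕ} (h : anyB P n = true) : ∃ k, P k = true := by
  induction n with
  | zero => exact absurd h Bool.false_ne_true
  | succ n ih =>
    have h' : (P n || anyB P n) = true := h
    rw [Bool.or_eq_true] at h'
    exact h'.elim (fun h => ⟨n, h⟩) ih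

/-- Force the evaluation of an argument. -/
def force (P : ℕ → Bool) (c : ℕ) : Bool := Nat.rec (P 0) (fun n _ => P (Nat.succ n)) c

theorem force_eq (P : ℕ → Bool) (c : ℕ) : force P c = P c := by cases c <;> rfl

/-- Packed table. -/
def code (f : ℕ → ℕ) : ℕ → ℕ := fun n => Nat.rec 0 (fun k r => r + f k * 16 ^ k) n

/-- Look-up in a packed table. -/
def lk (c i : ℕ) : ℕ := c / 16 ^ i % 16

/-- The word. -/
def wd (c i j l k : ℕ) : ℕ := (lk c ((lk c ((lk c k + l) % 11) + j) % 11) + i) % 11

/-- The word has a cycle of length seven through `0`. -/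
def bad (w : ℕ → ℕ) : Bool := (w (w (w (w (w (w (w 0))))))).beq 0 && !(w 0).beq 0

/-- Some word is bad. -/
def srch (c : ℕ) : Bool :=
  anyB (fun l => anyB (fun i => anyB (fun j => bad (wd c i j l)) 11) 11) 11

theorem chk2 : allB (fun a => allB (fun b => allB (fun c => allB (fun d =>
    !allB (fun i => (f2 a b c d (f2 a b c d i)).beq i) 11 ||
      force srch (code (f2 a b c d) 11)) 11) 11) 11) 11 = true := by
  decide +kernel

theorem chk3 : allB (fun a => allB (fun b => allB (fun c => allB (fun d =>
    !allB (fun i => (f3 a b c d (f3 a b c d (f3 a b c d i))).beq i) 11 ||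
      force srch (code (f3 a b c d) 11)) 11) 11) 11) 11 = true := by
  decide +kernel

end Cfsg.Agent.H4.Deg11
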