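import Mathlib
import Cfsg.Agent.H4.Deg11A
import Cfsg.Agent.H3.JordanCycle
import Cfsg.Agent.H1.EvenPrime

/-! Doubly transitive groups of degree 11 have minimal degree at least 8. -/

set_option autoImplicit false

namespace Cfsg.Agent.H4.Deg11

open Equiv Equiv.Perm MulAction

theorem lk_code (f : ℕ → ℕ) (hf : ∀ i < 11, f i < 16) {i : ℕ} (hi : i < 11) :
    lk (code f 11) i = f i := by
  have e : code f 11 = 0 + f 0 * 16 ^ 0 + f 1 * 16 ^ 1 + f 2 * 16 ^ 2 + f 3 * 16 ^ 3 +
    f 4 * 16 ^ 4 + f 5 * 16 ^ 5 + f 6 * 16 ^ 6 + f 7 * 16 ^ 7 + f 8 * 16 ^ 8 + f 9 * 16 ^ 9 +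
    f 10 * 16 ^ 10 := rfl
  have h0 := hf 0 (by omega)
  have h1 := hf 1 (by omega)
  have h2 := hf 2 (by omega)
  have h3 := hf 3 (by omega)
  have h4 := hf 4 (by omega)
  have h5 := hf 5 (by omega)
  have h6 := hf 6 (by omega)
  have h7 := hf 7 (by omega)
  have h8 := hf 8 (by omega)
  have h9 := hf 9 (by omega)
  have h10 := hf 10 (by omega)
  rw [e]
  unfold lk
  interval_cases i <;> norm_num <;> omega

variable {α : Type*} [Fintype α] [DecidableEq α]

theorem fix_of_six {z : Perm α} (hs : z.support.card ≤ 6) {l : List α} (hl : l.Nodup)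
    (h6 : l.length = 6) (hm : ∀ i ∈ l, z i ≠ i) {i : α} (hi : i ∉ l) : z i = i := by
  by_contra h
  have h1 : (i :: l).toFinset ⊆ z.support := by
    intro j hj
    rw [List.mem_toFinset, List.mem_cons] at hj
    rcases hj with rfl | hj
    · exact mem_support.2 h
    · exact mem_support.2 (hm j hj)
  have := Finset.card_le_card h1
  rw [List.toFinset_card_of_nodup (List.nodup_cons.2 ⟨hi, hl⟩), List.length_cons] at this
  omega

theorem form2 {z : Perm α} (hz : ∀ i, z (z i) = i) (hs : z.support.card ≤ 6) {u v : α}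
    (huv : u ≠ v) (hu : z u = v) : ∃ a b c d, ∀ i, z i = if i = u then v else if i = v then u else
      if i = a then b else if i = b then a else if i = c then d else if i = d then c else i := by
  have hv : z v = u := by rw [← hu, hz]
  by_cases h1 : ∃ a, z a ≠ a ∧ a ≠ u ∧ a ≠ v
  · obtain ⟨a, ha, hau, hav⟩ := h1
    by_cases h2 : ∃ c, z c ≠ c ∧ c ≠ u ∧ c ≠ v ∧ c ≠ a ∧ c ≠ z a
    · obtain ⟨c, hc, hcu, hcv, hca, hcb⟩ := h2
      refine ⟨a, z a, c, z c, fun i => ?_⟩
      split_ifs with e1 e2 e3 e4 e5 e6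
      any_goals simp [*]
      refine fix_of_six hs (l := [u, v, a, z a, c, z c]) ?_ rfl ?_ (by simp [*])
      · simp only [List.nodup_cons, List.mem_cons, List.not_mem_nil, List.nodup_nil]
        grind
      · simp only [List.mem_cons, List.not_mem_nil]
        grind
    · refine ⟨a, z a, u, u, fun i => ?_⟩
      split_ifs with e1 e2 e3 e4
      any_goals simp [*]
      grind
  · refine ⟨u, u, u, u, fun i => ?_⟩
    split_ifs with e1 e2
    any_goals simp [*]
    grind

theorem form3 {z : Perm α} (hz : ∀ i, z (z (z i)) = i) (hs : z.support.card ≤ 6) {u v : α}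
    (huv : u ≠ v) (hu : z u = v) : ∃ a b c d, ∀ i, z i = if i = u then v else if i = v then a else
      if i = a then u else if i = b then c else if i = c then d else if i = d then b else i := by
  have hv : z (z v) = u := by rw [← hu, hz]
  by_cases h1 : ∃ b, z b ≠ b ∧ b ≠ u ∧ b ≠ v ∧ b ≠ z v
  · obtain ⟨b, hb, hbu, hbv, hba⟩ := h1
    refine ⟨z v, b, z b, z (z b), fun i => ?_⟩
    split_ifs with e1 e2 e3 e4 e5 e6
    any_goals simp [*]
    refine fix_of_six hs (l := [u, v, z v, b, z b, z (z b)]) ?_ rfl ?_ (by simp [*])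
    · simp only [List.nodup_cons, List.mem_cons, List.not_mem_nil, List.nodup_nil]
      grind
    · simp only [List.mem_cons, List.not_mem_nil]
      grind
  · refine ⟨z v, u, u, u, fun i => ?_⟩
    split_ifs with e1 e2 e3
    any_goals simp [*]
    grind

theorem seven_dvd {w : Perm α} {a : α} (h1 : (w ^ 7) a = a) (h2 : w a ≠ a) : 7 ∣ orderOf w := by
  by_contra h
  have h3 : Function.IsPeriodicPt w 7 a := by rw [Function.IsPeriodicPt, ← coe_pow]; exact h1
  have h4 : Function.IsPeriodicPt w (orderOf w) a := by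
    rw [Function.IsPeriodicPt, ← coe_pow, pow_orderOf_eq_one]; rfl
  have h5 := h3.gcd h4
  rw [(Nat.Prime.coprime_iff_not_dvd (by norm_num)).2 h] at h5
  exact h2 h5

theorem exists_bad {σ z : Perm α} (n : α → ℕ) (hn : Function.Injective n) (hlt : ∀ t, n t < 11)
    (hσ : ∀ t, n (σ t) = (n t + 1) % 11) {u : α} (hu : n u = 0) (f : ℕ → ℕ)
    (hf : ∀ t, n (z t) = f (n t)) (hsurj : ∀ i < 11, ∃ t, n t = i)
    (h : force srch (code f 11) = true) :
    ∃ i j l : ℕ, 7 ∣ orderOf (σ ^ i * z * σ ^ j * z * σ ^ l * z) := by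
  rw [force_eq] at h
  obtain ⟨l, h⟩ := anyB_spec h
  obtain ⟨i, h⟩ := anyB_spec h
  obtain ⟨j, h⟩ := anyB_spec h
  have h1 : ∀ t, lk (code f 11) (n t) = n (z t) := fun t => by
    rw [lk_code f _ (hlt t), hf]
    intro i hi
    obtain ⟨t, rfl⟩ := hsurj i hi
    rw [← hf]
    exact (hlt _).trans (by norm_num)
  have h2 : ∀ k t, n ((σ ^ k) t) = (n t + k) % 11 := by
    intro k t
    induction k with
    | zero => simp [Nat.mod_eq_of_lt (hlt t)]
    | succ k ih => rw [pow_succ', mul_apply, hσ, ih]; omega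
  set w := σ ^ i * z * σ ^ j * z * σ ^ l * z with hw
  have h3 : ∀ t, wd (code f 11) i j l (n t) = n (w t) := fun t => by
    rw [wd, h1, ← h2, h1, ← h2, h1, ← h2]
    rfl
  refine ⟨i, j, l, seven_dvd (a := u) ?_ ?_⟩
  all_goals
    unfold bad at h
    rw [← hu] at h
    simp only [h3, Bool.and_eq_true, Nat.beq_eq, Bool.not_eq_true', hn.eq_iff] at h
  · exact h.1
  · intro e
    rw [e] at h
    simp at h

variable (hα : Fintype.card α = 11) (G : Subgroup (Perm α)) (hG : IsPreprimitive G α)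
  (hA : ¬ alternatingGroup α ≤ G)
include hα hG hA

theorem not_seven {g : Perm α} (hg : g ∈ G) : ¬ 7 ∣ orderOf g := by
  intro h
  have h1 := orderOf_pow_orderOf_div (orderOf_pos g).ne' h
  have h2 := isCycle_of_prime_order' (σ := g ^ (orderOf g / 7)) (by rw [h1]; norm_num)
    (by rw [h1, hα]; norm_num)
  exact hA (H3.JordanCycle.alt_le_of_prime_cycle G hG (p := 7) (by norm_num)
    (by rw [Nat.card_eq_fintype_card, hα]; norm_num) h2 (h2.orderOf.symm.trans h1) (G.pow_mem hg _))

theorem min_degree (h2 : IsMultiplyPretransitive G α 2) {x : Perm α} (hx : x ∈ G)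
    (hs : x.support.card ≤ 7) : x = 1 := by
  by_contra hx1
  haveI : Fact (Nat.Prime 11) := ⟨by norm_num⟩
  have hα' : Nat.card α = 11 := by rw [Nat.card_eq_fintype_card, hα]
  obtain ⟨p, hp, hpd⟩ := Nat.exists_prime_and_dvd (n := orderOf x) (by simpa using hx1)
  have h1 := orderOf_pow_orderOf_div (orderOf_pos x).ne' hpd
  have hy : x ^ (orderOf x / p) ∈ G := G.pow_mem hx _
  have hsy := (Finset.card_le_card (support_pow_le x (orderOf x / p))).trans hs
  generalize x ^ (orderOf x / p) = y at h1 hy hsy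
  have hd := H3.JordanCycle.prime_dvd_card_support (e := 1) (v := y) hp
    (by rw [pow_one, ← h1, pow_orderOf_eq_one])
  have hy1 : y ≠ 1 := by
    rintro rfl
    rw [orderOf_one] at h1
    exact hp.one_lt.ne h1
  by_cases h4 : 4 ≤ p
  · have h5 := isCycle_of_prime_order (σ := y) (h1 ▸ hp) (by omega)
    have h6 := h5.orderOf.symm.trans h1
    exact hA (H3.JordanCycle.alt_le_of_prime_cycle G hG hp (by omega) h5 h6 hy)
  obtain ⟨P⟩ : Nonempty (Sylow 11 G) := inferInstance
  obtain ⟨σ, e, -, hσ⟩ := H1.Heart.exists_coord_of_transitive hα' P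
  obtain ⟨a, ha⟩ : ∃ a, y a ≠ a := by
    by_contra h
    push Not at h
    exact hy1 (Equiv.ext h)
  have h01 : e 0 ≠ e 1 := e.injective.ne zero_ne_one
  obtain ⟨g, hg1, hg2⟩ := is_two_pretransitive_iff.1 h2 ha.symm h01
  let z : Perm α := g * y * (g : Perm α)⁻¹
  have hzG : z ∈ G := G.mul_mem (G.mul_mem g.2 hy) (G.inv_mem g.2)
  have hz0 : z (e 0) = e 1 := by
    rw [← hg1, ← hg2]
    simp [z, Subgroup.smul_def]
  have hzs : z.support.card = y.support.card := card_support_conj
  have hzp : z ^ p = 1 := by rw [conj_pow, ← h1, pow_orderOf_eq_one]; simp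
  let n : α → ℕ := fun t => (e.symm t).val
  have hn : Function.Injective n := (ZMod.val_injective 11).comp e.symm.injective
  have hlt : ∀ t, n t < 11 := fun t => ZMod.val_lt _
  have hσ' : ∀ t, n ((σ : Perm α) t) = (n t + 1) % 11 := by
    intro t
    obtain ⟨j, rfl⟩ := e.surjective t
    have := hσ j
    rw [Subgroup.smul_def, Perm.smul_def] at this
    simp only [n, this, symm_apply_apply, ZMod.val_add]
    rfl
  have hn0 : n (e 0) = 0 := by simp [n]
  have hn1 : n (e 1) = 1 := by simp only [n, symm_apply_apply]; rfl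
  have hb0 : ∀ t, n t = 0 ↔ t = e 0 := fun t => by rw [← hn0, hn.eq_iff]
  have hb1 : ∀ t, n t = 1 ↔ t = e 1 := fun t => by rw [← hn1, hn.eq_iff]
  have hsurj : ∀ i < 11, ∃ t, n t = i := fun i hi =>
    ⟨e i, by simp only [n, symm_apply_apply]; exact ZMod.val_cast_of_lt hi⟩
  have key : ∃ i j l : ℕ, 7 ∣ orderOf ((σ : Perm α) ^ i * z * σ ^ j * z * σ ^ l * z) := by
    have hp2 := hp.two_le
    obtain rfl | rfl : p = 2 ∨ p = 3 := by omega
    · have hz : ∀ i, z (z i) = i := fun i => congrArg (· i) hzp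
      obtain ⟨a, b, c, d, hf⟩ := form2 hz (by omega) h01 hz0
      have hf' : ∀ t, n (z t) = f2 (n a) (n b) (n c) (n d) (n t) := by
        intro t
        rw [hf t]
        simp only [f2, Bool.cond_eq_ite, Nat.beq_eq, hb0, hb1, hn.eq_iff]
        split_ifs <;> first | rfl | assumption
      refine exists_bad n hn hlt hσ' hn0 _ hf' hsurj ?_
      have := allB_spec (allB_spec (allB_spec (allB_spec chk2 _ (hlt a)) _ (hlt b)) _ (hlt c)) _
        (hlt d)
      rwa [allB_of, Bool.not_true, Bool.false_or] at this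
      intro k hk
      obtain ⟨t, rfl⟩ := hsurj k hk
      rw [← hf', ← hf', hz, Nat.beq_eq]
    · have hz : ∀ i, z (z (z i)) = i := fun i => congrArg (· i) hzp
      obtain ⟨a, b, c, d, hf⟩ := form3 hz (by omega) h01 hz0
      have hf' : ∀ t, n (z t) = f3 (n a) (n b) (n c) (n d) (n t) := by
        intro t
        rw [hf t]
        simp only [f3, Bool.cond_eq_ite, Nat.beq_eq, hb0, hb1, hn.eq_iff]
        split_ifs <;> first | rfl | assumption
      refine exists_bad n hn hlt hσ' hn0 _ hf' hsurj ?_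
      have := allB_spec (allB_spec (allB_spec (allB_spec chk3 _ (hlt a)) _ (hlt b)) _ (hlt c)) _
        (hlt d)
      rwa [allB_of, Bool.not_true, Bool.false_or] at this
      intro k hk
      obtain ⟨t, rfl⟩ := hsurj k hk
      rw [← hf', ← hf', ← hf', hz, Nat.beq_eq]
  obtain ⟨i, j, l, h⟩ := key
  refine not_seven hα G hG hA ?_ h
  have := σ.2
  repeat first | assumption | apply G.mul_mem | apply G.pow_mem

theorem stab_eq_bot (h2 : IsMultiplyPretransitive G α 2) (x : Fin 4 ↪ α) :
    stabilizer G x = ⊥ := by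
  rw [eq_bot_iff]
  intro g hg
  refine Subtype.ext (min_degree hα G hG hA h2 g.2 ?_)
  have h1 : (g : Perm α).support ⊆ (Finset.univ.map x)ᶜ := by
    intro a ha
    rw [Finset.mem_compl, Finset.mem_map]
    rintro ⟨i, -, rfl⟩
    exact mem_support.1 ha (congrArg (· i) (mem_stabilizer_iff.1 hg))
  have := Finset.card_le_card h1
  rw [Finset.card_compl, Finset.card_map, hα] at this
  exact this

end Cfsg.Agent.H4.Deg11
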