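import Cfsg.Agent.H4.ElO3

/-! Orthogonal decompositions stabilised by elements of prime order. -/

set_option autoImplicit false
set_option linter.unusedSectionVars false

namespace Cfsg.Agent.H4.El

open Module Polynomial H7 H7.Polar H8

variable {F : Type*} [Field F] {V : Type*} [AddCommGroup V] [Module F V] {P : Polar F V}

theorem ort_iSup {κ : Sort*} {U : Submodule F V} {D : κ → Submodule F V}
    (h : ∀ j, Ort P U (D j)) : Ort P U (iSup D) :=
  (ort_of_le_perp (iSup_le fun j => (h j).le_perp')).symm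

variable (P) in
/-- An orthogonal decomposition of `W` in non-degenerate subspaces of dimension `a`. -/
structure IsOD (a : ℕ) {κ : Type} (D : κ → Submodule F V) (W : Submodule F V) : Prop where
  dim : ∀ j, finrank F (D j) = a
  nd : ∀ j, Nd P (D j)
  ort : ∀ j j', j ≠ j' → Ort P (D j) (D j')
  sup : iSup D = W

theorem IsOD.indep {a : ℕ} {κ : Type} {D : κ → Submodule F V} {W : Submodule F V}
    (h : IsOD P a D W) : iSupIndep D := fun j =>
  (h.nd j).disjoint (ort_iSup fun j' => ort_iSup fun hj => h.ort j j' (Ne.symm hj))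

theorem IsOD.le {a : ℕ} {κ : Type} {D : κ → Submodule F V} {W : Submodule F V}
    (h : IsOD P a D W) (j : κ) : D j ≤ W := h.sup ▸ le_iSup D j

theorem IsOD.comp {a : ℕ} {κ κ' : Type} {D : κ → Submodule F V} {W : Submodule F V}
    (h : IsOD P a D W) (e : κ' ≃ κ) : IsOD P a (D ∘ e) W :=
  ⟨fun j => h.dim _, fun j => h.nd _, fun j j' hj => h.ort _ _ (e.injective.ne hj),
    h.sup ▸ e.iSup_comp⟩

theorem IsOD.map {a : ℕ} {κ : Type} {D : κ → Submodule F V} (h : IsOD P a D ⊤) {g : V ≃ₗ[F] V}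
    (hg : g ∈ P.Iso) : IsOD P a (fun j => (D j).map (g : V →ₗ[F] V)) ⊤ :=
  ⟨fun j => by rw [LinearEquiv.finrank_map_eq, h.dim], fun j => (h.nd j).map hg,
    fun j j' hj => (h.ort j j' hj).map hg, by
      rw [← Submodule.map_iSup, h.sup, Submodule.map_top, LinearEquiv.range]⟩

variable (P) in
/-- `x` stabilises an orthogonal decomposition of `W`. -/
def OD (x : V ≃ₗ[F] V) (a : ℕ) (κ : Type) (W : Submodule F V) : Prop :=
  ∃ D : κ → Submodule F V, IsOD P a D W ∧
    ∃ σ : Equiv.Perm κ, ∀ j, (D j).map (x : V →ₗ[F] V) = D (σ j)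

variable (P) in
/-- `x` interchanges two orthogonal non-degenerate halves of `B`. -/
def Sw (x : V ≃ₗ[F] V) (m : ℕ) (B : Submodule F V) : Prop :=
  ∃ A A', Nd P A ∧ finrank F A = m ∧ Ort P A A' ∧ A.map (x : V →ₗ[F] V) = A' ∧
    A'.map (x : V →ₗ[F] V) = A ∧ B = A ⊔ A'

namespace OD

variable {x y : V ≃ₗ[F] V} {a : ℕ} {κ κ' : Type} {W W' : Submodule F V}

theorem reindex (h : OD P x a κ W) (e : κ' ≃ κ) : OD P x a κ' W := by
  obtain ⟨D, hD, σ, hσ⟩ := h
  exact ⟨D ∘ e, hD.comp e, e.trans (σ.trans e.symm), fun j => by simp [hσ]⟩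

theorem sum (h : OD P x a κ W) (h' : OD P x a κ' W') (ho : Ort P W W') :
    OD P x a (κ ⊕ κ') (W ⊔ W') := by
  obtain ⟨D, hD, σ, hσ⟩ := h
  obtain ⟨D', hD', σ', hσ'⟩ := h'
  refine ⟨Sum.elim D D', ⟨?_, ?_, ?_, ?_⟩, σ.sumCongr σ', ?_⟩
  · rintro (j | j); exacts [hD.dim j, hD'.dim j]
  · rintro (j | j); exacts [hD.nd j, hD'.nd j]
  · rintro (j | j) (j' | j') hj
    · exact hD.ort j j' fun h => hj (h ▸ rfl)
    · exact ho.mono (hD.le j) (hD'.le j')
    · exact ho.symm.mono (hD'.le j) (hD.le j')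
    · exact hD'.ort j j' fun h => hj (h ▸ rfl)
  · rw [iSup_sum, ← hD.sup, ← hD'.sup]; rfl
  · rintro (j | j); exacts [hσ j, hσ' j]

theorem add {s t : ℕ} (h : OD P x a (Fin s) W) (h' : OD P x a (Fin t) W') (ho : Ort P W W') :
    OD P x a (Fin (s + t)) (W ⊔ W') :=
  (h.sum h' ho).reindex finSumFinEquiv.symm

theorem zero : OD P x a (Fin 0) ⊥ :=
  ⟨fun j => j.elim0, ⟨fun j => j.elim0, fun j => j.elim0, fun j => j.elim0, iSup_of_empty _⟩, 1,
    fun j => j.elim0⟩

theorem one [FiniteDimensional F V] (h : Nd P W) (hi : Inv x W) (hd : finrank F W = a) :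
    OD P x a (Fin 1) W :=
  ⟨fun _ => W, ⟨fun _ => hd, fun _ => h, fun _ _ hj => absurd (Subsingleton.elim _ _) hj,
    iSup_const⟩, 1, fun _ => hi.map_eq⟩

theorem two (hx : x ∈ P.Iso) (h : Sw P x a W) : OD P x a (Fin 2) W := by
  obtain ⟨A, A', h1, h2, h3, h4, h5, rfl⟩ := h
  refine ⟨![A, A'], ⟨?_, ?_, ?_, ?_⟩, Equiv.swap 0 1, ?_⟩
  · intro j; fin_cases j
    · exact h2
    · exact h4 ▸ (LinearEquiv.finrank_map_eq x A).trans h2
  · intro j; fin_cases j
    · exact h1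
    · exact h4 ▸ h1.map hx
  · intro j j' hj; fin_cases j <;> fin_cases j'
    · exact absurd rfl hj
    · exact h3
    · exact h3.symm
    · exact absurd rfl hj
  · exact le_antisymm (iSup_le fun j => by fin_cases j; exacts [le_sup_left, le_sup_right])
      (sup_le (le_iSup ![A, A'] 0) (le_iSup ![A, A'] 1))
  · intro j; fin_cases j
    · simpa using h4
    · simpa using h5

theorem of_smul {w : F} (h : ∀ v, x v = w • y v) (hy : OD P y a κ W) : OD P x a κ W := by
  obtain ⟨D, hD, σ, hσ⟩ := hy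
  refine ⟨D, hD, σ, fun j => ?_⟩
  rw [← hσ]
  rcases subsingleton_or_nontrivial V with hV | hV
  · exact Subsingleton.elim _ _
  have hw : w ≠ 0 := by
    rintro rfl
    obtain ⟨v, hv⟩ := exists_ne (0 : V)
    exact hv (x.map_eq_zero_iff.1 (by simpa using h v))
  ext v
  constructor
  · rintro ⟨u, hu, rfl⟩
    exact ⟨w • u, (D j).smul_mem _ hu, by simp [h]⟩
  · rintro ⟨u, hu, rfl⟩
    exact ⟨w⁻¹ • u, (D j).smul_mem _ hu, by simp [h, smul_smul, hw]⟩

end OD

theorem sw_bot (x : V ≃ₗ[F] V) : Sw P x 0 ⊥ :=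
  ⟨⊥, ⊥, nd_bot, finrank_bot _ _, ort_bot_left _, by simp, by simp, by simp⟩

theorem Sw.sup [FiniteDimensional F V] {x : V ≃ₗ[F] V} {m m' : ℕ} {B B' : Submodule F V}
    (h : Sw P x m B) (h' : Sw P x m' B') (ho : Ort P B B') : Sw P x (m + m') (B ⊔ B') := by
  obtain ⟨A, A', h1, h2, h3, h4, h5, rfl⟩ := h
  obtain ⟨C, C', k1, k2, k3, k4, k5, rfl⟩ := h'
  have h6 := ho.mono le_sup_left le_sup_left
  refine ⟨A ⊔ C, A' ⊔ C', h1.sup k1 h6, by rw [h1.finrank_sup h6, h2, k2],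
    (h3.sup_right (ho.mono le_sup_left le_sup_right)).sup_left
      ((ho.symm.mono le_sup_left le_sup_right).sup_right k3),
    by rw [Submodule.map_sup, h4, k4], by rw [Submodule.map_sup, h5, k5], sup_sup_sup_comm ..⟩

theorem BDec.sw [FiniteDimensional F V] {ι : Type} {Φ : ι → Submodule F V → Prop} {x : V ≃ₗ[F] V}
    {m : ℕ} {s : Multiset ι} {W : Submodule F V} (h : BDec P Φ s W)
    (hi : ∀ a ∈ s, ∀ B, Φ a B → Sw P x m B) : Sw P x (s.card * m) W := by
  induction h with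
  | nil => simpa using sw_bot x
  | cons h1 _ h3 ih =>
    rw [Multiset.card_cons, add_mul, one_mul, add_comm]
    exact (hi _ (by simp) _ h1).sup (ih fun a ha => hi a (by simp [ha])) h3

section finite

variable [Finite F] [FiniteDimensional F V] {x : V ≃ₗ[F] V} (hx : x ∈ P.Iso)
include hx

theorem Pr.sw (h2 : (2 : F) = 0) (h : ∀ x c, P.Val x c) (hx2 : x ^ 2 = 1) {B : Submodule F V}
    (hB : Pr P x 2 B) : Sw P x 2 B := by
  have hu := hB.ub hx
  have hd : finrank F B = 4 := by simpa using hu.jt.finrank_eq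
  obtain ⟨k, u, v, hk, rfl, h3, h4, h5, h6⟩ := hB
  obtain rfl : k = 1 := by omega
  simp only [pow_one] at h5 h6
  have hs : ∀ w, P.B w w = 0 := fun w => sing_B (h w 0)
  have hxx : ∀ w, x (x w) = w := fun w => by rw [← sq_apply, hx2]; rfl
  have h7 : P.B u (nil x v) ≠ 0 := by
    have := beta_adj hx h3 v
    simp only [pow_one] at this
    intro h0
    exact h5 (by rw [this, h0, mul_zero])
  obtain ⟨c, hc⟩ : ∃ c : F, P.B u v + P.σ c * P.B u (nil x v) = -P.B u (nil x v) :=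
    ⟨P.σ ((-P.B u (nil x v) - P.B u v) / P.B u (nil x v)), by rw [σσ]; field_simp; ring⟩
  have hu' : u ∈ cyc x ((F ∙ u) ⊔ (F ∙ v)) := le_cyc x _ (left_mem_pair u v)
  have hv' : v ∈ cyc x ((F ∙ u) ⊔ (F ∙ v)) := le_cyc x _ (right_mem_pair u v)
  have hw' : v + c • nil x v ∈ cyc x ((F ∙ u) ⊔ (F ∙ v)) :=
    Submodule.add_mem _ hv' (Submodule.smul_mem _ _ (hu.inv.nil hv'))
  have h8 : nil x (v + c • nil x v) = nil x v := by
    have : nil x (nil x v) = 0 := by simpa [pow_succ] using h4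
    rw [map_add, map_smul, this, smul_zero, add_zero]
  set w := v + c • nil x v with hw
  have h9 : P.B u w = -P.B u (nil x v) := by rw [hw, map_add, B_smul_right, hc]
  have h10 : P.B u (x w) = 0 := by rw [apply_eq_add x w, map_add, h8, h9, neg_add_cancel]
  have h11 : ∀ z ∈ cyc x ((F ∙ u) ⊔ (F ∙ v)), P.B z (x z) = 0 := fun z hz => by
    rw [apply_eq_add x z, map_add, hs, zero_add]
    exact P.B_symm (h6 z hz)
  have hn : Nd P ((F ∙ u) ⊔ (F ∙ w)) := nd_pair (by
    rw [hs, zero_mul, zero_sub, neg_ne_zero]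
    exact mul_ne_zero (P.B_ne_symm (h9 ▸ neg_ne_zero.2 h7)) (h9 ▸ neg_ne_zero.2 h7))
  have hf : finrank F ↥((F ∙ u) ⊔ (F ∙ w)) = 2 :=
    finrank_pair (by rintro rfl; simp at h7) (notMem_span_of_B (hs u) (h9 ▸ neg_ne_zero.2 h7))
  have ho : Ort P ((F ∙ u) ⊔ (F ∙ w)) (((F ∙ u) ⊔ (F ∙ w)).map (x : V →ₗ[F] V)) := by
    rw [Submodule.map_sup, Submodule.map_span, Submodule.map_span, Set.image_singleton,
      Set.image_singleton]
    refine ((ort_span_span (h11 u hu')).sup_right (ort_span_span h10)).sup_left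
      ((ort_span_span ?_).sup_right (ort_span_span (h11 w hw')))
    rw [← Iso.B hx, hxx]
    exact P.B_symm h10
  have hle : (F ∙ u) ⊔ (F ∙ w) ≤ cyc x ((F ∙ u) ⊔ (F ∙ v)) :=
    sup_le ((Submodule.span_singleton_le_iff_mem _ _).2 hu')
      ((Submodule.span_singleton_le_iff_mem _ _).2 hw')
  refine ⟨_, _, hn, hf, ho, rfl, ?_, (Submodule.eq_of_le_of_finrank_eq (sup_le hle
    ((Submodule.map_mono hle).trans (inv_iff_map_le.1 hu.inv))) ?_).symm⟩
  · rw [← Submodule.map_comp]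
    convert Submodule.map_id _
    ext z
    exact hxx z
  · rw [hn.finrank_sup ho, LinearEquiv.finrank_map_eq, hf, hd]

theorem od_of_i2 (hs : ∀ B, Pr P x 2 B → Sw P x 2 B) (b t : ℕ) {e j : ℕ} {W : Submodule F V}
    (h : BDec P (I2 P x) (Multiset.replicate e false + Multiset.replicate j true) W)
    (hd : e + 2 * j = b * t) : OD P x (2 * b) (Fin t) W := by
  induction t using Nat.strong_induction_on generalizing e j W with
  | h t ih =>
    rcases t with _ | _ | t
    · obtain ⟨rfl, rfl⟩ : e = 0 ∧ j = 0 := by omega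
      rw [h.eq_bot]
      exact OD.zero
    · obtain ⟨h1, h2, h3⟩ := h.i2 hx
      exact OD.one h1 h2 (by omega)
    by_cases hj : b ≤ j
    · obtain ⟨j, rfl⟩ := Nat.exists_eq_add_of_le hj
      obtain ⟨U₁, U₂, h1, h2, h3, rfl⟩ := h.split (s₁ := Multiset.replicate b true)
        (s₂ := Multiset.replicate e false + Multiset.replicate j true) (by
          rw [Multiset.replicate_add]; abel)
      have h4 := h1.sw (x := x) (m := 2) fun a ha B hB => by
        rw [Multiset.eq_of_mem_replicate ha] at hB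
        exact hs B hB
      rw [Multiset.card_replicate, mul_comm] at h4
      have := (OD.two hx h4).add (ih t (by omega) h2 (by nlinarith)) h3
      exact this.reindex (finCongr (by omega))
    · obtain ⟨e', j', h1, h2, h3⟩ : ∃ e' j', e' ≤ e ∧ j' ≤ j ∧ e' + 2 * j' = b := by
        have : 2 * b ≤ b * (t + 1 + 1) := by nlinarith
        by_cases h : 2 * j ≤ b
        · exact ⟨b - 2 * j, j, by omega, le_rfl, by omega⟩
        · exact ⟨b % 2, b / 2, by omega, by omega, by omega⟩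
      obtain ⟨e, rfl⟩ := Nat.exists_eq_add_of_le h1
      obtain ⟨j, rfl⟩ := Nat.exists_eq_add_of_le h2
      obtain ⟨U₁, U₂, h1, h2, h4, rfl⟩ := h.split
        (s₁ := Multiset.replicate e' false + Multiset.replicate j' true)
        (s₂ := Multiset.replicate e false + Multiset.replicate j true) (by
          rw [Multiset.replicate_add, Multiset.replicate_add]; abel)
      obtain ⟨h5, h6, h7⟩ := h1.i2 hx
      have := (OD.one h5 h6 (show _ = 2 * b by omega)).add
        (ih (t + 1) (by omega) h2 (by nlinarith)) h4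
      exact this.reindex (finCongr (by omega))

theorem exists_i2_planes (h : ∀ W, Nd P W → Inv x W → W ≠ ⊥ →
      ∃ B ≤ W, Nd P B ∧ Inv x B ∧ finrank F B = 2) :
    ∃ e j, BDec P (I2 P x) (Multiset.replicate e false + Multiset.replicate j true) ⊤ := by
  obtain ⟨s, hs⟩ := exists_bdec' (P := P) (Φ := I2 P x) (fun W => Nd P W ∧ Inv x W)
    (fun W hW h0 => by
      obtain ⟨B, h1, h2, h3, h4⟩ := h W hW.1 hW.2 h0
      exact ⟨false, B, h1, by rintro rfl; simp at h4, h2, ⟨h2, h3, h4⟩, hW.1.inf_perp h2 h1,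
        hW.2.inf (h3.perp hx)⟩) ⟨nd_top, inv_top x⟩
  rw [bool_multiset s] at hs
  exact ⟨_, _, hs⟩

omit hx in
theorem exists_iso_glue {A B : Submodule F V} (hA : Nd P A) (ho : Ort P A B) {g h : V ≃ₗ[F] V}
    (hg : g ∈ P.Iso) (hh : h ∈ P.Iso)
    (ho' : Ort P (A.map (g : V →ₗ[F] V)) (B.map (h : V →ₗ[F] V))) :
    ∃ k ∈ P.Iso, (∀ v ∈ A, k v = g v) ∧ ∀ v ∈ B, k v = h v := by
  have hc : IsCompl A (P.perp A) := ⟨disjoint_iff.2 hA, codisjoint_iff.2 hA.sup_perp⟩
  let φ := LinearMap.ofIsCompl hc ((g : V →ₗ[F] V) ∘ₗ A.subtype)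
    ((h : V →ₗ[F] V) ∘ₗ (P.perp A).subtype)
  have h1 : ∀ a ∈ A, φ a = g a := fun a ha => LinearMap.ofIsCompl_apply_left hc ⟨a, ha⟩
  have h2 : ∀ b ∈ B, φ b = h b := fun b hb =>
    LinearMap.ofIsCompl_apply_right hc ⟨b, ho.le_perp' hb⟩
  have h3 : ∀ a ∈ A, ∀ b ∈ B, P.B (g a) (h b) = 0 := fun a ha b hb =>
    ho' _ ⟨a, ha, rfl⟩ _ ⟨b, hb, rfl⟩
  obtain ⟨k, hk, hk'⟩ := witt (P := P) φ (A ⊔ B) (fun u hu h0 => by
      obtain ⟨a, ha, b, hb, rfl⟩ := Submodule.mem_sup.1 hu
      rw [map_add, h1 a ha, h2 b hb] at h0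
      obtain rfl : a = 0 := hA.eq_zero' ha fun a' ha' => by
        have := congrArg (P.B (g a')) h0
        rwa [map_add, h3 a' ha' b hb, add_zero, Iso.B hg, map_zero] at this
      simpa using h0)
    (fun u hu u' hu' => by
      obtain ⟨a, ha, b, hb, rfl⟩ := Submodule.mem_sup.1 hu
      obtain ⟨a', ha', b', hb', rfl⟩ := Submodule.mem_sup.1 hu'
      simp only [map_add, h1 a ha, h2 b hb, h1 a' ha', h2 b' hb', LinearMap.add_apply,
        Iso.B hg, Iso.B hh, h3 a ha b' hb', P.B_symm (h3 a' ha' b hb), ho a ha b' hb',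
        P.B_symm (ho a' ha' b hb)])
    (fun u hu => by
      obtain ⟨a, ha, b, hb, rfl⟩ := Submodule.mem_sup.1 hu
      obtain ⟨c, hc⟩ := P.val_ex a
      obtain ⟨d, hd⟩ := P.val_ex b
      rw [map_add, h1 a ha, h2 b hb]
      exact ⟨c + d, val_add_orth hc hd (ho a ha b hb),
        val_add_orth (Iso.val hg hc) (Iso.val hh hd) (h3 a ha b hb)⟩)
  exact ⟨k, hk, fun v hv => (hk' v (Submodule.mem_sup_left hv)).trans (h1 v hv),
    fun v hv => (hk' v (Submodule.mem_sup_right hv)).trans (h2 v hv)⟩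

omit hx in
theorem IsOD.exists_iso {a : ℕ} {κ : Type} [Fintype κ] {D D' : κ → Submodule F V}
    {W W' : Submodule F V} (h : IsOD P a D W) (h' : IsOD P a D' W')
    (hc : ∀ j, Cj P (D j) (D' j)) : ∃ g ∈ P.Iso, ∀ j, (D j).map (g : V →ₗ[F] V) = D' j := by
  classical
  suffices H : ∀ s : Finset κ, ∃ g ∈ P.Iso, ∀ j ∈ s, (D j).map (g : V →ₗ[F] V) = D' j by
    obtain ⟨g, hg, hg'⟩ := H Finset.univ
    exact ⟨g, hg, fun j => hg' j (Finset.mem_univ _)⟩
  intro s
  induction s using Finset.induction_on with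
  | empty => exact ⟨1, P.Iso.one_mem, by simp⟩
  | insert i s hi ih =>
    obtain ⟨g', hg', h1⟩ := ih
    obtain ⟨g, hg, h2⟩ := hc i
    have h3 : ∀ j ∈ s, i ≠ j := fun j hj h => hi (h ▸ hj)
    obtain ⟨k, hk, h4, h5⟩ := exists_iso_glue (B := ⨆ j ∈ s, D j) (h.nd i)
      (ort_iSup fun j => ort_iSup fun hj => h.ort i j (h3 j hj)) hg hg' (by
        simp only [Submodule.map_iSup, h2]
        exact ort_iSup fun j => ort_iSup fun hj => h1 j hj ▸ h'.ort i j (h3 j hj))
    have h6 : ∀ {U : Submodule F V} {g : V ≃ₗ[F] V}, (∀ v ∈ U, k v = g v) →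
        U.map (k : V →ₗ[F] V) = U.map (g : V →ₗ[F] V) := fun h => by
      ext v
      exact exists_congr fun u => and_congr_right fun hu => by simp [h u hu]
    refine ⟨k, hk, fun j hj => ?_⟩
    rcases Finset.mem_insert.1 hj with rfl | hj
    · rw [h6 h4, h2]
    · rw [h6 fun v hv => h5 v (Submodule.mem_iSup_of_mem j (Submodule.mem_iSup_of_mem hj hv)),
        h1 j hj]

end finite

theorem factorial_dvd_card_od {a t : ℕ} (ha : 0 < a) (Ω : (Fin t → Submodule F V) → Prop)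
    (hΩ : ∀ D, Ω D ↔ IsOD P a D ⊤) : t.factorial ∣ Nat.card {D // Ω D} := by
  classical
  let act : MulAction (Equiv.Perm (Fin t)) {D // Ω D} :=
    { smul := fun σ D => ⟨D.1 ∘ σ.symm, (hΩ _).2 (((hΩ _).1 D.2).comp _)⟩
      one_smul := fun D => rfl
      mul_smul := fun g g' D => rfl }
  have hfree : ∀ D : {D // Ω D}, MulAction.stabilizer (Equiv.Perm (Fin t)) D = ⊥ := by
    intro D
    rw [eq_bot_iff]
    intro σ hσ
    have h1 := (hΩ _).mp D.2
    have hinj := h1.indep.injective (fun k hk => by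
      have := h1.dim k
      rw [hk, finrank_bot] at this
      omega)
    have h4 : D.1 ∘ σ.symm = D.1 := congrArg Subtype.val hσ
    rw [Subgroup.mem_bot]
    ext k
    have := hinj (congrFun h4 (σ k))
    simp only [Equiv.symm_apply_apply] at this
    simp [← this]
  rw [Nat.card_congr (MulAction.selfEquivOrbitsQuotientProd hfree), Nat.card_prod,
    Nat.card_perm, Nat.card_fin]
  exact dvd_mul_left _ _

theorem Inv.exists_kl [FiniteDimensional F V] {x : V ≃ₗ[F] V} {B : Submodule F V} (h : Inv x B) :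
    ∃ f : F[X], f.Monic ∧ f.natDegree = finrank F B ∧ Kl x f B := by
  refine ⟨_, LinearMap.charpoly_monic ((x : V →ₗ[F] V).restrict h),
    LinearMap.charpoly_natDegree _, fun v hv => ?_⟩
  rw [← coe_aeval_restrict h _ ⟨v, hv⟩, LinearMap.aeval_self_charpoly]
  rfl

theorem ker_sub_one (x : V ≃ₗ[F] V) : LinearMap.ker ((x : Module.End F V) - 1) = Fix x := by
  ext v
  simp [sub_eq_zero]

section fin

variable [Fintype F] [FiniteDimensional F V] {r : ℕ} [hr : Fact r.Prime] {p : ℕ}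
  [hp : Fact p.Prime] [CharP F p]

/-- A non-trivial `r`-group of isometries gives an element of order `r`. -/
theorem exists_order_of_dvd_card (hrp : r ≠ p) {X : Type*} [MulAction P.Iso X] (Ω : X → Prop)
    (h1 : ∀ (g : P.Iso) x, Ω x → Ω (g • x)) (h2 : ∀ x y, Ω x → Ω y → ∃ g : P.Iso, g • x = y)
    (h : r ∣ Nat.card {x // Ω x}) {x₀ : X} (h0 : Ω x₀) : ∃ x ∈ P.Iso, x ^ r = 1 ∧ x ≠ 1 := by
  have := finite_equiv (F := F) (V := V)
  obtain ⟨S, hS, hS'⟩ := exists_pgroup_of_dvd_card Ω h1 h2 h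
  obtain ⟨x, hx, hxr, hx'⟩ := exists_fix_eq_top hrp hS
  refine ⟨x, hx, hxr, ?_⟩
  rintro rfl
  obtain ⟨s, hs, hs'⟩ := hS' x₀ h0
  have : s = 1 := Subtype.ext (LinearEquiv.ext fun v => (hx' v).1 rfl s hs)
  exact hs' (by rw [this, one_smul])

theorem sp_od_two [Nontrivial V] (h : ∀ x c, P.Val x c) (hσ : ∀ a, P.σ a = a) (hε : P.ε = -1)
    {b t : ℕ} (hn : finrank F V = 2 * b * t) {x : V ≃ₗ[F] V} (hx : x ∈ P.Iso) {z : F}
    (hz : ∀ v, (x ^ 2) v = z • v) : OD P x (2 * b) (Fin t) ⊤ := by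
  have hL := lam_sp h
  have hev := sp_even h
  suffices H : (∀ B, Pr P x 2 B → Sw P x 2 B) ∧ ∃ e j,
      BDec P (I2 P x) (Multiset.replicate e false + Multiset.replicate j true) ⊤ by
    obtain ⟨h1, e, j, h2⟩ := H
    have h3 := (h2.i2 hx).2.2
    rw [finrank_top, hn] at h3
    exact od_of_i2 hx h1 b t h2 (by nlinarith)
  have h1 := eq_or_eq_neg_of_id hσ (norm_eq_one_of_smul (P.Iso.pow_mem hx 2) hz)
  by_cases h2 : (2 : F) = 0
  · have : CharP F 2 := CharTwo.of_one_ne_zero_of_two_eq_zero one_ne_zero h2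
    obtain rfl : z = 1 := by
      rcases h1 with h1 | h1
      · exact h1
      · rw [h1, CharTwo.neg_eq]
    have h3 := pow_eq_one_of_smul hz
    exact ⟨fun B => Pr.sw hx h2 h h3, exists_i2 hx hev nd_top (inv_top x)
      fun v _ => pow_char_eq_one_iff.1 h3 v⟩
  refine ⟨fun B hB => absurd (sp_pr h2 hε hx 2 B hB) (by decide),
    exists_i2_planes hx fun W hW hi h0 => ?_⟩
  have two_le : ∀ U, Nd P U → U ≠ ⊥ → 2 ≤ finrank F U := fun U hU h0 => by
    have := Submodule.finrank_eq_zero.not.2 h0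
    obtain ⟨k, hk⟩ := hev U hU
    omega
  rcases h1 with rfl | rfl
  · obtain ⟨p, hp⟩ := CharP.exists F
    have : Fact p.Prime := ⟨CharP.char_is_prime F p⟩
    have : Fact (Nat.Prime 2) := ⟨Nat.prime_two⟩
    have hp2 : 2 ≠ p := by rintro rfl; exact h2 (CharP.cast_eq_zero F 2)
    have h3 := pow_eq_one_of_smul hz
    by_cases h4 : W ⊓ Fix x = ⊥
    · have h5 := sup_Fix_Kr hp2 h3 hi
      rw [h4, sup_bot_eq, inf_eq_left] at h5
      obtain ⟨B, h6, h7, h8⟩ := hL.sub W hW 2 (two_le W hW h0) dvd_rfl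
      exact ⟨B, h6, h7, inv_of_le_Kr_two (h6.trans h5), h8⟩
    · have h5 := nd_inf_Fix hp2 hx h3 hW hi
      obtain ⟨B, h6, h7, h8⟩ := hL.sub _ h5 2 (two_le _ h5 h4) dvd_rfl
      exact ⟨B, h6.trans inf_le_left, h7, inv_of_le_Fix (h6.trans inf_le_right), h8⟩
  · have hk : Kl x (X ^ 2 - C (-1)) W := kl_of_pow_eq fun v _ => hz v
    rcases blk_neg_one h2 hσ hx hz with ⟨-, h3⟩ | ⟨-, h3⟩
    · exact h3.exists_nd hx hW hi hk 1 (two_le W hW h0)
    · exact h3.exists_nd hx hW hi hk 1 (two_le W hW h0)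

variable (hrp : r ≠ p)
include hrp

theorem Lam.od_of {δ I c A l : ℕ} (hL : Lam P δ) (h : Blk P.σ (cyclotomic r F) I c) (hδ : δ ∣ c)
    (hδ' : δ ∣ l) {x : V ≃ₗ[F] V} (hx : x ∈ P.Iso) (t : ℕ) {K U : Submodule F V} {N : ℕ}
    (hK : Nd P K) (hi : Inv x K) (hK' : K ≤ Kr x (cyclotomic r F)) (hU : Nd P U) (hU' : U ≤ Fix x)
    (hN : finrank F K = N * c) (hNt : N ≤ t * A) (hd : N * c + finrank F U = t * (A * c + l)) :
    OD P x (A * c + l) (Fin t) (K ⊔ U) := by
  induction t generalizing K U N with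
  | zero =>
    obtain rfl : N = 0 := by omega
    rw [Submodule.finrank_eq_zero.1 (show finrank F K = 0 by omega),
      Submodule.finrank_eq_zero.1 (show finrank F U = 0 by omega), bot_sup_eq]
    exact OD.zero
  | succ t ih =>
    obtain ⟨N₁, N₂, rfl, h1, h2⟩ : ∃ N₁ N₂, N = N₁ + N₂ ∧ N₁ ≤ A ∧ N₂ ≤ t * A := by
      by_cases h : N ≤ A
      · exact ⟨N, 0, rfl, h, Nat.zero_le _⟩
      · exact ⟨A, N - A, by omega, le_rfl, by rw [add_mul] at hNt; omega⟩
    obtain ⟨A', rfl⟩ := Nat.exists_eq_add_of_le h1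
    have hk : Kl x (cyclotomic r F) K := (kl_Kr _ _).mono hK'
    obtain ⟨K₁, h3, h4, h5, h6⟩ := h.exists_nd hx hK hi hk N₁ (by rw [hN]; nlinarith)
    have h7 := Nat.mul_le_mul_right c h2
    obtain ⟨U₁, h8, h9, h10⟩ := hL.sub U hU (A' * c + l) (by nlinarith)
      (dvd_add (hδ.mul_left _) hδ')
    have ho : Ort P K U := (ort_Kr_Fix hrp hx).mono hK' hU'
    obtain ⟨h11, h12, h13⟩ := glue_nd hrp hx (h8.trans hU') (h3.trans hK') h9 h4 h5
    have h14 := hK.finrank_inf_perp h3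
    have h15 := hU.finrank_inf_perp h8
    have := (OD.one h11 h12 (show _ = (N₁ + A') * c + l by rw [h13, h10, h6]; ring)).add
      (ih (hK.inf_perp h4 h3) (hi.inf (h5.perp hx)) (inf_le_left.trans hK') (hU.inf_perp h9 h8)
        (inf_le_left.trans hU') (N := N₂) (by nlinarith) h2 (by nlinarith))
      (((ho.symm.mono h8 inf_le_left).sup_right (ort_inf_perp _ _)).sup_left
        ((ort_inf_perp _ _).sup_right (ho.mono h3 inf_le_left)))
    rw [sup_comm U₁, sup_sup_sup_comm, h4.sup_inf_perp h3, h9.sup_inf_perp h8] at this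
    exact this.reindex (finCongr (by omega))

theorem Lam.od_iff {δ I c a t : ℕ} (hL : Lam P δ) (h : Blk P.σ (cyclotomic r F) I c) (hI : 0 < I)
    (hcr : c ∣ r - 1) (hδ : δ ∣ c) (hδ' : δ ∣ a) (ha : 2 ≤ a) (hn : finrank F V = a * t)
    (hex : ∃ x ∈ P.Iso, x ^ r = 1 ∧ x ≠ 1) :
    (∀ x ∈ P.Iso, x ^ r = 1 → x ≠ 1 → OD P x a (Fin t) ⊤) ↔
      (c ≤ a ∧ finrank F V % c = t * (a % c)) := by
  have hc0 := h.pos hI
  have hr1 := hr.out.one_lt
  constructor
  · intro H
    obtain ⟨x, hx, hxr, hx1⟩ := hex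
    obtain ⟨B, y₀, hB, hBc, hy₀⟩ := h.exists_block hrp hI hx hxr hx1
    have hcn : c ≤ finrank F V := hBc ▸ Submodule.finrank_le B
    obtain ⟨f, hf, hfd, hfk⟩ := hy₀.inv.exists_kl
    have h1m : (X - 1 : F[X]).Monic := by simpa using monic_X_sub_C (1 : F)
    have h1d : (X - 1 : F[X]).natDegree = 1 := by simpa using natDegree_X_sub_C (1 : F)
    have key : ∀ s, 0 < s → s * c ≤ finrank F V →
        (∃ b : Fin t → ℕ, ∑ k, b k + s * c = finrank F V ∧ ∀ k, ∃ l, a = b k + l * c) ∨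
        (c = r - 1 ∧ a + s * c ≤ finrank F V ∧ a ≤ s) := by
      intro s hs0 hs
      obtain ⟨D₀, hD₀⟩ := hL.exists_copies hB s (by rwa [hBc])
      obtain ⟨y, hy, hyk⟩ := hD₀.exists_fpf_kl hB hy₀ hfk
      have h1 := hD₀.nd hB
      have h2 := hD₀.finrank_eq hB
      rw [hBc] at h2
      have h3 : finrank F (Fix y) + s * c = finrank F V := by
        have := finrank_Kr_Fix hrp hy.pow (inv_top y)
        rw [top_inf_eq, top_inf_eq, hy.Kr_eq hrp h1, finrank_top] at this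
        omega
      obtain ⟨D, hD, σ, hσ⟩ := H y hy.iso hy.pow (hy.ne_one (by
        rintro rfl
        rw [finrank_bot] at h2
        nlinarith))
      by_cases h5 : ∀ k, σ k = k
      · left
        have hinv : ∀ k, Inv y (D k) := fun k => inv_iff_map_le.2 (by rw [hσ, h5])
        have h6 := finrank_ker_eq_sum (f := (y : Module.End F V) - 1) hD.indep hD.sup
          fun k v hv => (D k).sub_mem (hinv k v hv) hv
        rw [ker_sub_one] at h6
        refine ⟨_, h6 ▸ h3, fun k => ?_⟩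
        obtain ⟨j, -, hj⟩ := h.exists_finrank_nd hrp hy.iso hy.pow (hD.nd k) (hinv k)
        exact ⟨j, hD.dim k ▸ hj⟩
      · right
        push Not at h5
        obtain ⟨k, hk⟩ := h5
        have hσr : σ ^ r = 1 := perm_pow_eq_one hD.indep (fun k hk => by
          have := hD.dim k
          rw [hk, finrank_bot] at this
          omega) hσ (z := 1) (by rw [← coe_pow', hy.pow, one_smul]; rfl) one_ne_zero
        have h6 := fun {g : F[X]} =>
          mul_sub_le_finrank_range y.injective hD.indep hσ hr.out hσr hk (P := g)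
        have h7 := h6 (mul_ne_zero hf.ne_zero h1m.ne_zero)
        have h8 : ∀ v, aeval (y : Module.End F V) (X - 1 : F[X]) v ∈ D₀ := fun v => by
          rw [aeval_X_sub_one_apply]
          exact FixIso.sub_mem hy.mem v
        have h9 : aeval (y : Module.End F V) (f * (X - 1)) = 0 := LinearMap.ext fun v => by
          rw [aeval_mul_apply, hyk _ (h8 v)]; rfl
        rw [h9, LinearMap.range_zero, finrank_bot, natDegree_mul hf.ne_zero h1m.ne_zero, hfd, h1d,
          hD.dim, hBc] at h7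
        have h10 : c = r - 1 := by
          have := Nat.le_of_dvd (by omega) hcr
          rcases Nat.mul_eq_zero.mp (Nat.le_zero.mp h7) with h | h <;> omega
        have h11 := (h6 (cyclotomic_ne_zero r F)).trans (Submodule.finrank_mono
          (show _ ≤ Fix y by
            rintro _ ⟨v, rfl⟩
            rw [← Kr_X_sub_one, mem_Kr, ← aeval_mul_apply, mul_comm, cyc_mul]
            exact kl_of_pow_eq_one (W := ⊤) (fun v _ => by rw [hy.pow]; rfl) v trivial))
        rw [natDegree_cyc, hD.dim, show r - (r - 1) = 1 by omega, mul_one] at h11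
        have h12 := (h6 h1m.ne_zero).trans (Submodule.finrank_mono
          (show _ ≤ D₀ by rintro _ ⟨v, rfl⟩; exact h8 v))
        rw [h1d, hD.dim, ← h10, h2] at h12
        exact ⟨h10, by omega, Nat.le_of_mul_le_mul_right h12 hc0⟩
    have hlt := Nat.mod_lt (finrank F V) hc0
    have hdm := Nat.div_add_mod' (finrank F V) c
    have hca : c ≤ a := by
      by_contra! hcon
      rcases key 1 one_pos (by omega) with ⟨b, hb1, hb2⟩ | h1
      · have hb3 : ∀ k, b k = a := by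
          intro k
          obtain ⟨l, hl⟩ := hb2 k
          rcases Nat.eq_zero_or_pos l with h | h
          · simp [hl, h]
          · nlinarith
        simp only [hb3, Finset.sum_const, Finset.card_univ, Fintype.card_fin, smul_eq_mul] at hb1
        rw [mul_comm t, ← hn] at hb1
        omega
      · omega
    refine ⟨hca, ?_⟩
    rcases key _ (Nat.div_pos hcn hc0) (Nat.div_mul_le_self _ _) with ⟨b, hb1, hb2⟩ | h1
    · have hb3 : ∀ k, b k = a % c := by
        intro k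
        obtain ⟨l, hl⟩ := hb2 k
        have : b k ≤ ∑ k, b k :=
          Finset.single_le_sum (fun _ _ => Nat.zero_le _) (Finset.mem_univ k)
        rw [hl, Nat.add_mul_mod_self_right, Nat.mod_eq_of_lt (by omega)]
      simp only [hb3, Finset.sum_const, Finset.card_univ, Fintype.card_fin, smul_eq_mul] at hb1
      omega
    · omega
  · rintro ⟨h1, h2⟩ x hx hxr -
    obtain ⟨N, h3, h4⟩ := h.exists_finrank_top hrp hx hxr
    have h5 := Nat.div_add_mod' a c
    have hlt := Nat.mod_lt (finrank F V) hc0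
    have h6 : finrank F V = t * (a / c * c + a % c) := by rw [h5, hn, mul_comm]
    have := hL.od_of hrp h hδ ((Nat.dvd_mod_iff hδ).2 hδ') hx t (A := a / c) (nd_Kr hrp hx hxr)
      (inv_Kr _ _) le_rfl (nd_Fix hrp hx hxr) le_rfl h3 (by
        by_contra! hcon
        have := Nat.mul_le_mul_right c (Nat.succ_le_of_lt hcon)
        nlinarith) (by omega)
    have h7 := sup_Fix_Kr hrp hxr (inv_top x)
    rwa [h5, ← top_inf_eq (Kr _ _), ← top_inf_eq (Fix _), h7] at this

omit hrp in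
theorem Lam.exists_od {δ a : ℕ} (hL : Lam P δ) (hδ : δ ∣ a) (t : ℕ) {W : Submodule F V}
    (hW : Nd P W) (hd : finrank F W = a * t) : OD P 1 a (Fin t) W := by
  induction t generalizing W with
  | zero => rw [Submodule.finrank_eq_zero.1 hd]; exact OD.zero
  | succ t ih =>
    obtain ⟨U, h1, h2, h3⟩ := hL.sub W hW a (by nlinarith) hδ
    have h4 := hW.finrank_inf_perp h1
    have := (OD.one h2 (inv_one U) h3).add (ih (hW.inf_perp h2 h1) (by nlinarith))
      (ort_inf_perp _ _)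
    rw [h2.sup_inf_perp h1] at this
    exact this.reindex (finCongr (by omega))

theorem Lam.exists_order_od {δ a t : ℕ} (hL : Lam P δ) (ha : 0 < a) (hδ : δ ∣ a)
    (hn : finrank F V = a * t) (Ω : (Fin t → Submodule F V) → Prop)
    (hΩ : ∀ D, Ω D ↔ IsOD P a D ⊤) (h : r ∣ Nat.card {D // Ω D} / t.factorial) :
    ∃ x ∈ P.Iso, x ^ r = 1 ∧ x ≠ 1 := by
  obtain ⟨D₀, h0, -⟩ := hL.exists_od hδ t nd_top (by rwa [finrank_top])
  exact exists_order_of_dvd_card hrp Ω (fun g D hD => (hΩ _).2 (((hΩ _).1 hD).map g.2))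
    (fun D D' hD hD' => by
      rw [hΩ] at hD hD'
      obtain ⟨g, hg, hg'⟩ := hD.exists_iso hD' fun j =>
        hL.cj _ _ (hD.nd j) (hD'.nd j) (by rw [hD.dim, hD'.dim])
      exact ⟨⟨g, hg⟩, funext hg'⟩)
    (h.trans (Nat.div_dvd_of_dvd (factorial_dvd_card_od ha Ω hΩ))) ((hΩ _).2 h0)

end fin

theorem isOD_iff {ι : Type} [Fintype ι] [DecidableEq ι] {P : Polar F (ι → F)} {a t : ℕ} (ha : 0 < a)
    (ht : 2 ≤ t) {D : Fin t → Submodule F (ι → F)} :
    (Geo.IsMDecomposition a D ∧ (∀ j, ∀ u ∈ D j, u ≠ 0 → ∃ v ∈ D j, P.B u v ≠ 0) ∧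
      (∀ j j', j ≠ j' → ∀ u ∈ D j, ∀ v ∈ D j', P.B u v = 0)) ↔ IsOD P a D ⊤ :=
  ⟨fun h => ⟨h.1.finrank_eq, fun j => nd_iff'.2 (h.2.1 j), h.2.2, h.1.iSup_eq_top⟩,
    fun h => ⟨⟨ht, ha, h.dim, h.indep, h.sup⟩, fun j => nd_iff'.1 (h.nd j), h.ort⟩⟩

end Cfsg.Agent.H4.El
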