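import Cfsg.Agent.H4.ElO6

/-!
Orthogonal groups: the final criteria.
-/

set_option autoImplicit false

namespace Cfsg.Agent.H4.El

open Module Polynomial H7 H7.Polar H8 QuadraticMap

theorem div_aux {n m c : ℕ} (hc : 0 < c) (h : n % c = m % c) :
    (n + m - 2 * (n % c)) / c = n / c + m / c := by
  have e1 := Nat.div_add_mod' n c
  have e2 := Nat.div_add_mod' m c
  rw [show n + m - 2 * (n % c) = (n / c + m / c) * c by rw [add_mul]; omega,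
    Nat.mul_div_cancel _ hc]

variable {F : Type*} [Field F] {V : Type*} [AddCommGroup V] [Module F V] {Q : QuadraticForm F V}
  {hQ : ND Q} [Fintype F] [FiniteDimensional F V]
  {r : ℕ} [hr : Fact r.Prime] {p : ℕ} [hp : Fact p.Prime] [CharP F p]

omit [FiniteDimensional F V] in
theorem odd_card_iff : Odd (Fintype.card F) ↔ p ≠ 2 := by
  refine ⟨fun h h2 => ?_, fun h => ?_⟩
  · subst h2
    exact two_ne_zero_of_odd_card h (CharTwo.two_eq_zero (R := F))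
  · by_contra h1
    exact two_ne_zero_of_ne h (two_eq_zero_of_not_odd_card h1)

theorem isSquare_two_iff' (hp2 : p ≠ 2) :
    IsSquare (2 : F) ↔ (Fintype.card F % 8 = 1 ∨ Fintype.card F % 8 = 7) := by
  have := Nat.odd_iff.1 ((odd_card_iff (F := F)).2 hp2)
  rw [FiniteField.isSquare_two_iff]; omega

variable (hn : 7 ≤ finrank F V)
include hn

theorem orth_ts_iff {m : ℕ} (hm0 : 0 < m) (hm : 2 * m < finrank F V) (Ω : Submodule F V → Prop)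
    (hΩ : ∀ W, Ω W ↔ finrank F W = m ∧ Ts (qP hQ) W) (hrΩ : r ∣ Nat.card {W // Ω W}) {i c : ℕ}
    (hi : i = orderOf (Fintype.card F : ZMod r)) (hc : c = if Even i then i else 2 * i) :
    Elu (qP hQ).E r (fun x => ∃ W, Ω W ∧ Inv x W) ↔
      ((r = 2 ∧ p ≠ 2 ∧ (IsSquare (-1 : F) ∨
        ((2 * m + 3 ≤ finrank F V ∨ (Even (finrank F V) ∧ ¬ Plus Q ⊤)) ∧ (T2 Q → Even m)))) ∨
      (r ≠ p ∧ 2 < r ∧ Odd i ∧ i ≤ m ∧ ((0 < finrank F V % c ∨ Plus Q ⊤) →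
        (2 * (m % i) < finrank F V % c ∨ (2 * (m % i) = finrank F V % c ∧ Plus Q ⊤)))) ∨
      (r ≠ p ∧ 2 < r ∧ Even i ∧ i ≤ m ∧ (r - 1) / i + 2 * (m / i) ≤ finrank F V / i ∧
        ((2 * (m % i) ≤ i ∧ finrank F V % c = 0 ∧ ¬ (Even (finrank F V / i) ↔ Plus Q ⊤) ∧
          (r - 1) / i + 2 * (m / i) < finrank F V / i) ∨
        (2 * (m % i) ≤ finrank F V % c ∧ (Even (finrank F V / i) ↔ Plus Q ⊤)) ∨
        (2 * (m % i) < finrank F V % c ∧ ¬ (Even (finrank F V / i) ↔ Plus Q ⊤))))) := by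
  simp only [hΩ] at hrΩ ⊢
  have hrp : r ≠ p := by
    rintro rfl
    exact not_char_dvd_ts_q hm hrΩ
  by_cases hr2 : r = 2
  · subst hr2
    rw [orth_ts_two hrp.symm hn hm0 hm]
    simp [hrp.symm]
  have hr3 : 2 < r := lt_of_le_of_ne hr.out.two_le (Ne.symm hr2)
  rw [elu_iff_odd hn hr.out hr2 (exists_inv_smul _)]
  rcases Nat.even_or_odd i with he | ho
  · rw [orth_ts_even hrp hr2 hi hc he (Or.inl hm) hrΩ, hc, if_pos he]
    simp only [hr2, hrp, hr3, he, Nat.not_odd_iff_even.2 he, false_and, false_or, true_and, ne_eq,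
      not_false_eq_true]
  · rw [orth_ts_odd hrp hr2 hi hc ho (Or.inl hm) hrΩ]
    simp only [hr2, hrp, hr3, ho, Nat.not_even_iff_odd.2 ho, false_and, false_or, true_and, ne_eq,
      not_false_eq_true, or_false]

theorem orth_nd_odd (hrp : r ≠ p) (hr2 : r ≠ 2) {δ : F} (hδ : δ ≠ 0) {m : ℕ} (hm0 : 0 < m)
    (hm : m < finrank F V) (hpar : Even m ∨ (2 : F) ≠ 0) (s : Prop) (Ω : Submodule F V → Prop)
    (hΩ : ∀ W, Ω W ↔ finrank F W = m ∧ Nd (qP hQ) W ∧ (Ty Q δ W ↔ s))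
    (hrΩ : r ∣ Nat.card {W // Ω W}) {i c : ℕ}
    (hi : i = orderOf (Fintype.card F : ZMod r)) (hc : c = if Even i then i else 2 * i) :
    ∃ C : Prop, (Elu (qP hQ).E r (fun x => ∃ W, Ω W ∧ Inv x W) ↔ C) ∧ (C → c ≤ m) ∧ 0 < c ∧
      Even c ∧ (C ↔ ((0 < finrank F V % c ∨ (Ty Q δ ⊤ ↔ (Odd i ∨ Even (finrank F V / c)))) →
        ((0 < m % c ∧ m % c < finrank F V % c) ∨ (m % c = 0 ∧ ((Odd i ∨ Even (m / c)) ↔ s)) ∨
          (m % c = finrank F V % c ∧ (((Odd i ∨ Even (finrank F V / c)) ↔ Ty Q δ ⊤) ↔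
            ((Odd i ∨ Even (m / c)) ↔ s)))))) := by
  have h := orth_nd_iff hrp hr2 hi hc hδ hm0 hm hpar s Ω hΩ hrΩ
  exact ⟨_, elu_iff_odd hn hr.out hr2 (exists_inv_smul _), h.2, c_pos hrp hi hc, c_even hc, h.1⟩

theorem orth_nd_two' (hp2 : p ≠ 2) {δ : F} (hδ : δ ≠ 0) {m : ℕ} (hm0 : 0 < m)
    (hm : m < finrank F V) (s : Prop) (Ω : Submodule F V → Prop)
    (hΩ : ∀ W, Ω W ↔ finrank F W = m ∧ Nd (qP hQ) W ∧ (Ty Q δ W ↔ s)) :
    Elu (qP hQ).E 2 (fun x => ∃ W, Ω W ∧ Inv x W) ↔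
      ((finrank F V % 2 = 0 ∧
        (Plus Q ⊤ ↔ (Fintype.card F % 4 = 1 ∨ finrank F V / 2 % 2 = 0)) ∧
        (Fintype.card F % 8 = 1 ∨ Fintype.card F % 8 = 7 ∨ finrank F V / 2 % 2 = 0)) →
        m % 2 = 0 ∧ ((Fintype.card F % 4 = 1 ∨ m / 2 % 2 = 0) ↔ s)) := by
  simp only [hΩ]
  rw [orth_nd_two hp2 hn hδ hm0 hm, T2, isSquare_neg_one_iff' hp2, isSquare_two_iff' hp2]
  simp only [Nat.even_iff, or_assoc]

theorem two_hyp_iff [CharP F 2] (ht : Plus Q ⊤) {m : ℕ} (hm0 : 0 < m) (hm : m ≤ finrank F V)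
    (he : Even m) (Ω : Submodule F V → Prop)
    (hΩ : ∀ W, Ω W ↔ finrank F W = m ∧ Nd (qP hQ) W ∧ Plus Q W) :
    Elu (qP hQ).E 2 (fun x => ∃ W, Ω W ∧ Inv x W) ↔ (finrank F V % 4 ≠ 0 ∨ m % 4 = 0) := by
  have : Nontrivial V := (finrank_pos_iff (R := F)).1 (by omega)
  constructor
  · intro H
    by_contra! hc
    obtain ⟨y, h1, h2, h3, -, h4⟩ := exists_uni12 (hQ := hQ) (p := 2) 0 (finrank F V / 4) (by omega)
      (Or.inr ht) (by omega)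
    obtain ⟨W, hW, h5⟩ := (elu_char_two E_le_Iso).1 H y h1 h2 h3
    obtain ⟨a, ha, k, h6, -⟩ := h4 W ((hΩ W).1 hW).2.1 h5
    have := ((hΩ W).1 hW).1
    omega
  · refine fun H => (elu_char_two E_le_Iso).2 fun y hy h1 _ => ?_
    obtain ⟨U, h2, h3, h4⟩ := two_plus_sub (E_le_Iso hy) h1 ht hm he H.symm
    exact ⟨U, (hΩ U).2 ⟨h4, h2.nd, h2.plus⟩, h3⟩

theorem two_ell_iff [CharP F 2] (ht : ¬ Plus Q ⊤) {m : ℕ} (hm0 : 0 < m) (hm : m ≤ finrank F V)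
    (he : Even m) (Ω : Submodule F V → Prop)
    (hΩ : ∀ W, Ω W ↔ finrank F W = m ∧ Nd (qP hQ) W ∧ ¬ Plus Q W) :
    Elu (qP hQ).E 2 (fun x => ∃ W, Ω W ∧ Inv x W) ↔ (finrank F V % 4 ≠ 2 ∨ m % 4 = 2) := by
  have : Nontrivial V := (finrank_pos_iff (R := F)).1 (by omega)
  have := Nat.even_iff.1 he
  constructor
  · intro H
    by_contra! hc
    obtain ⟨y, h1, h2, h3, -, h4⟩ := exists_uni12 (hQ := hQ) (p := 2) 2 (finrank F V / 4) (by omega)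
      (Or.inl two_pos) (by omega)
    obtain ⟨W, hW, h5⟩ := (elu_char_two E_le_Iso).1 H y h1 h2 h3
    obtain ⟨a, ha, k, h6, h7, -⟩ := h4 W ((hΩ W).1 hW).2.1 h5
    have := ((hΩ W).1 hW).1
    exact ((hΩ W).1 hW).2.2 (h7 (by omega))
  · refine fun H => (elu_char_two E_le_Iso).2 fun y hy h1 _ => ?_
    obtain ⟨U, h2, h3, h4, h5⟩ := two_minus_sub (E_le_Iso hy) h1 ht (by omega) hm he H.symm
    exact ⟨U, (hΩ U).2 ⟨h5, h2, h3⟩, h4⟩

/-- Elliptic subspaces of a hyperbolic space. -/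
theorem not_elu_ell_plus (ht : Plus Q ⊤) (Ω : Submodule F V → Prop)
    (hΩ : ∀ W, Ω W → Even (finrank F W) ∧ Nd (qP hQ) W ∧ ¬ Plus Q W) :
    ¬ Elu (qP hQ).E p fun x => ∃ W, Ω W ∧ Inv x W := by
  have h0 := Nat.even_iff.1 ht.even
  rw [finrank_top] at h0
  obtain ⟨y, h1, h2, h3, -, h4⟩ := exists_uni12 (hQ := hQ) (p := p) (finrank F V % 4)
    (finrank F V / 4) (by omega) (Or.inr ht) (by omega)
  refine not_elu_of_char hn (E_le_Iso h1) (fun _ => h1) h2 h3 ?_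
  rintro ⟨W, hW, h5⟩
  obtain ⟨h6, h7, h8⟩ := hΩ W hW
  obtain ⟨a, ha, k, h9, h10, h11⟩ := h4 W h7 h5
  have := Nat.even_iff.1 h6
  by_cases h12 : a = 0
  · exact h8 (h10 h12)
  · have := (plus_perp nd_top h7 le_top ht.even h6).1 ht
    rw [top_inf_eq] at this
    exact h8 (this.2 (h11 (by omega)))

/-- Elliptic subspaces of a space of odd dimension. -/
theorem exists_der_odd (hp2 : p ≠ 2) (ho : Odd (finrank F V)) :
    ∃ y ∈ (qP hQ).Iso, y ^ p = 1 ∧ y ≠ 1 ∧ ∀ W, Nd (qP hQ) W → Inv y W → Even (finrank F W) →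
      finrank F W % 4 = 0 ∧ Plus Q W := by
  have := Nat.odd_iff.1 ho
  obtain ⟨y, h1, h2, h3, h4⟩ := exists_uni123 (hQ := hQ) hp2 (1 - finrank F V % 4 / 3)
    (finrank F V % 4 / 3) (finrank F V / 4) (by omega) (Or.inl (by omega)) (by omega)
  refine ⟨y, h1, h2, h3, fun W hW hi he => ?_⟩
  obtain ⟨a, ha, b, hb, k, h5, h6, -⟩ := h4 W hW hi
  have := Nat.even_iff.1 he
  obtain ⟨rfl, rfl⟩ : a = 0 ∧ b = 0 := by
    rcases (by omega : finrank F V % 4 = 1 ∨ finrank F V % 4 = 3) with h | h <;>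
      rw [h] at ha hb <;> omega
  exact ⟨by omega, h6 rfl rfl⟩

/-- Odd-dimensional subspaces of a space of dimension `2 mod 4`, or hyperbolic. -/
theorem exists_der_par (hp2 : p ≠ 2) (h : finrank F V % 4 = 2 ∨ Plus Q ⊤) {m : ℕ} (hm : Odd m) :
    ∃ y ∈ (qP hQ).Iso, y ^ p = 1 ∧ y ≠ 1 ∧ ∀ W, Nd (qP hQ) W → Inv y W → finrank F W ≠ m := by
  have := Nat.odd_iff.1 hm
  by_cases h0 : finrank F V % 4 = 2
  · obtain ⟨y, h1, h2, h3, h4⟩ := exists_uni123 (hQ := hQ) hp2 (2 * (m % 4 / 3))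
      (2 - 2 * (m % 4 / 3)) (finrank F V / 4 - (1 - m % 4 / 3)) (by omega) (Or.inl (by omega))
      (by omega)
    refine ⟨y, h1, h2, h3, fun W hW hi => ?_⟩
    obtain ⟨a, ha, b, hb, k, h5, -⟩ := h4 W hW hi
    rcases (by omega : m % 4 = 1 ∨ m % 4 = 3) with h | h <;> rw [h] at ha hb <;> omega
  · have ht := h.resolve_left h0
    have h5 := Nat.even_iff.1 ht.even
    rw [finrank_top] at h5
    obtain ⟨y, h1, h2, h3, h4⟩ := exists_uni123 (hQ := hQ) hp2 0 0 (finrank F V / 4) (by omega)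
      (Or.inr ht) (by omega)
    refine ⟨y, h1, h2, h3, fun W hW hi => ?_⟩
    obtain ⟨a, ha, b, hb, k, h5, -⟩ := h4 W hW hi
    omega

theorem exists_der_class (hp2 : p ≠ 2) (h : finrank F V % 4 = 0) {W₀ : Submodule F V}
    (h0 : Nd (qP hQ) W₀) (hm : Odd (finrank F W₀)) :
    ∃ y ∈ (qP hQ).Iso, y ^ p = 1 ∧ y ≠ 1 ∧ ∀ W, Cj (qP hQ) W W₀ → ¬ Inv y W := by
  have key : ∀ U, Nd (qP hQ) U → finrank F U % 4 = 1 →
      ∃ y ∈ (qP hQ).Iso, y ^ p = 1 ∧ y ≠ 1 ∧ ∀ W, Cj (qP hQ) W U → ¬ Inv y W := fun U h1 h2 => by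
    obtain ⟨y, h3, h4, h5, h6⟩ := exists_uni_class (hQ := hQ) hp2 (finrank F V / 4 - 1) (by omega)
      one_ne_zero (¬ Ty Q 1 U)
    exact ⟨y, h3, h4, h5, fun W hW hi => iff_not_self
      (hW.ty_iff.symm.trans (h6 W (hW.symm.nd h1) hi (hW.finrank_eq ▸ h2)))⟩
  have := Nat.odd_iff.1 hm
  by_cases h1 : finrank F W₀ % 4 = 1
  · exact key W₀ h0 h1
  have h2 := (qP hQ).finrank_perp W₀
  obtain ⟨y, h3, h4, h5, h6⟩ := key _ h0.perp (by omega)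
  refine ⟨y, h3, h4, h5, ?_⟩
  rintro W ⟨g, hg, rfl⟩ hi
  exact h6 _ ⟨g, hg, map_perp hg W⟩ (hi.perp h3)

/-- Elliptic subspaces of an elliptic space. -/
theorem exists_der_minus (hp2 : p ≠ 2) (he : Even (finrank F V)) :
    ∃ y ∈ (qP hQ).Iso, y ^ p = 1 ∧ y ≠ 1 ∧ ∀ W, Nd (qP hQ) W → Inv y W → Even (finrank F W) →
      ¬ Plus Q W → finrank F V % 4 = finrank F W % 4 := by
  have := Nat.even_iff.1 he
  obtain ⟨y, h1, h2, h3, h4⟩ := exists_uni123 (hQ := hQ) hp2 (1 + finrank F V % 4 / 2)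
    (1 - finrank F V % 4 / 2) (finrank F V / 4 - (1 - finrank F V % 4 / 2)) (by omega)
    (Or.inl (by omega)) (by omega)
  refine ⟨y, h1, h2, h3, fun W hW hi he h5 => ?_⟩
  obtain ⟨a, ha, b, hb, k, h6, h7, -⟩ := h4 W hW hi
  have := Nat.even_iff.1 he
  by_contra h8
  obtain ⟨rfl, rfl⟩ : a = 0 ∧ b = 0 := by
    rcases (by omega : finrank F V % 4 = 0 ∨ finrank F V % 4 = 2) with h | h <;>
      rw [h] at ha hb h8 <;> omega
  exact h5 (h7 rfl rfl)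

/-- Non-singular points in characteristic two. -/
theorem point_iff [CharP F 2] (Ω : Submodule F V → Prop)
    (hΩ : ∀ W, Ω W ↔ finrank F W = 1 ∧ ∃ v ∈ W, Q v ≠ 0) (hrΩ : r ∣ Nat.card {W // Ω W}) :
    Elu (qP hQ).E r (fun x => ∃ W, Ω W ∧ Inv x W) ↔
      (r = 2 ∧ (finrank F V % 4 ≠ 0 ∨ ¬ Plus Q ⊤)) := by
  have : Nontrivial V := (finrank_pos_iff (R := F)).1 (by omega)
  have h0 : ∀ W, Ω W → ∃ v, Q v ≠ 0 ∧ W = F ∙ v := fun W hW => by
    obtain ⟨h1, v, hv, h2⟩ := (hΩ W).1 hW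
    exact ⟨v, h2, (Submodule.eq_of_le_of_finrank_eq ((Submodule.span_singleton_le_iff_mem _ _).2 hv)
      (by rw [finrank_span_singleton (ne_zero_of_Q h2), h1])).symm⟩
  have h1 : ∀ v, Q v ≠ 0 → Ω (F ∙ v) := fun v hv => (hΩ _).2
    ⟨finrank_span_singleton (ne_zero_of_Q hv), v, Submodule.mem_span_singleton_self v, hv⟩
  have h2 : ∀ y ∈ (qP hQ).Iso, ∀ v, Q v ≠ 0 → Inv y (F ∙ v) → y v = v := fun y hy v hv hi => by
    obtain ⟨c, hc⟩ := Submodule.mem_span_singleton.1 (hi v (Submodule.mem_span_singleton_self v))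
    have h3 := iso_Q hy v
    rw [← hc, Q_smul] at h3
    obtain rfl : c = 1 := eq_one_of_pow_char (p := 2)
      (by rw [pow_two]; exact mul_right_cancel₀ hv (by rw [h3, one_mul]))
    rw [← hc, one_smul]
  by_cases hr2 : r = 2
  · subst hr2
    rw [elu_char_two E_le_Iso, and_iff_right rfl]
    constructor
    · intro H
      by_contra! hc
      obtain ⟨y, h3, h4, h5, h6, -⟩ := exists_uni12 (hQ := hQ) (p := 2) 0 (finrank F V / 4)
        (by omega) (Or.inr hc.2) (by omega)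
      obtain ⟨W, hW, h7⟩ := H y h3 h4 h5
      obtain ⟨v, hv, rfl⟩ := h0 W hW
      exact hv (h6 rfl v (h2 y (E_le_Iso h3) v hv h7))
    · intro H y hy h3 _
      obtain ⟨U, h4, h5, h6⟩ : ∃ U, Nd (qP hQ) U ∧ Inv y U ∧ finrank F U = 2 := by
        by_cases ht : Plus Q ⊤
        · obtain ⟨U, h4, h5⟩ := two_plus_sub (E_le_Iso hy) h3 ht (u := 2) (by omega) even_two
            (Or.inr (H.resolve_right (not_not.2 ht)))
          exact ⟨U, h4.nd, h5⟩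
        · obtain ⟨U, h4, -, h5⟩ := two_minus_sub (E_le_Iso hy) h3 ht le_rfl (by omega) even_two
            (Or.inl rfl)
          exact ⟨U, h4, h5⟩
      obtain ⟨v, h7, h8⟩ := exists_fix_of_plane (E_le_Iso hy) h3 h4 h5 h6
      exact ⟨_, h1 v h8, inv_of_le_Fix ((Submodule.span_singleton_le_iff_mem _ _).2 h7)⟩
  simp only [hr2, false_and, iff_false]
  rw [elu_iff_odd hn hr.out hr2 (exists_inv_smul _)]
  intro H
  obtain ⟨x, hx, hxr, hx'⟩ := exists_of_dvd_card (P := qP hQ) (p := 2) hr2 Ω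
    (fun W W' h3 h4 => by
      obtain ⟨v, hv, rfl⟩ := h0 W h4
      obtain ⟨g, hg, rfl⟩ := h3
      rw [Submodule.map_span, Set.image_singleton]
      exact h1 _ (by rwa [LinearEquiv.coe_coe, iso_Q hg]))
    (fun W W' h3 h4 => by
      obtain ⟨v, hv, rfl⟩ := h0 W h3
      obtain ⟨w, hw, rfl⟩ := h0 W' h4
      obtain ⟨c, hc⟩ := FiniteField.isSquare_of_char_two (ringChar.eq F 2) (Q v / Q w)
      have hc0 : c ≠ 0 := by rintro rfl; simp [hv, hw] at hc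
      rw [← Submodule.span_singleton_smul_eq hc0.isUnit w]
      exact cj_of_isom (isom_span (ne_zero_of_Q hv) (smul_ne_zero hc0 (ne_zero_of_Q hw))
        (by rw [Q_smul, ← hc, div_mul_cancel₀ _ hw]))) hrΩ
  obtain ⟨v, -, hv⟩ := (nd_top (P := qP hQ)).exists_Q_ne top_ne_bot
  obtain ⟨W, hW, h3⟩ := H x hx hxr (ne_one_of_not_le (hx' _ (h1 v hv)).1)
  obtain ⟨w, hw, rfl⟩ := h0 W hW
  exact (hx' _ hW).1 ((Submodule.span_singleton_le_iff_mem _ _).2 (h2 x hx w hw h3))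

omit hn in
theorem isom_iff_ty {W W₀ : Submodule F V} (h : Nd (qP hQ) W) (h₀ : Nd (qP hQ) W₀)
    (hd : finrank F W = finrank F W₀) : Isom Q W W₀ ↔ (Ty Q 1 W ↔ Ty Q 1 W₀) :=
  ⟨fun h1 => (cj_of_isom (hQ := hQ) h1).ty_iff, fun h1 => (cj_of_ty one_ne_zero h h₀ hd h1).isom⟩

end Cfsg.Agent.H4.El
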