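import Cfsg.Agent.H4.ElPair
import Cfsg.Agent.H4.ElO7

/-!
Endomorphisms with prescribed adjoint on nondegenerate subspaces: gluing and uniqueness.
-/

set_option autoImplicit false

namespace Cfsg.Agent.H4.El

open Module Polynomial H7 H7.Polar H8

variable {F : Type*} [Field F] {V : Type*} [AddCommGroup V] [Module F V] {P : Polar F V}

variable (P) in
/-- `J` preserves `W`, has square `ω` and adjoint `η J` there. -/
structure QS (η ω : F) (J : End F V) (W : Submodule F V) : Prop where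
  mem : ∀ v ∈ W, J v ∈ W
  sq : ∀ v ∈ W, J (J v) = ω • v
  adj : ∀ u ∈ W, ∀ v ∈ W, P.B (J u) v = η * P.B u (J v)

/-- A class of endomorphisms on subspaces that can be glued along orthogonal sums. -/
structure Glue (P : Polar F V) (D : End F V → Submodule F V → Prop) : Prop where
  bot : ∀ J, D J ⊥
  congr : ∀ J J' W, D J W → (∀ v ∈ W, J' v = J v) → D J' W
  sup : ∀ J A B, D J A → D J B → Ort P A B → D J (A ⊔ B)

theorem Glue.and {D D' : End F V → Submodule F V → Prop} (h : Glue P D)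
    (hc : ∀ J J' W, D J W → D' J W → (∀ v ∈ W, J' v = J v) → D' J' W) (hb : ∀ J, D' J ⊥)
    (hs : ∀ J A B, D' J A → D' J B → D' J (A ⊔ B)) : Glue P fun J W => D J W ∧ D' J W :=
  ⟨fun J => ⟨h.bot J, hb J⟩, fun J J' W h1 h2 => ⟨h.congr J J' W h1.1 h2, hc J J' W h1.1 h1.2 h2⟩,
    fun J A B h1 h2 ho => ⟨h.sup J A B h1.1 h2.1 ho, hs J A B h1.2 h2.2⟩⟩

theorem glue_qs (η ω : F) : Glue P (QS P η ω) where
  bot J := ⟨fun v hv => by simp [(Submodule.mem_bot F).1 hv],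
    fun v hv => by simp [(Submodule.mem_bot F).1 hv],
    fun u hu v _ => by simp [(Submodule.mem_bot F).1 hu]⟩
  congr J J' W h h' := ⟨fun v hv => h' v hv ▸ h.mem v hv,
    fun v hv => by rw [h' v hv, h' _ (h.mem v hv), h.sq v hv],
    fun u hu v hv => by rw [h' u hu, h' v hv, h.adj u hu v hv]⟩
  sup J A B h h' ho := by
    refine ⟨fun v hv => ?_, fun v hv => ?_, fun u hu v hv => ?_⟩
    · obtain ⟨a, ha, b, hb, rfl⟩ := Submodule.mem_sup.1 hv
      rw [map_add]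
      exact Submodule.add_mem_sup (h.mem a ha) (h'.mem b hb)
    · obtain ⟨a, ha, b, hb, rfl⟩ := Submodule.mem_sup.1 hv
      rw [map_add, map_add, h.sq a ha, h'.sq b hb, smul_add]
    · obtain ⟨a, ha, b, hb, rfl⟩ := Submodule.mem_sup.1 hu
      obtain ⟨c, hc, d, hd, rfl⟩ := Submodule.mem_sup.1 hv
      simp only [map_add, LinearMap.add_apply, h.adj a ha c hc, h'.adj b hb d hd,
        ho _ (h.mem a ha) d hd, ho a ha _ (h'.mem d hd), ho.symm _ (h'.mem b hb) c hc,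
        ho.symm b hb _ (h.mem c hc)]
      ring

namespace QS

variable {η ω : F} {J : End F V} {W U : Submodule F V}

theorem mono (h : QS P η ω J W) (hle : U ≤ W) (hU : ∀ v ∈ U, J v ∈ U) : QS P η ω J U :=
  ⟨hU, fun v hv => h.sq v (hle hv), fun u hu v hv => h.adj u (hle hu) v (hle hv)⟩

theorem inf_perp (h : QS P η ω J W) (hle : U ≤ W) (hU : ∀ v ∈ U, J v ∈ U) :
    QS P η ω J (W ⊓ P.perp U) :=
  h.mono inf_le_left fun v hv => ⟨h.mem v hv.1, fun u hu => by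
    rw [h.adj v hv.1 u (hle hu), hv.2 _ (hU u hu), mul_zero]⟩

theorem pair_le (h : QS P η ω J W) {v : V} (hv : v ∈ W) : (F ∙ v) ⊔ (F ∙ J v) ≤ W :=
  sup_le ((Submodule.span_singleton_le_iff_mem _ _).2 hv)
    ((Submodule.span_singleton_le_iff_mem _ _).2 (h.mem v hv))

theorem pair_mem (h : QS P η ω J W) {v : V} (hv : v ∈ W) :
    ∀ u ∈ (F ∙ v) ⊔ (F ∙ J v), J u ∈ (F ∙ v) ⊔ (F ∙ J v) := fun u hu => by
  obtain ⟨_, ha, _, hb, rfl⟩ := Submodule.mem_sup.1 hu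
  obtain ⟨a, rfl⟩ := Submodule.mem_span_singleton.1 ha
  obtain ⟨b, rfl⟩ := Submodule.mem_span_singleton.1 hb
  rw [map_add, map_smul, map_smul, h.sq v hv, add_comm, smul_smul]
  exact Submodule.add_mem_sup (Submodule.smul_mem _ _ (Submodule.mem_span_singleton_self v))
    (Submodule.smul_mem _ _ (Submodule.mem_span_singleton_self _))

theorem eq_zero (h : QS P η ω J W) (hω : ω ≠ 0) {v : V} (hv : v ∈ W) (h0 : J v = 0) : v = 0 := by
  have := h.sq v hv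
  rw [h0, map_zero, eq_comm, smul_eq_zero] at this
  exact this.resolve_left hω

theorem conj (h : QS P η ω J ⊤) {g : V ≃ₗ[F] V} (hg : g ∈ P.Iso) :
    QS P η ω ((g : End F V) * J * (g⁻¹ : V ≃ₗ[F] V)) ⊤ :=
  ⟨fun _ _ => trivial, fun v _ => by
    simp only [Module.End.mul_apply, LinearEquiv.coe_coe, inv_apply_apply, h.sq _ trivial,
      map_smul, apply_inv_apply], fun u _ v _ => by
    simp only [Module.End.mul_apply, LinearEquiv.coe_coe]
    rw [iso_B_left hg, iso_B_right hg, h.adj _ trivial _ trivial]⟩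

end QS

theorem map_pair_of {g : V ≃ₗ[F] V} {v w v' w' : V} (h1 : g v = v') (h2 : g w = w') :
    ((F ∙ v) ⊔ (F ∙ w)).map (g : V →ₗ[F] V) = (F ∙ v') ⊔ (F ∙ w') := by
  rw [Submodule.map_sup, Submodule.map_span, Submodule.map_span, Set.image_singleton,
    Set.image_singleton, LinearEquiv.coe_coe, h1, h2]

theorem eq_on_pair {f g : V →ₗ[F] V} {v w : V} (h1 : f v = g v) (h2 : f w = g w) :
    ∀ u ∈ (F ∙ v) ⊔ (F ∙ w), f u = g u := fun u hu => by
  obtain ⟨_, ha, _, hb, rfl⟩ := Submodule.mem_sup.1 hu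
  obtain ⟨a, rfl⟩ := Submodule.mem_span_singleton.1 ha
  obtain ⟨b, rfl⟩ := Submodule.mem_span_singleton.1 hb
  simp only [map_add, map_smul, h1, h2]

theorem Kr_conj (x g : V ≃ₗ[F] V) (f : F[X]) :
    Kr (g * x * g⁻¹) f = (Kr x f).map (g : V →ₗ[F] V) := by
  refine le_antisymm (fun v hv => ⟨g⁻¹ v, ?_, apply_inv_apply g v⟩) fun v hv =>
    (kl_Kr x f).conj g v hv
  have := (kl_Kr (g * x * g⁻¹) f).conj g⁻¹ (g⁻¹ v) ⟨v, hv, rfl⟩
  rwa [show g⁻¹ * (g * x * g⁻¹) * g⁻¹⁻¹ = x by group] at this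

theorem finrank_Kr_conj (x g : V ≃ₗ[F] V) (f : F[X]) :
    finrank F (Kr (g⁻¹ * x * g) f) = finrank F (Kr x f) := by
  have := Kr_conj x g⁻¹ f
  rw [inv_inv] at this
  rw [this, LinearEquiv.finrank_map_eq]

theorem finrank_Fix_conj (x g : V ≃ₗ[F] V) :
    finrank F (Fix (g⁻¹ * x * g)) = finrank F (Fix x) := by
  rw [← Kr_X_sub_one, ← Kr_X_sub_one, finrank_Kr_conj]

theorem finrank_Fix_of_rank [FiniteDimensional F V] {x : V ≃ₗ[F] V} (h1 : x ≠ 1) {e : V}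
    (h : ∀ v, x v - v ∈ F ∙ e) : finrank F (Fix x) + 1 = finrank F V := by
  have h2 := LinearMap.finrank_range_add_finrank_ker ((x : End F V) - 1)
  rw [ker_sub_one] at h2
  have h3 := Submodule.finrank_mono (show LinearMap.range ((x : End F V) - 1) ≤ F ∙ e by
    rintro _ ⟨v, rfl⟩; exact h v)
  have h4 := finrank_span_le_card (R := F) ({e} : Set V)
  have h5 : finrank F (Fix x) ≠ finrank F V := fun e => h1 (LinearEquiv.ext fun v =>
    mem_Fix.1 (Submodule.eq_top_of_finrank_eq e ▸ Submodule.mem_top (x := v)))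
  simp only [Set.toFinset_singleton, Finset.card_singleton] at h4
  omega

section finite

variable [Finite F] [FiniteDimensional F V]

theorem exists_glue_end {A : Submodule F V} (hA : Nd P A) (J J' : End F V) :
    ∃ K : End F V, (∀ a ∈ A, K a = J a) ∧ ∀ b ∈ P.perp A, K b = J' b :=
  ⟨LinearMap.ofIsCompl (isCompl_perp hA) (J ∘ₗ A.subtype) (J' ∘ₗ (P.perp A).subtype),
    fun a ha => LinearMap.ofIsCompl_apply_left (isCompl_perp hA) ⟨a, ha⟩,
    fun b hb => LinearMap.ofIsCompl_apply_right (isCompl_perp hA) ⟨b, hb⟩⟩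

theorem Glue.exists_sup {D : End F V → Submodule F V → Prop} (h : Glue P D) {A B : Submodule F V}
    (hA : Nd P A) (ho : Ort P A B) (h1 : ∃ J, D J A) (h2 : ∃ J, D J B) : ∃ J, D J (A ⊔ B) := by
  obtain ⟨J, h1⟩ := h1
  obtain ⟨J', h2⟩ := h2
  obtain ⟨K, h3, h4⟩ := exists_glue_end hA J J'
  exact ⟨K, h.sup _ _ _ (h.congr _ _ _ h1 h3) (h.congr _ _ _ h2 fun v hv => h4 v (ho.le_perp' hv)) ho⟩

theorem Glue.exists_of_peel {D : End F V → Submodule F V → Prop} (h : Glue P D)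
    (R : Submodule F V → Prop) (h1 : ∀ W, R W → W ≠ ⊥ → ∃ B ≤ W, B ≠ ⊥ ∧ Nd P B ∧ (∃ J, D J B) ∧
      R (W ⊓ P.perp B)) {W : Submodule F V} (hW : R W) : ∃ J, D J W := by
  obtain ⟨s, hs⟩ := exists_bdec' (P := P) (ι := Unit) (Φ := fun _ B => Nd P B ∧ ∃ J, D J B) R
    (fun W h2 h3 => let ⟨B, h4, h5, h6, h7, h8⟩ := h1 W h2 h3; ⟨(), B, h4, h5, h6, ⟨h6, h7⟩, h8⟩) hW
  clear hW
  induction hs with
  | nil => exact ⟨0, h.bot 0⟩
  | cons h2 _ ho ih => exact h.exists_sup h2.1 ho h2.2 ih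

theorem exists_iso_of_peel {J J' : End F V} (R : Submodule F V → Submodule F V → Prop)
    (hJ : ∀ W W', R W W' → ∀ v ∈ W, J v ∈ W)
    (h1 : ∀ W W', R W W' → W ≠ ⊥ → ∃ B ≤ W, B ≠ ⊥ ∧ Nd P B ∧ (∀ v ∈ B, J v ∈ B) ∧ ∃ g ∈ P.Iso,
      B.map (g : V →ₗ[F] V) ≤ W' ∧ (∀ v ∈ B, g (J v) = J' (g v)) ∧
      R (W ⊓ P.perp B) (W' ⊓ P.perp (B.map (g : V →ₗ[F] V))))
    {W W' : Submodule F V} (h : R W W') :
    ∃ g ∈ P.Iso, W.map (g : V →ₗ[F] V) ≤ W' ∧ ∀ v ∈ W, g (J v) = J' (g v) := by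
  induction hd : finrank F W using Nat.strong_induction_on generalizing W W' with
  | h d ih =>
    by_cases h0 : W = ⊥
    · subst h0
      exact ⟨1, P.Iso.one_mem, by simp, fun v hv => by simp [(Submodule.mem_bot F).1 hv]⟩
    obtain ⟨B, h2, h3, h4, h5, g, hg, h6, h7, h8⟩ := h1 W W' h h0
    have h9 : finrank F ↥(W ⊓ P.perp B) < d := hd ▸ Submodule.finrank_lt_finrank_of_lt
      (inf_le_left.lt_of_ne fun e => h3 (h4.eq_bot_of_ort
        (ort_of_le_perp (h2.trans (inf_eq_left.1 e)))))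
    obtain ⟨k, hk, h10, h11⟩ := ih _ h9 h8 rfl
    obtain ⟨l, hl, h12, h13⟩ := exists_iso_glue h4 (ort_inf_perp W B) hg hk
      ((ort_inf_perp W' _).mono le_rfl h10)
    refine ⟨l, hl, ?_, fun v hv => ?_⟩
    · rintro _ ⟨v, hv, rfl⟩
      obtain ⟨a, ha, b, hb, rfl⟩ := h4.exists_decomp h2 hv
      rw [LinearEquiv.coe_coe, map_add, h12 a ha, h13 b hb]
      exact W'.add_mem (h6 ⟨a, ha, rfl⟩) (h10 ⟨b, hb, rfl⟩).1
    · obtain ⟨a, ha, b, hb, rfl⟩ := h4.exists_decomp h2 hv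
      simp only [map_add, h12 a ha, h13 b hb, h12 _ (h5 a ha), h13 _ (hJ _ _ h8 b hb), h7 a ha,
        h11 b hb]

omit [FiniteDimensional F V] in
theorem exists_sq_sub_mul (h2 : (2 : F) ≠ 0) {ω : F} (hω : ω ≠ 0) (c : F) :
    ∃ a b : F, a ^ 2 - ω * b ^ 2 = c := by
  have := Fintype.ofFinite F
  obtain ⟨a, b, h⟩ := FiniteField.exists_root_sum_quadratic (f := X ^ 2 - C c)
    (g := C (-ω) * X ^ 2) (degree_X_pow_sub_C (by norm_num) c)
    (degree_C_mul_X_pow 2 (neg_ne_zero.2 hω)) (FiniteField.odd_card_of_char_ne_two fun e => h2 (by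
      have := ringChar.Nat.cast_ringChar (R := F)
      rwa [e] at this))
  refine ⟨a, b, ?_⟩
  simp only [eval_sub, eval_pow, eval_X, eval_C, eval_mul] at h
  linear_combination h

end finite

section fin

variable [Fintype F] [FiniteDimensional F V]

section sp

variable (h : ∀ x c, P.Val x c) (hσ : ∀ a, P.σ a = a) (hε : P.ε = -1) (h2 : (2 : F) ≠ 0)
include h hσ hε h2

omit h [Fintype F] [FiniteDimensional F V] in
theorem QS.exists_skew_ne {ω : F} (hω : ω ≠ 0) {J : End F V} {W : Submodule F V}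
    (hJ : QS P (-1) ω J W) (hW : Nd P W) (h0 : W ≠ ⊥) : ∃ v ∈ W, P.B v (J v) ≠ 0 := by
  by_contra! h1
  refine h0 (eq_bot_iff.2 fun v hv => hJ.eq_zero hω hv (hW.eq_zero' (hJ.mem v hv) fun u hu => ?_))
  have h3 := h1 _ (W.add_mem hu hv)
  have h4 := hJ.adj u hu v hv
  simp only [map_add, LinearMap.add_apply, h1 u hu, h1 v hv] at h3
  rw [P.herm (J u) v, hσ, hε, h4] at h3
  exact (mul_eq_zero.1 (by linear_combination h3)).resolve_left h2

omit [FiniteDimensional F V] in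
theorem QS.exists_skew_eq {ω : F} (hω : ω ≠ 0) {J : End F V} {W : Submodule F V}
    (hJ : QS P (-1) ω J W) (hW : Nd P W) (h0 : W ≠ ⊥) (t : F) : ∃ v ∈ W, P.B v (J v) = t := by
  obtain ⟨v, hv, h1⟩ := hJ.exists_skew_ne hσ hε h2 hω hW h0
  obtain ⟨a, b, hab⟩ := exists_sq_sub_mul h2 hω (t / P.B v (J v))
  refine ⟨a • v + b • J v, W.add_mem (W.smul_mem _ hv) (W.smul_mem _ (hJ.mem v hv)), ?_⟩
  simp only [map_add, map_smul, LinearMap.add_apply, LinearMap.smul_apply, LinearMap.map_smulₛₗ,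
    hσ, hJ.sq v hv, smul_eq_mul, sing_B (h _ 0), P.herm v (J v), hε]
  field_simp at hab
  linear_combination hab

theorem sp_skew_conj {ω : F} (hω : ω ≠ 0) {J J' : End F V} (hJ : QS P (-1) ω J ⊤)
    (hJ' : QS P (-1) ω J' ⊤) : ∃ g ∈ P.Iso, ∀ v, g (J v) = J' (g v) := by
  obtain ⟨g, hg, -, h1⟩ := exists_iso_of_peel (P := P) (J := J) (J' := J') (fun W W' => Nd P W ∧
    Nd P W' ∧ finrank F W = finrank F W' ∧ QS P (-1) ω J W ∧ QS P (-1) ω J' W')
    (fun W W' h => h.2.2.2.1.mem) (by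
      rintro W W' ⟨h1, h3, h4, h5, h6⟩ h0
      obtain ⟨v, hv, h7⟩ := h5.exists_skew_eq h hσ hε h2 hω h1 h0 1
      obtain ⟨v', hv', h8⟩ := h6.exists_skew_eq h hσ hε h2 hω h3 (by
        rintro rfl; exact h0 (Submodule.finrank_eq_zero.1 (by rw [h4, finrank_bot]))) 1
      have h9 : ∀ {v w : V}, P.B v w = 1 → v ≠ 0 ∧ w ∉ F ∙ v ∧ Nd P ((F ∙ v) ⊔ (F ∙ w)) :=
        fun {v w} e => ⟨by rintro rfl; simp at e, notMem_span_of_B (sing_B (h _ 0)) (by simp [e]),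
          nd_pair (by rw [sing_B (h v 0), P.herm v w, e, hσ, hε]; simp)⟩
      obtain ⟨g, hg, h10, h11⟩ := exists_iso_pair (h9 h7).1 (h9 h7).2.1 (h9 h8).1 (h9 h8).2.1
        (h _ 0) (h _ 0) (h _ 0) (h _ 0) (h8.trans h7.symm)
      have h12 := h1.finrank_inf_perp (h5.pair_le hv)
      have h13 := h3.finrank_inf_perp (h6.pair_le hv')
      rw [finrank_pair (h9 h7).1 (h9 h7).2.1] at h12
      rw [finrank_pair (h9 h8).1 (h9 h8).2.1] at h13
      refine ⟨_, h5.pair_le hv, fun e => (h9 h7).1 ((Submodule.eq_bot_iff _).1 e v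
        (left_mem_pair _ _)), (h9 h7).2.2, h5.pair_mem hv, g, hg, ?_⟩
      rw [map_pair_of h10 h11]
      exact ⟨h6.pair_le hv', eq_on_pair (f := (g : End F V) * J) (g := J' * g) (by simp [h10, h11])
        (by simp [h10, h11, h5.sq v hv, h6.sq v' hv']), h1.inf_perp (h9 h7).2.2 (h5.pair_le hv),
        h3.inf_perp (h9 h8).2.2 (h6.pair_le hv'), by omega,
        h5.inf_perp (h5.pair_le hv) (h5.pair_mem hv),
        h6.inf_perp (h6.pair_le hv') (h6.pair_mem hv')⟩) ⟨nd_top, nd_top, rfl, hJ, hJ'⟩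
  exact ⟨g, hg, fun v => h1 v trivial⟩

end sp

omit [Fintype F] [FiniteDimensional F V] in
theorem qs_of_sq_neg {x : V ≃ₗ[F] V} (hx : x ∈ P.Iso) (h : ∀ v, (x ^ 2) v = (-1 : F) • v) :
    QS P (-1) (-1) (x : End F V) ⊤ :=
  ⟨fun _ _ => trivial, fun v _ => h v, fun u _ v _ => by
    rw [LinearEquiv.coe_coe, ← hx.1 (x u), ← sq_apply, h]; simp⟩

theorem invol_conj {p : ℕ} [Fact p.Prime] [CharP F p] (hp2 : p ≠ 2) {x y : V ≃ₗ[F] V}
    (hx : x ∈ P.Iso) (hy : y ∈ P.Iso) (hx2 : x ^ 2 = 1) (hy2 : y ^ 2 = 1)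
    (h : Cj P (Kr x (cyclotomic 2 F)) (Kr y (cyclotomic 2 F))) :
    ∃ g ∈ P.Iso, ∀ v, g (x v) = y (g v) := by
  have : Fact (Nat.Prime 2) := ⟨Nat.prime_two⟩
  obtain ⟨g, hg, h1⟩ := h
  have h2 : (Fix x).map (g : V →ₗ[F] V) = Fix y := by
    rw [← perp_Kr hp2.symm hx hx2, ← perp_Kr hp2.symm hy hy2, map_perp hg, h1]
  refine ⟨g, hg, fun v => ?_⟩
  obtain ⟨a, ha, b, hb, rfl⟩ := Submodule.mem_sup.1 ((sup_Fix_Kr hp2.symm hx2 (inv_top x)).ge
    (Submodule.mem_top (x := v)))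
  have h3 := mem_Kr_two.1 (h1.le ⟨a, ha.2, rfl⟩)
  have h4 := mem_Fix.1 (h2.le ⟨b, hb.2, rfl⟩)
  rw [LinearEquiv.coe_coe] at h3 h4
  simp only [map_add, mem_Kr_two.1 ha.2, mem_Fix.1 hb.2, h3, h4, map_neg]

end fin

end Cfsg.Agent.H4.El
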