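import Cfsg.Agent.H4.ElTens
import Cfsg.Agent.H3.ExtMat

/-!
Normalisers of the algebra generated by one endomorphism.
-/

set_option autoImplicit false

namespace Cfsg.Agent.H4.El

open Module Polynomial H7 H7.Polar H8

theorem exists_pgroup_of_dvd_relIndex_conj {M : Type*} [Group M] [Finite M] {r : ℕ}
    [hr : Fact r.Prime] {H G : Subgroup M} (h : r ∣ H.relIndex G) :
    ∃ S : Subgroup M, IsPGroup r S ∧ S ≤ G ∧ ∀ g : M, (∀ x ∈ G, g⁻¹ * x * g ∈ G) →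
      ∃ s ∈ S, g⁻¹ * s * g ∉ H := by
  obtain ⟨S⟩ : Nonempty (Sylow r G) := inferInstance
  refine ⟨(S : Subgroup G).map G.subtype, S.isPGroup'.map _, Subgroup.map_subtype_le _,
    fun g hg => ?_⟩
  by_contra! h1
  have h2 : Nat.card S ∣ Nat.card (H.subgroupOf G) := by
    let φ : S →* H.subgroupOf G :=
      { toFun := fun s => ⟨⟨g⁻¹ * s.1.1 * g, hg _ s.1.2⟩, h1 _ ⟨s.1, s.2, rfl⟩⟩
        map_one' := by ext; simp
        map_mul' := fun a b => by ext; simp [mul_assoc] }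
    exact Subgroup.card_dvd_of_injective φ fun a b e => Subtype.ext (Subtype.ext
      (mul_left_cancel (mul_right_cancel (congrArg (fun x : H.subgroupOf G => x.1.1) e))))
  have h3 := mul_dvd_mul h2 h
  rw [Subgroup.relIndex, Subgroup.card_mul_index, ← (S : Subgroup G).card_mul_index] at h3
  exact S.not_dvd_index (Nat.dvd_of_mul_dvd_mul_left Nat.card_pos h3)

variable {F : Type*} [Field F] {V : Type*} [AddCommGroup V] [Module F V] {P : Polar F V}

/-- `z` normalises the algebra generated by `J`. -/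
def NJ (J : End F V) (z : V ≃ₗ[F] V) : Prop := ∃ f : F[X], ∀ v, z (J v) = aeval J f (z v)

theorem aeval_intertwine_on {J J' φ : End F V} {W : Submodule F V} (hW : ∀ v ∈ W, J v ∈ W)
    (h : ∀ v ∈ W, φ (J v) = J' (φ v)) (f : F[X]) {v : V} (hv : v ∈ W) :
    φ (aeval J f v) = aeval J' f (φ v) := by
  induction f using Polynomial.induction_on generalizing v with
  | C a => simp
  | add f g hf hg => simp [hf hv, hg hv]
  | monomial n a ih =>
    rw [pow_succ, ← mul_assoc, aeval_mul_apply J _ X, aeval_mul_apply J' _ X, aeval_X, aeval_X,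
      ih (hW v hv), h v hv]

theorem aeval_intertwine {J J' φ : End F V} (h : ∀ v, φ (J v) = J' (φ v)) (f : F[X]) (v : V) :
    φ (aeval J f v) = aeval J' f (φ v) :=
  aeval_intertwine_on (W := ⊤) (fun _ _ => trivial) (fun v _ => h v) f trivial

theorem adj_aeval_on (hσ : ∀ a, P.σ a = a) {J : End F V} {W : Submodule F V}
    (hW : ∀ v ∈ W, J v ∈ W) (h : ∀ u ∈ W, ∀ v ∈ W, P.B (J u) v = P.B u (J v)) (f : F[X]) {u v : V}
    (hu : u ∈ W) (hv : v ∈ W) : P.B (aeval J f u) v = P.B u (aeval J f v) := by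
  induction f using Polynomial.induction_on generalizing u v with
  | C a => simp [hσ]
  | add f g hf hg => simp [hf hu hv, hg hu hv]
  | monomial n a ih =>
    rw [pow_succ, ← mul_assoc, aeval_mul_apply J _ X, aeval_X, ih (hW u hu) hv, mul_comm _ X,
      aeval_mul_apply J X, aeval_X, h u hu]
    exact aeval_mem_of_invariant hW _ hv

theorem adj_aeval (hσ : ∀ a, P.σ a = a) {J : End F V} (h : ∀ u v, P.B (J u) v = P.B u (J v))
    (f : F[X]) (u v : V) : P.B (aeval J f u) v = P.B u (aeval J f v) :=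
  adj_aeval_on (W := ⊤) hσ (fun _ _ => trivial) (fun u _ v _ => h u v) f trivial trivial

theorem nj_of_sign {J J' : End F V} {x g : V ≃ₗ[F] V} {s : F} (h : ∀ v, x (J' v) = s • J' (x v))
    (hg : ∀ v, g (J v) = J' (g v)) : NJ J (g⁻¹ * x * g) := by
  refine ⟨C s * X, fun v => g.injective ?_⟩
  simp only [LinearEquiv.mul_apply, apply_inv_apply, hg, h, aeval_mul_apply, aeval_X, aeval_C,
    Module.algebraMap_end_apply, map_smul]

theorem NJ.of_smul {J : End F V} {x y : V ≃ₗ[F] V} {w : F} (h : ∀ v, x v = w • y v) (g : V ≃ₗ[F] V)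
    (hy : NJ J (g⁻¹ * y * g)) : NJ J (g⁻¹ * x * g) := by
  obtain ⟨f, hf⟩ := hy
  refine ⟨f, fun v => ?_⟩
  simp only [LinearEquiv.mul_apply] at hf ⊢
  rw [h, h, map_smul, map_smul, map_smul, hf]

theorem eq_of_aeval_apply {J : End F V} {m : F[X]} (hm : Irreducible m) (hJ : aeval J m = 0)
    {f : F[X]} {v : V} (h0 : v ≠ 0) (h : aeval J f v = 0) : aeval J f = 0 := by
  by_cases h1 : m ∣ f
  · obtain ⟨c, rfl⟩ := h1
    rw [map_mul, hJ, zero_mul]
  · obtain ⟨a, b, hab⟩ := coprime_of_not_dvd hm h1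
    have := congrArg (fun p => aeval J p v) hab
    simp only [map_add, LinearMap.add_apply, aeval_mul_apply, hJ, h, map_zero, map_one] at this
    exact absurd (by simpa using this.symm) h0

theorem NJ.comm_or [FiniteDimensional F V] {J : End F V} {m : F[X]} (hm : Irreducible m)
    (hJ : aeval J m = 0) {z : V ≃ₗ[F] V} (h : NJ J z) :
    (∀ v, z (J v) = J (z v)) ∨ 2 * finrank F (Fix z) ≤ finrank F V := by
  obtain ⟨f, hf⟩ := h
  refine or_iff_not_imp_left.2 fun h1 => ?_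
  have h2 : ∀ v, J v = 0 → v = 0 := fun v hv => by_contra fun h0 => h1 fun u => by
    have := eq_of_aeval_apply hm hJ (f := X) h0 (by simpa using hv)
    rw [aeval_X] at this
    simp [this]
  have h3 := finrank_map_of_inj (f := J) (G := Fix z) fun v _ => h2 v
  have h4 := finrank_sup_of_disjoint (show Disjoint (Fix z) ((Fix z).map J) from
    Submodule.disjoint_def.2 (by
      rintro _ hv ⟨v, hv', rfl⟩
      by_contra h0
      have := eq_of_aeval_apply hm hJ (f := f - X) (v := v) (by rintro rfl; simp at h0) (by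
        have := hf v
        rw [mem_Fix.1 hv, mem_Fix.1 hv'] at this
        simp [← this])
      rw [map_sub, aeval_X, sub_eq_zero] at this
      exact h1 fun u => by rw [hf, this]))
  have := Submodule.finrank_le (Fix z ⊔ (Fix z).map J)
  omega

theorem NJ.comm_of_coprime [Finite F] [Nontrivial V] {J : End F V} {m : F[X]} (hm : Irreducible m)
    (hJ : aeval J m = 0) {z : V ≃ₗ[F] V} (h : NJ J z) {r : ℕ} (hz : z ^ r = 1)
    (hr : Nat.Coprime m.natDegree r) (v : V) : z (J v) = J (z v) := by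
  obtain ⟨f, hf⟩ := h
  have := Fact.mk hm
  have := Fintype.ofFinite F
  have := finite_adjoinRoot hm.ne_zero
  let ψ : AdjoinRoot m →ₐ[F] End F V := Ideal.Quotient.liftₐ (Ideal.span {m}) (aeval J)
    fun a ha => by
      obtain ⟨c, rfl⟩ := Ideal.mem_span_singleton.1 ha
      rw [map_mul, hJ, zero_mul]
  have hψ : ∀ p, ψ (AdjoinRoot.mk m p) = aeval J p := fun _ => rfl
  have h1 : ∀ p v, z (aeval J p v) = ψ (aeval (AdjoinRoot.mk m f) p) (z v) := fun p v => by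
    rw [← aeval_algHom_apply, hψ]
    exact aeval_intertwine (φ := z) hf p v
  let φ := AdjoinRoot.liftAlgHom m (Algebra.ofId F _) (AdjoinRoot.mk m f) (ψ.toRingHom.injective
    (LinearMap.ext fun v => by
      obtain ⟨v, rfl⟩ := z.surjective v
      have := h1 m v
      rw [hJ] at this
      exact this.symm.trans (by simp)))
  have h2 : ∀ a v, z (ψ a v) = ψ (φ a) (z v) := fun a v => by
    obtain ⟨p, rfl⟩ := AdjoinRoot.mk_surjective a
    rw [hψ, h1, ← AdjoinRoot.aeval_eq p, ← aeval_algHom_apply φ, AdjoinRoot.liftAlgHom_root]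
  have h3 : ∀ n a v, (z ^ n) (ψ a v) = ψ ((φ ^ n) a) ((z ^ n) v) := fun n a v => by
    induction n with
    | zero => rfl
    | succ n ih => rw [pow_succ_apply, ih, h2, pow_succ', pow_succ_apply]; rfl
  have h4 : φ ^ r = 1 := AlgHom.ext fun a => ψ.toRingHom.injective (LinearMap.ext fun v => by
    have := h3 r a v
    rw [hz] at this
    exact this.symm)
  obtain ⟨j, hj⟩ := (FiniteField.bijective_frobeniusAlgHom_pow F (AdjoinRoot m)).2 φ
  simp only at hj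
  generalize (j : ℕ) = l at hj
  rw [← hj, ← pow_mul, ← orderOf_dvd_iff_pow_eq_one, FiniteField.orderOf_frobeniusAlgHom,
    (AdjoinRoot.powerBasis hm.ne_zero).finrank, AdjoinRoot.powerBasis_dim] at h4
  have h5 := hr.dvd_of_dvd_mul_right h4
  rw [← AdjoinRoot.powerBasis_dim hm.ne_zero, ← (AdjoinRoot.powerBasis hm.ne_zero).finrank,
    ← FiniteField.orderOf_frobeniusAlgHom, orderOf_dvd_iff_pow_eq_one, hj] at h5
  have h6 := h2 (AdjoinRoot.mk m X) v
  rwa [h5, AlgHom.one_apply, hψ, aeval_X] at h6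

theorem dvd_finrank_end [FiniteDimensional F V] {J : End F V} {m : F[X]} (hm : Irreducible m)
    {W : Submodule F V} (h1 : ∀ v ∈ W, J v ∈ W) (h2 : ∀ v ∈ W, aeval J m v = 0) :
    m.natDegree ∣ finrank F W :=
  dvd_finrank_of_invariant h1 h2 fun _ hg hd => (natDegree_eq_of_degree_eq
    (degree_eq_degree_of_associated (hg.associated_of_dvd hm hd))).symm.dvd

theorem exists_root_of_dvd [Finite F] {m : F[X]} (hm : Irreducible m) {L : Type*} [Field L]
    [Algebra F L] [Finite L] (h : m.natDegree ∣ finrank F L) : ∃ a : L, aeval a m = 0 := by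
  have := Fact.mk hm
  have := finite_adjoinRoot hm.ne_zero
  obtain ⟨φ⟩ := FiniteField.nonempty_algHom_of_finrank_dvd (F := F) (K := AdjoinRoot m) (L := L)
    (by rwa [(AdjoinRoot.powerBasis hm.ne_zero).finrank, AdjoinRoot.powerBasis_dim])
  exact ⟨_, AdjoinRoot.aeval_algHom_eq_zero m φ⟩

theorem irr_sq {ω : F} (hω : ¬ IsSquare ω) : Irreducible (X ^ 2 - C ω) :=
  X_pow_sub_C_irreducible_of_prime Nat.prime_two (not_sq_of_not_isSquare hω)

theorem QS.kill {η ω : F} {J : End F V} {W : Submodule F V} (h : QS P η ω J W) {v : V}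
    (hv : v ∈ W) : aeval J (X ^ 2 - C ω) v = 0 := by
  simp [pow_two, h.sq v hv]

theorem QS.even [FiniteDimensional F V] {η ω : F} {J : End F V} {W : Submodule F V}
    (h : QS P η ω J W) (hω : ¬ IsSquare ω) : Even (finrank F W) := by
  simpa [even_iff_two_dvd] using dvd_finrank_end (irr_sq hω) h.mem fun v hv => h.kill hv

theorem QS.of_pair (hσ : ∀ a, P.σ a = a) {η ω : F} {J : End F V} {v w : V}
    (h1 : J v ∈ (F ∙ v) ⊔ (F ∙ w)) (h2 : J w ∈ (F ∙ v) ⊔ (F ∙ w)) (h3 : J (J v) = ω • v)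
    (h4 : J (J w) = ω • w) (h5 : P.B (J v) v = η * P.B v (J v)) (h6 : P.B (J v) w = η * P.B v (J w))
    (h7 : P.B (J w) v = η * P.B w (J v)) (h8 : P.B (J w) w = η * P.B w (J w)) :
    QS P η ω J ((F ∙ v) ⊔ (F ∙ w)) := by
  refine ⟨fun u hu => ?_, fun u hu => ?_, fun u hu u' hu' => ?_⟩
  · obtain ⟨a, b, rfl⟩ := mem_span_pair'.1 hu
    rw [map_add, map_smul, map_smul]
    exact Submodule.add_mem _ (Submodule.smul_mem _ _ h1) (Submodule.smul_mem _ _ h2)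
  · obtain ⟨a, b, rfl⟩ := mem_span_pair'.1 hu
    simp only [map_add, map_smul, h3, h4]
    module
  · obtain ⟨a, b, rfl⟩ := mem_span_pair'.1 hu
    obtain ⟨c, d, rfl⟩ := mem_span_pair'.1 hu'
    simp only [map_add, map_smul, LinearMap.add_apply, LinearMap.smul_apply, LinearMap.map_smulₛₗ,
      hσ, smul_eq_mul, h5, h6, h7, h8]
    ring

theorem isSquare_of_rank {ω : F} {J N : End F V} (hJ : ∀ v, J (J v) = ω • v)
    (hc : ∀ v, J (N v) = N (J v)) {e : V} (hN : ∀ v, N v ∈ F ∙ e) {u : V} (h0 : N u ≠ 0) :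
    IsSquare ω := by
  obtain ⟨a, ha⟩ := Submodule.mem_span_singleton.1 (hN u)
  obtain ⟨b, hb⟩ := Submodule.mem_span_singleton.1 (hN (J u))
  have ha0 : a ≠ 0 := by rintro rfl; exact h0 (by simpa using ha.symm)
  have h1 : J (N u) = (b / a) • N u := by rw [hc, ← hb, ← ha, smul_smul, div_mul_cancel₀ _ ha0]
  have h2 := hJ (N u)
  rw [h1, map_smul, h1, smul_smul] at h2
  exact ⟨_, (smul_left_injective F h0 h2).symm⟩

theorem NJ.exists_comm [Finite F] [FiniteDimensional F V] [Nontrivial V] {η ω : F}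
    (hω : ¬ IsSquare ω) {J : End F V} (hJ : QS P η ω J ⊤) {y g : V ≃ₗ[F] V} (hg : g ∈ P.Iso)
    (h : NJ J (g⁻¹ * y * g)) {r : ℕ} (hy : y ^ r = 1) (hr : Odd r) :
    ∃ J', QS P η ω J' ⊤ ∧ ∀ v, y (J' v) = J' (y v) := by
  refine ⟨_, hJ.conj hg, fun v => ?_⟩
  have := congrArg g (h.comm_of_coprime (irr_sq hω) (LinearMap.ext fun v => hJ.kill trivial)
    (r := r) (by
      have := conj_pow (a := g⁻¹) (b := y) (i := r)
      rw [inv_inv] at this
      rw [this, hy, mul_one, inv_mul_cancel]) (by simpa using hr) (g⁻¹ v))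
  simp only [LinearEquiv.mul_apply, apply_inv_apply] at this
  exact this

/-- Every element of `S` preserves `W` and commutes with `J` there up to the factor `c`. -/
def Cm (S : Set (V ≃ₗ[F] V)) (c : F) (J : End F V) (W : Submodule F V) : Prop :=
  ∀ s ∈ S, ∀ v ∈ W, s v ∈ W ∧ s (J v) = c • J (s v)

theorem Glue.cm {D : End F V → Submodule F V → Prop} (h : Glue P D) (S : Set (V ≃ₗ[F] V)) (c : F) :
    Glue P fun J W => D J W ∧ Cm S c J W :=
  h.and (fun J J' W _ h1 h2 s hs v hv => ⟨(h1 s hs v hv).1, by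
      rw [h2 v hv, h2 _ (h1 s hs v hv).1, (h1 s hs v hv).2]⟩)
    (fun J s _ v hv => by simp [(Submodule.mem_bot F).1 hv]) fun J A B h1 h2 s hs v hv => by
      obtain ⟨a, ha, b, hb, rfl⟩ := Submodule.mem_sup.1 hv
      simp only [map_add, (h1 s hs a ha).2, (h2 s hs b hb).2, smul_add, and_true]
      exact Submodule.add_mem_sup (h1 s hs a ha).1 (h2 s hs b hb).1

variable [Fintype F] [FiniteDimensional F V] {r : ℕ} [hr : Fact r.Prime] {p : ℕ}
  [hp : Fact p.Prime] [CharP F p]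

omit hp [CharP F p] in
theorem exists_central_res {S : Subgroup (V ≃ₗ[F] V)} (hS : IsPGroup r S) (hSI : S ≤ P.Iso)
    {W : Submodule F V} (hW : Nd P W) (hi : ∀ s ∈ S, Inv s W) (h : ¬ ∀ s ∈ S, W ≤ Fix s) :
    ∃ y ∈ P.Iso, y ^ r = 1 ∧ Inv y W ∧ ¬ W ≤ Fix y ∧ ∀ s ∈ S, ∀ v ∈ W, y (s v) = s (y v) := by
  have := finite_equiv (F := F) (V := V)
  let K : Subgroup S :=
    { carrier := {s | ∀ v ∈ W, (s : V ≃ₗ[F] V) v = v}
      mul_mem' := fun {a b} ha hb v hv => by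
        rw [Subgroup.coe_mul, LinearEquiv.mul_apply, hb v hv, ha v hv]
      one_mem' := fun v _ => rfl
      inv_mem' := fun {a} ha v hv => by
        conv_lhs => rw [← ha v hv]
        exact inv_apply_apply _ _ }
  have : K.Normal := ⟨fun a ha g v hv => by
    simp only [Subgroup.coe_mul, LinearEquiv.mul_apply]
    rw [ha _ (hi _ (g⁻¹).2 v hv)]
    exact apply_inv_apply _ _⟩
  obtain ⟨z, hz1, hz2, hz3⟩ := exists_central_mod hS K fun hK => h fun s hs =>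
    (hK ▸ Subgroup.mem_top _ : (⟨s, hs⟩ : S) ∈ K)
  obtain ⟨y, hy, hy'⟩ := hW.exists_res (hSI z.2) (hi _ z.2)
  refine ⟨y, hy.1, fixIso_pow_eq_one hW hy fun v hv => ?_, fixIso_inv hy le_rfl,
    fun h4 => hz1 fun v hv => (hy' v hv).symm.trans (h4 hv), fun s hs v hv => ?_⟩
  · rw [pow_apply_congr (hi _ z.2) hy' r v hv]; exact hz2 v hv
  · have h7 := congrArg ((z : V ≃ₗ[F] V) * s) (hz3 ⟨s, hs⟩ v hv)
    rw [← LinearEquiv.mul_apply] at h7
    simp only [Subgroup.coe_mul, InvMemClass.coe_inv, mul_inv_cancel_left,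
      LinearEquiv.mul_apply] at h7
    rw [hy' _ (hi s hs v hv), ← h7, ← hy' v hv]

omit hp [CharP F p] in
theorem Glue.exists_comm {D : End F V → Submodule F V → Prop} (hD : Glue P D)
    (hm : ∀ J W, D J W → ∀ v ∈ W, J v ∈ W) {δ : ℕ}
    (h0 : ∀ W, Nd P W → δ ∣ finrank F W → ∃ J, D J W)
    (h1 : ∀ y ∈ P.Iso, y ^ r = 1 → ∀ W, Nd P W → Inv y W → ¬ W ≤ Fix y → ∃ f f' : F[X],
      W ⊓ Kr y f ≠ ⊥ ∧ Nd P (W ⊓ Kr y f) ∧ δ ∣ finrank F ↥(W ⊓ Kr y f) ∧
        D (aeval (y : End F V) f') (W ⊓ Kr y f))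
    (hn : δ ∣ finrank F V) {S : Subgroup (V ≃ₗ[F] V)} (hS : IsPGroup r S) (hSI : S ≤ P.Iso) :
    ∃ J, D J ⊤ ∧ ∀ s ∈ S, ∀ v, s (J v) = J (s v) := by
  obtain ⟨J, h2, h3⟩ := (hD.cm S 1).exists_of_peel
    (fun W => Nd P W ∧ δ ∣ finrank F W ∧ ∀ s ∈ S, Inv s W) (W := ⊤) (by
      rintro W ⟨h2, h3, h4⟩ h5
      suffices H : ∃ B ≤ W, B ≠ ⊥ ∧ Nd P B ∧ δ ∣ finrank F B ∧ ∃ J, D J B ∧ Cm S 1 J B by
        obtain ⟨B, h6, h7, h8, h9, J, h10, h11⟩ := H
        refine ⟨B, h6, h7, h8, ⟨J, h10, h11⟩, h2.inf_perp h8 h6, ?_, fun s hs =>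
          (h4 s hs).inf (Inv.perp (hSI hs) fun v hv => (h11 s hs v hv).1)⟩
        rw [← h2.finrank_inf_perp h6] at h3
        exact (Nat.dvd_add_left h9).1 h3
      by_cases h : ∀ s ∈ S, W ≤ Fix s
      · obtain ⟨J, hJ⟩ := h0 W h2 h3
        exact ⟨W, le_rfl, h5, h2, h3, J, hJ, fun s hs v hv => ⟨h4 s hs v hv, by
          rw [mem_Fix.1 (h s hs hv), mem_Fix.1 (h s hs (hm J W hJ v hv)), one_smul]⟩⟩
      obtain ⟨y, h6, h7, h8, h9, h10⟩ := exists_central_res hS hSI h2 h4 h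
      obtain ⟨f, f', h11, h12, h13, h14⟩ := h1 y h6 h7 W h2 h8 h9
      exact ⟨_, inf_le_left, h11, h12, h13, _, h14, fun s hs v hv =>
        ⟨inv_inf_Kr_of_comm (h4 s hs) h8 (h10 s hs) f v hv, by
          rw [one_smul]
          exact aeval_intertwine_on (φ := s) h8 (fun v hv => (h10 s hs v hv).symm) f' hv.1⟩⟩)
    ⟨nd_top, by rwa [finrank_top], fun s _ => inv_top s⟩
  exact ⟨J, h2, fun s hs v => by simpa using (h3 s hs v trivial).2⟩

omit [FiniteDimensional F V] in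
theorem tau_sqrt (hp2 : p ≠ 2) (hrp : r ≠ p) {k : ℕ} (hk : 0 < k)
    (hi : orderOf (Fintype.card F : ZMod r) = 2 * k) {g : F[X]} [Fact (Irreducible g)]
    (hd : g ∣ cyclotomic r F) {σ : F →+* F} (hσ : ∀ a, σ a = a) (h : SD σ g) {ω : F}
    (hω : ¬ IsSquare ω) {a : AdjoinRoot g} (ha : a ^ 2 = algebraMap F _ ω) :
    tau h a = ((-1 : F) ^ k) • a := by
  have hα := isPrimitiveRoot_root hrp hd
  have h1 : ∀ b, tau h b = (FiniteField.frobeniusAlgHom F (AdjoinRoot g) ^ k) b := fun b => by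
    obtain ⟨f, rfl⟩ := AdjoinRoot.mk_surjective b
    rw [tau_mk, show σ = RingHom.id F from RingHom.ext hσ, Polynomial.map_id,
      ← AdjoinRoot.aeval_eq f, ← aeval_algHom_apply]
    congr 2
    simp only [AlgHom.coe_pow, FiniteField.coe_frobeniusAlgHom, pow_iterate]
    rw [eq_comm, ← mul_eq_one_iff_eq_inv₀ (hα.ne_zero hr.out.ne_zero), ← pow_succ,
      hα.pow_eq_one_iff_dvd, ← ZMod.natCast_eq_zero_iff, Nat.cast_succ, add_eq_zero_iff_eq_neg,
      Nat.cast_pow]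
    exact pow_half_eq_neg_one hk hi
  have h2 : FiniteField.frobeniusAlgHom F (AdjoinRoot g) a = (-1 : F) • a := by
    have hc : ringChar F ≠ 2 := by rwa [ringChar.eq F p]
    have h0 : ω ≠ 0 := by rintro rfl; simp at hω
    have h3 := (FiniteField.pow_dichotomy hc h0).resolve_left
      (mt (FiniteField.isSquare_iff hc h0).2 hω)
    have h4 := FiniteField.odd_card_of_char_ne_two hc
    rw [FiniteField.coe_frobeniusAlgHom]
    simp only
    rw [← Nat.div_add_mod (Fintype.card F) 2, h4, pow_succ, pow_mul, ha, ← map_pow, h3,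
      Algebra.smul_def]
  rw [h1]
  clear hi hk h1
  induction k with
  | zero => simp
  | succ k ih => rw [pow_succ', AlgHom.mul_apply, ih, map_smul, h2, smul_smul, pow_succ]

theorem exists_qs_block (hσ : ∀ a, P.σ a = a) (hp2 : p ≠ 2) (hrp : r ≠ p) (hr2 : r ≠ 2) {k : ℕ}
    (hi : orderOf (Fintype.card F : ZMod r) = 2 * k) {ω : F} (hω : ¬ IsSquare ω) {y : V ≃ₗ[F] V}
    (hy : y ∈ P.Iso) (hyr : y ^ r = 1) {W : Submodule F V} (hW : Nd P W) (hi' : Inv y W)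
    (h : ¬ W ≤ Fix y) : ∃ f f' : F[X], W ⊓ Kr y f ≠ ⊥ ∧ Nd P (W ⊓ Kr y f) ∧
      QS P ((-1) ^ k) ω (aeval (y : End F V) f') (W ⊓ Kr y f) := by
  have h0 := orderOf_card_pos (F := F) hrp
  have h1 := sdp_of_id hrp hr2 hσ (hi ▸ even_two_mul k)
  obtain ⟨g, hg, hm, hd, u, hu, hu0, hug⟩ := ((kl_Kr _ _).mono inf_le_right).exists_irr
    (hi'.inf (inv_Kr _ _)) (cyclotomic_ne_zero r F) fun e => h (by
      have h4 := sup_Fix_Kr hrp hyr hi'
      rw [e, bot_sup_eq, inf_eq_left] at h4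
      exact h4)
  have := Fact.mk hg
  have := finite_adjoinRoot hg.ne_zero
  obtain ⟨a, ha⟩ := exists_root_of_dvd (irr_sq hω) (L := AdjoinRoot g) (by
    rw [(AdjoinRoot.powerBasis hg.ne_zero).finrank, AdjoinRoot.powerBasis_dim, h1.deg g hg hm hd,
      hi]
    simp)
  simp only [map_sub, map_pow, aeval_X, aeval_C, sub_eq_zero] at ha
  have h2 := tau_sqrt hp2 hrp (by omega) hi hd hσ (h1.sd g hg hm hd) hω ha
  obtain ⟨f, rfl⟩ := AdjoinRoot.mk_surjective a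
  obtain ⟨c, hc⟩ := id hd
  have h3 := (SDP.primary hy (hc ▸ h1) hg hm (nd_inf_Kr hrp hy hyr hW hi') (hi'.inf (inv_Kr _ _))
    (hc ▸ (kl_Kr _ _).mono inf_le_right)).1
  rw [inf_assoc, inf_eq_right.2 (show Kr y g ≤ Kr y (cyclotomic r F) from fun v hv =>
    aeval_eq_zero_of_dvd hd hv)] at h3
  refine ⟨g, f, (Submodule.ne_bot_iff _).2 ⟨u, ⟨hu.1, hug⟩, hu0⟩, h3,
    fun v hv => (hi'.inf (inv_Kr _ _)).aeval f hv, fun v hv => ?_, fun u hu v hv => ?_⟩
  · rw [← aeval_mul_apply, ← act_mk hm hv.2, map_mul, ← sq, ha, Algebra.algebraMap_eq_smul_one,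
      map_smul, act_one hm hv.2]
  · rw [← act_mk hm hu.2, B_act hm hy (h1.sd g hg hm hd) hu.2 hv.2, h2, map_smul, act_mk hm hv.2,
      LinearMap.map_smulₛₗ, hσ, smul_eq_mul]

theorem QS.eq_of_block (hσ : ∀ a, P.σ a = a) (hp2 : p ≠ 2) (hrp : r ≠ p) (hr2 : r ≠ 2) {k : ℕ}
    (hi : orderOf (Fintype.card F : ZMod r) = 2 * k) {η ω : F} (hω : ¬ IsSquare ω) {J : End F V}
    (hJ : QS P η ω J ⊤) {y : V ≃ₗ[F] V} {B : Submodule F V} (hB : Nd P B) (hy : Fpf P r y B)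
    (hd : finrank F B = 2 * k) (hc : ∀ v, y (J v) = J (y v)) : η = (-1) ^ k := by
  have h0 := orderOf_card_pos (F := F) hrp
  have h1 := sdp_of_id hrp hr2 hσ (hi ▸ even_two_mul k)
  obtain ⟨g, hg, hm, hgd, u, hu, hu0, hug⟩ := hy.kl.exists_irr hy.inv (cyclotomic_ne_zero r F)
    (by rintro rfl; rw [finrank_bot] at hd; omega)
  have := Fact.mk hg
  have h2 : LinearMap.range (act hm y u) = B := Submodule.eq_of_le_of_finrank_eq
    (range_act_le hm hug hy.inv hu) (by rw [finrank_range_act hm hug hu0, h1.deg g hg hm hgd, hi, hd])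
  have h3 : ∀ f v, J (aeval (y : End F V) f v) = aeval (y : End F V) f (J v) :=
    aeval_intertwine fun v => (hc v).symm
  obtain ⟨a, ha⟩ : J u ∈ LinearMap.range (act hm y u) := by
    rw [h2, ← hy.Kr_eq hrp hB, mem_Kr, ← h3, hy.kl u hu, map_zero]
  have h4 : ∀ b, J (act hm y u b) = act hm y u (b * a) := fun b => by
    obtain ⟨f, rfl⟩ := AdjoinRoot.mk_surjective b
    rw [act_mk hm hug, h3, act_mk_mul hm hug, ha]
  have h5 : a ^ 2 = algebraMap F _ ω := act_injective hm hug hu0 (by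
    rw [pow_two, ← h4, ha, hJ.sq u trivial, Algebra.algebraMap_eq_smul_one, map_smul, act_one hm hug])
  have h6 := tau_sqrt hp2 hrp (by omega) hi hgd hσ (h1.sd g hg hm hgd) hω h5
  have h7 : a ≠ 0 := by
    rintro rfl
    rw [zero_pow two_ne_zero, eq_comm, map_eq_zero] at h5
    simp [h5] at hω
  by_contra h8
  refine hu0 (hB.eq_zero hu fun w hw => ?_)
  obtain ⟨b, rfl⟩ := h2.ge hw
  have h9 := hJ.adj u trivial (act hm y u (b * a⁻¹)) trivial
  rw [← ha, B_act hm hy.iso (h1.sd g hg hm hgd) hug (kill_act hm hug _), act_act hm hug, h4, h6,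
    smul_mul_assoc, mul_comm a, inv_mul_cancel_right₀ h7, map_smul, LinearMap.map_smulₛₗ, hσ,
    smul_eq_mul] at h9
  exact (mul_eq_zero.1 (by linear_combination h9)).resolve_left (sub_ne_zero.2 (Ne.symm h8))

theorem QS.odd_alt [Nontrivial V] (hσ : ∀ a, P.σ a = a) (hp2 : p ≠ 2) (hrp : r ≠ p) (hr2 : r ≠ 2)
    {η ω : F} (hω : ¬ IsSquare ω) {J : End F V} (hJ : QS P η ω J ⊤)
    (h0 : ∀ W, Nd P W → Even (finrank F W) → ∃ J, QS P η ω J W) {S : Subgroup (V ≃ₗ[F] V)}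
    (hS : IsPGroup r S) (hSI : S ≤ P.Iso) :
    (∃ y ∈ P.Iso, y ^ r = 1 ∧ y ≠ 1 ∧ ∀ g ∈ P.Iso, ¬ NJ J (g⁻¹ * y * g)) ∨
      ∃ J', QS P η ω J' ⊤ ∧ ∀ s ∈ S, ∀ v, s (J' v) = J' (s v) := by
  by_cases h : ∀ s ∈ S, ⊤ ≤ Fix s
  · exact Or.inr ⟨J, hJ, fun s hs v => by rw [mem_Fix.1 (h s hs trivial), mem_Fix.1 (h s hs trivial)]⟩
  obtain ⟨x, hx, hxr, -, h1, -⟩ := exists_central_res hS hSI nd_top (fun s _ => inv_top s) h
  by_cases h2 : ∃ k, orderOf (Fintype.card F : ZMod r) = 2 * k ∧ η = (-1) ^ k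
  · obtain ⟨k, hk, rfl⟩ := h2
    exact Or.inr ((glue_qs _ ω).exists_comm (fun J W h => h.mem) (δ := 2)
      (fun W hW h => h0 W hW (even_iff_two_dvd.2 h)) (fun y hy hyr W hW hi h =>
        let ⟨f, f', h3, h4, h5⟩ := exists_qs_block hσ hp2 hrp hr2 hk hω hy hyr hW hi h
        ⟨f, f', h3, h4, (h5.even hω).two_dvd, h5⟩) (by simpa using (hJ.even hω).two_dvd) hS hSI)
  obtain ⟨B, y, h3, h4, h5, h6, -, h7⟩ := exists_single_block hσ hrp hr2 rfl hx hxr
    (ne_one_of_not_le h1)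
  refine Or.inl ⟨y, h5.iso, h5.pow, h6, fun g hg h8 => ?_⟩
  obtain ⟨J', h9, h10⟩ := h8.exists_comm hω hJ hg h5.pow (hr.out.odd_of_ne_two hr2)
  rcases Nat.even_or_odd (orderOf (Fintype.card F : ZMod r)) with h11 | h11
  · rw [if_pos h11] at h4
    obtain ⟨k, hk⟩ := h11.two_dvd
    exact h2 ⟨k, hk, h9.eq_of_block hσ hp2 hrp hr2 hk hω h3 h5 (h4.trans hk) h10⟩
  · obtain ⟨f, -, -, h12⟩ := h7 h11
    refine Nat.not_even_iff_odd.2 h11 (h12 ▸ (h9.mono le_top fun v hv => ?_).even hω)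
    rw [mem_Kr, ← aeval_intertwine (φ := J') fun v => (h10 v).symm, mem_Kr.1 hv, map_zero]

theorem exists_qs_invol (hp2 : p ≠ 2) {η ω : F}
    (h0 : ∀ W, Nd P W → Even (finrank F W) → ∃ J, QS P η ω J W) {x : V ≃ₗ[F] V} (hx : x ∈ P.Iso)
    (hx2 : x ^ 2 = 1) (h1 : Even (finrank F (Fix x)))
    (h2 : Even (finrank F (Kr x (cyclotomic 2 F)))) :
    ∃ J, QS P η ω J ⊤ ∧ ∀ v, x (J v) = (1 : F) • J (x v) := by
  have : Fact (Nat.Prime 2) := ⟨Nat.prime_two⟩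
  obtain ⟨J₁, h3⟩ := h0 _ (nd_Kr hp2.symm hx hx2) h2
  obtain ⟨J₂, h4⟩ := h0 _ (nd_Fix hp2.symm hx hx2) h1
  obtain ⟨J, h5, h6⟩ := ((glue_qs η ω).cm {x} 1).exists_sup (nd_Kr hp2.symm hx hx2)
    (ort_Kr_Fix hp2.symm hx) ⟨J₁, h3, by
      rintro _ rfl v hv
      rw [mem_Kr_two.1 hv, mem_Kr_two.1 (h3.mem v hv), map_neg, one_smul]
      exact ⟨neg_mem hv, rfl⟩⟩ ⟨J₂, h4, by
      rintro _ rfl v hv
      rw [mem_Fix.1 hv, mem_Fix.1 (h4.mem v hv), one_smul]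
      exact ⟨hv, rfl⟩⟩
  have h7 := sup_Fix_Kr hp2.symm hx2 (inv_top x)
  rw [top_inf_eq, top_inf_eq] at h7
  rw [h7] at h5 h6
  exact ⟨J, h5, fun v => (h6 x rfl v trivial).2⟩

omit [FiniteDimensional F V] in
theorem exists_qs_rot (hσ : ∀ a, P.σ a = a) (h2 : (2 : F) ≠ 0) (ω : F) {x : V ≃ₗ[F] V}
    (hx : x ∈ P.Iso) (h : ∀ v, x (x v) = -v) {v : V} (hv : v ≠ 0) (hv' : x v ∉ F ∙ v)
    (h1 : (1 - P.ε) * P.B v v = 0) (h3 : (1 + P.ε) * P.B v (x v) = 0) :
    ∃ J, QS P P.ε ω J ((F ∙ v) ⊔ (F ∙ x v)) ∧ Cm {x} (-1) J ((F ∙ v) ⊔ (F ∙ x v)) := by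
  obtain ⟨a, b, hab⟩ := exists_sq_sub_mul h2 (neg_ne_zero.2 one_ne_zero) ω
  obtain ⟨J, e1, e2⟩ := exists_map_pair hv hv' (a • v + b • x v) (b • v + (-a) • x v)
  have h4 := P.herm v (x v)
  have h5 := Iso.B hx v v
  rw [hσ] at h4
  refine ⟨J, QS.of_pair hσ (e1 ▸ mem_span_pair'.2 ⟨_, _, rfl⟩) (e2 ▸ mem_span_pair'.2 ⟨_, _, rfl⟩)
    ?_ ?_ ?_ ?_ ?_ ?_, ?_⟩
  iterate 2 simp only [e1, e2, map_add, map_smul, ← hab]; module
  iterate 4
    simp only [e1, e2, map_add, map_smul, LinearMap.add_apply, LinearMap.smul_apply,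
      LinearMap.map_smulₛₗ, hσ, smul_eq_mul, h4, h5]
    rcases P.εε with e | e <;> rw [e] at h1 h3 ⊢
    · rw [(mul_eq_zero.1 h3).resolve_left (by rwa [one_add_one_eq_two])]; ring
    · rw [(mul_eq_zero.1 h1).resolve_left (by rwa [sub_neg_eq_add, one_add_one_eq_two])]; ring
  rintro _ rfl u hu
  obtain ⟨c, d, rfl⟩ := mem_span_pair'.1 hu
  simp only [e1, e2, map_add, map_smul, map_neg, h]
  exact ⟨mem_span_pair'.2 ⟨-d, c, by module⟩, by module⟩

section sp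

variable (h : ∀ x c, P.Val x c) (hσ : ∀ a, P.σ a = a) (hε : P.ε = -1)
include h hσ hε

theorem sp_exists_qs (ω : F) {W : Submodule F V} (hW : Nd P W) : ∃ J, QS P (-1) ω J W :=
  (glue_qs (-1) ω).exists_of_peel (Nd P) (fun W h1 h0 => by
    obtain ⟨v, hv, hv0⟩ := W.exists_mem_ne_zero_of_ne_bot h0
    obtain ⟨w, hw, h2⟩ := h1.exists_ne hv hv0
    have h3 := notMem_span_of_B (sing_B (h v 0)) h2
    have h4 := P.herm v w
    rw [hσ, hε] at h4
    have h5 : Nd P ((F ∙ v) ⊔ (F ∙ w)) := nd_pair (by rw [sing_B (h v 0), h4]; simpa using h2)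
    obtain ⟨J, e1, e2⟩ := exists_map_pair hv0 h3 w (ω • v)
    exact ⟨_, pair_le hv hw, fun e => hv0 ((Submodule.eq_bot_iff _).1 e v (left_mem_pair _ _)), h5,
      ⟨J, QS.of_pair hσ (e1 ▸ right_mem_pair _ _) (e2 ▸ Submodule.smul_mem _ _ (left_mem_pair _ _))
        (by rw [e1, e2]) (by rw [e2, map_smul, e1]) (by rw [e1, h4])
        (by simp [e1, e2, sing_B (h _ 0)]) (by simp [e1, e2, sing_B (h _ 0)])
        (by simp [e2, h4, hσ])⟩, h1.inf_perp h5 (pair_le hv hw)⟩) hW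

theorem sp_qs_iff (hp2 : p ≠ 2) (hn : 2 ≤ finrank F V) {ω : F} (hω : ¬ IsSquare ω) {J : End F V}
    (hJ : QS P (-1) ω J ⊤) {S : Subgroup (V ≃ₗ[F] V)} (hS : IsPGroup r S) (hSI : S ≤ P.Iso)
    (hS' : ∀ g ∈ P.Iso, ∃ s ∈ S, ¬ NJ J (g⁻¹ * s * g)) :
    Elu P.Iso r (fun x => ∃ g ∈ P.Iso, NJ J (g⁻¹ * x * g)) ↔ r = 2 := by
  have : Nontrivial V := (finrank_pos_iff (R := F)).1 (by omega)
  have h2 := two_ne_zero_of_ne (F := F) hp2
  have hω0 : ω ≠ 0 := by rintro rfl; simp at hω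
  have hL := lam_sp h
  have key : ∀ {x : V ≃ₗ[F] V} {c : F}, (∃ J', QS P (-1) ω J' ⊤ ∧ ∀ v, x (J' v) = c • J' (x v)) →
      ∃ g ∈ P.Iso, NJ J (g⁻¹ * x * g) := by
    rintro x c ⟨J', h3, h4⟩
    obtain ⟨g, hg, h5⟩ := sp_skew_conj h hσ hε h2 hω0 hJ h3
    exact ⟨g, hg, nj_of_sign h4 h5⟩
  constructor
  · intro H
    by_contra hr2
    replace H := (elu_iff_of_odd hσ hr2 fun x y w h ⟨g, hg, h'⟩ => ⟨g, hg, h'.of_smul h g⟩).1 H
    by_cases hrp : r = p
    · subst hrp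
      obtain ⟨x, hx, h1, h3, e, -, -, h4⟩ := exists_transvection (p := r) hL hn
      obtain ⟨g, hg, h5⟩ := H x (E_le_Iso hx) h1 h3
      obtain ⟨J', h6, h7⟩ := h5.exists_comm hω hJ hg h1 (hr.out.odd_of_ne_two hr2)
      obtain ⟨u, hu⟩ : ∃ u, x u - u ≠ 0 := by
        by_contra! h8
        exact h3 (LinearEquiv.ext fun v => sub_eq_zero.1 (h8 v))
      exact hω (isSquare_of_rank (N := (x : End F V) - 1) (fun v => h6.sq v trivial)
        (fun v => by simp [h7]) h4 hu)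
    rcases hJ.odd_alt hσ hp2 hrp hr2 hω (fun W hW _ => sp_exists_qs h hσ hε ω hW) hS hSI with
      ⟨y, h1, h3, h4, h5⟩ | ⟨J', h1, h3⟩
    · obtain ⟨g, hg, h6⟩ := H y h1 h3 h4
      exact h5 g hg h6
    · obtain ⟨g, hg, h5⟩ := sp_skew_conj h hσ hε h2 hω0 hJ h1
      obtain ⟨s, hs, h6⟩ := hS' g hg
      exact h6 (nj_of_sign (s := 1) (by simpa using h3 s hs) h5)
  · rintro rfl x hx ⟨z, hz⟩ -
    rcases eq_or_eq_neg_of_id hσ (norm_eq_one_of_smul (P.Iso.pow_mem hx 2) hz) with rfl | rfl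
    · have hx2 := pow_eq_one_of_smul hz
      exact key (exists_qs_invol hp2 (fun W hW _ => sp_exists_qs h hσ hε ω hW) hx hx2
        (sp_even h _ (nd_Fix hp2.symm hx hx2)) (sp_even h _ (nd_Kr hp2.symm hx hx2)))
    · have h3 := qs_of_sq_neg hx hz
      obtain ⟨J', h4, h5⟩ := ((glue_qs (-1) ω).cm {x} (-1)).exists_of_peel
        (fun W => Nd P W ∧ Inv x W) (W := ⊤) (by
          rintro W ⟨h4, h5⟩ h0
          obtain ⟨v, hv, h6⟩ := (h3.mono le_top h5).exists_skew_ne hσ hε h2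
            (neg_ne_zero.2 one_ne_zero) h4 h0
          have h7 := P.herm v (x v)
          rw [hσ, hε] at h7
          have h8 : Nd P ((F ∙ v) ⊔ (F ∙ x v)) :=
            nd_pair (by rw [sing_B (h v 0), h7]; simpa using h6)
          have hv0 : v ≠ 0 := by rintro rfl; simp at h6
          obtain ⟨J, h9⟩ := exists_qs_rot hσ h2 ω hx (fun v => by simpa using h3.sq v trivial) hv0
            (notMem_span_of_B (sing_B (h v 0)) h6) (by simp [sing_B (h v 0)]) (by simp [hε])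
          exact ⟨_, pair_le hv (h5 v hv), fun e => hv0 ((Submodule.eq_bot_iff _).1 e v
            (left_mem_pair _ _)), h8, ⟨J, hε ▸ h9⟩, h4.inf_perp h8 (pair_le hv (h5 v hv)),
            h5.inf (Inv.perp hx fun u hu => (h9.2 x rfl u hu).1)⟩) ⟨nd_top, inv_top x⟩
      exact key ⟨J', h4, fun v => (h5 x rfl v trivial).2⟩

end sp

section mat

open Matrix

variable {ι : Type} [Fintype ι] [DecidableEq ι]

omit hr hp [CharP F p] in
theorem exists_gen [Nonempty ι] {k : ℕ} {K : Subalgebra F (Matrix ι ι F)}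
    (hK : Geo.IsFieldSubalgebra k K) {m : F[X]} (hm : Irreducible m) (hd : m.natDegree = k) :
    ∃ j ∈ K, aeval (toLin' j) m = 0 ∧ (∀ a, a ∈ K ↔ ∃ f : F[X], toLin' a = aeval (toLin' j) f) ∧
      ∀ g : GL ι F, g ∈ Geo.subalgebraNormalizer K ↔ NJ (toLin' j) (toLE g) := by
  let _ : Field K := (Asch.isField_of_inv hK.comm hK.inv).toField
  have := Fact.mk hm
  have := finite_adjoinRoot hm.ne_zero
  have h1 : finrank F (AdjoinRoot m) = finrank F K := by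
    rw [(AdjoinRoot.powerBasis hm.ne_zero).finrank, AdjoinRoot.powerBasis_dim, hK.finrank_eq, hd]
  obtain ⟨φ⟩ := FiniteField.nonempty_algHom_of_finrank_dvd (F := F) (K := AdjoinRoot m) (L := K)
    h1.dvd
  have h2 := (LinearMap.injective_iff_surjective_of_finrank_eq_finrank (f := φ.toLinearMap) h1).1
    φ.toRingHom.injective
  have h3 : ∀ f : F[X], toLin' (φ (AdjoinRoot.mk m f)).1 =
      aeval (toLin' (φ (AdjoinRoot.root m)).1) f := fun f => by
    rw [← AdjoinRoot.aeval_eq, ← aeval_algHom_apply]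
    exact (aeval_algHom_apply ((toLinAlgEquiv' : Matrix ι ι F ≃ₐ[F] _).toAlgHom.comp K.val) _ f).symm
  have h4 : ∀ a, a ∈ K ↔ ∃ f : F[X], toLin' a = aeval (toLin' (φ (AdjoinRoot.root m)).1) f :=
    fun a => ⟨fun ha => by
      obtain ⟨b, hb⟩ := h2 ⟨a, ha⟩
      obtain ⟨f, rfl⟩ := AdjoinRoot.mk_surjective b
      exact ⟨f, by rw [← h3]; exact congrArg (fun x : K => toLin' x.1) hb.symm⟩,
      fun ⟨f, hf⟩ => by rw [← h3] at hf; exact toLin'.injective hf ▸ Subtype.prop _⟩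
  refine ⟨_, (φ (AdjoinRoot.root m)).2, by simp [← h3], h4, fun g => ?_⟩
  rw [H3.Ext.mem_normalizer_iff]
  constructor
  · intro h
    obtain ⟨a, ha⟩ := h (φ (AdjoinRoot.root m))
    obtain ⟨f, hf⟩ := (h4 a).1 a.2
    exact ⟨f, fun v => hf ▸ ha v⟩
  · rintro ⟨f, hf⟩ a
    obtain ⟨c, hc⟩ := (h4 a).1 a.2
    refine ⟨φ (AdjoinRoot.mk m (c.comp f)), fun v => ?_⟩
    change toLE g (toLin' a.1 v) = toLin' (φ _).1 _
    rw [hc, h3, aeval_comp]
    exact aeval_intertwine (φ := toLE g) hf c v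

omit hp [CharP F p] in
theorem exists_pgroup_nj {H N : Subgroup (GL ι F)} {G : Subgroup ((ι → F) ≃ₗ[F] (ι → F))}
    (hG : ∀ g, g ∈ H ↔ toLE g ∈ G) {J : End F (ι → F)} (hN : ∀ g, g ∈ N ↔ NJ J (toLE g))
    (h : r ∣ N.relIndex H) : ∃ S : Subgroup ((ι → F) ≃ₗ[F] (ι → F)), IsPGroup r S ∧ S ≤ G ∧
      ∀ g, (∀ x ∈ G, g⁻¹ * x * g ∈ G) → ∃ s ∈ S, ¬ NJ J (g⁻¹ * s * g) := by
  obtain ⟨S, h1, h2, h3⟩ := exists_pgroup_of_dvd_relIndex_conj h
  refine ⟨S.map toLE.toMonoidHom, h1.map _, ?_, fun g hg => ?_⟩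
  · rintro _ ⟨x, hx, rfl⟩
    exact (hG x).1 (h2 hx)
  · obtain ⟨g, rfl⟩ := toLE.surjective g
    obtain ⟨s, h4, h5⟩ := h3 g fun x hx => (hG _).2 (by
      simpa only [map_mul, map_inv] using hg _ ((hG x).1 hx))
    exact ⟨_, ⟨s, h4, rfl⟩, fun h6 => h5 ((hN _).2 (by rw [map_mul, map_mul, map_inv]; exact h6))⟩

omit hr hp [CharP F p] [Fintype F] in
theorem elu_iff_nj {H N : Subgroup (GL ι F)} {G : Subgroup ((ι → F) ≃ₗ[F] (ι → F))}
    (hG : ∀ g, g ∈ H ↔ toLE g ∈ G) {J : End F (ι → F)} (hN : ∀ g, g ∈ N ↔ NJ J (toLE g)) (r : ℕ) :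
    (∀ x ∈ H, (∃ z : F, ((x ^ r : GL ι F) : Matrix ι ι F) = z • (1 : Matrix ι ι F)) →
      (∀ z : F, (x : Matrix ι ι F) ≠ z • (1 : Matrix ι ι F)) → ∃ g ∈ H, g⁻¹ * x * g ∈ N) ↔
      Elu G r fun x => ∃ g ∈ G, NJ J (g⁻¹ * x * g) := by
  refine elu_iff_GL _ _ hG r _ _ fun x _ => ⟨?_, ?_⟩
  · rintro ⟨g, hg, h⟩
    exact ⟨_, (hG g).1 hg, by simpa only [map_mul, map_inv] using (hN _).1 h⟩
  · rintro ⟨g, hg, h⟩
    obtain ⟨g, rfl⟩ := toLE.surjective g
    exact ⟨g, (hG g).2 hg, (hN _).2 (by simpa only [map_mul, map_inv] using h)⟩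

end mat

end Cfsg.Agent.H4.El
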