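import Cfsg.Agent.H4.ElJ2

/-!
Self-adjoint square roots of a nonsquare in orthogonal spaces.
-/

set_option autoImplicit false

namespace Cfsg.Agent.H4.El

open Module Polynomial H7 H7.Polar H8 QuadraticMap

variable {F : Type*} [Field F] {V : Type*} [AddCommGroup V] [Module F V] {Q : QuadraticForm F V}
  {hQ : ND Q}

variable (Q) in
/-- The quadratic form over the quadratic extension. -/
def gam (ω : F) (J : End F V) (v : V) : QuadraticAlgebra F ω 0 := ⟨polar Q (J v) v, polar Q v v⟩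

theorem notMem_span_of_sq {ω : F} (hω : ¬ IsSquare ω) {J : End F V} {v : V} (h : J (J v) = ω • v)
    (hv : v ≠ 0) : J v ∉ F ∙ v := fun h1 => by
  obtain ⟨a, ha⟩ := Submodule.mem_span_singleton.1 h1
  rw [← ha, map_smul, ← ha, smul_smul] at h
  exact hω ⟨a, (smul_left_injective F hv h).symm⟩

theorem fact_of_not_isSquare {ω : F} (hω : ¬ IsSquare ω) : Fact (∀ r : F, r ^ 2 ≠ ω + 0 * r) :=
  ⟨fun r h => hω ⟨r, by rw [← pow_two, h]; simp⟩⟩

namespace QS

variable {ω : F} {J J' : End F V} {W W' : Submodule F V} (h : QS (qP hQ) 1 ω J W)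
include h

theorem adj' {u v : V} (hu : u ∈ W) (hv : v ∈ W) : polar Q (J u) v = polar Q u (J v) := by
  simpa using h.adj u hu v hv

theorem polar_JJ {v : V} (hv : v ∈ W) : polar Q (J v) (J v) = ω * polar Q v v := by
  rw [h.adj' hv (h.mem v hv), h.sq v hv, polar_smul_right, smul_eq_mul]

theorem gam_smul {v : V} (hv : v ∈ W) (ν : QuadraticAlgebra F ω 0) :
    gam Q ω J (ν.re • v + ν.im • J v) = ν ^ 2 * gam Q ω J v := by
  ext <;> simp only [gam, pow_two, map_add, map_smul, h.sq v hv, polar_add_left, polar_add_right,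
    polar_smul_left, polar_smul_right, h.polar_JJ hv, ← h.adj' hv hv, smul_eq_mul,
    QuadraticAlgebra.re_mul, QuadraticAlgebra.im_mul] <;> ring

theorem gam_add {u v : V} (hu : u ∈ W) (hv : v ∈ W) (h1 : polar Q u v = 0)
    (h2 : polar Q (J u) v = 0) : gam Q ω J (u + v) = gam Q ω J u + gam Q ω J v := by
  have h3 : polar Q (J v) u = 0 := by rw [polar_comm, ← h.adj' hu hv, h2]
  ext <;> simp only [gam, map_add, polar_add_left, polar_add_right, h1, h2, h3, polar_comm Q v u,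
    QuadraticAlgebra.re_add, QuadraticAlgebra.im_add] <;> ring

theorem plane (hω : ¬ IsSquare ω) {v : V} (hv : v ∈ W) (h0 : gam Q ω J v ≠ 0) :
    v ≠ 0 ∧ J v ∉ F ∙ v ∧ Nd (qP hQ) ((F ∙ v) ⊔ (F ∙ J v)) ∧
      finrank F ↥((F ∙ v) ⊔ (F ∙ J v)) = 2 := by
  have := fact_of_not_isSquare hω
  have h1 : v ≠ 0 := by rintro rfl; exact h0 (by ext <;> simp [gam])
  have h2 := notMem_span_of_sq hω (h.sq v hv) h1
  refine ⟨h1, h2, nd_pair fun e => h0 (QuadraticAlgebra.norm_eq_zero_iff_eq_zero.1 ?_),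
    finrank_pair h1 h2⟩
  simp only [qP_B, h.polar_JJ hv, ← h.adj' hv hv] at e
  simp only [QuadraticAlgebra.norm_def, gam]
  linear_combination -e

variable [Fintype F] [FiniteDimensional F V] (h2 : (2 : F) ≠ 0) (hω : ¬ IsSquare ω)
include h2

omit h in
theorem exists_gam_ne (hW : Nd (qP hQ) W) (h0 : W ≠ ⊥) : ∃ v ∈ W, gam Q ω J v ≠ 0 := by
  obtain ⟨v, hv, h1⟩ := hW.exists_Q_ne h0
  refine ⟨v, hv, fun e => ?_⟩
  have := congrArg QuadraticAlgebra.im e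
  simp [gam, polar_self', h1, h2] at this

include hω

theorem exists_gam_eq (hW : Nd (qP hQ) W) (hd : 2 < finrank F W) (t : QuadraticAlgebra F ω 0) :
    ∃ v ∈ W, gam Q ω J v = t := by
  have := fact_of_not_isSquare hω
  have : Finite (QuadraticAlgebra F ω 0) := Finite.of_equiv _ (QuadraticAlgebra.equivProd ω 0).symm
  obtain ⟨u, hu, h1⟩ := exists_gam_ne (ω := ω) (J := J) h2 hW (by rintro rfl; simp at hd)
  obtain ⟨-, -, h3, h4⟩ := h.plane hω hu h1
  have h5 := hW.finrank_inf_perp (h.pair_le hu)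
  obtain ⟨w, hw, h6⟩ := exists_gam_ne (ω := ω) (J := J) h2 (hW.inf_perp h3 (h.pair_le hu))
    (fun e => by rw [e, finrank_bot] at h5; omega)
  obtain ⟨a, b, hab⟩ := exists_sq_sub_mul (F := QuadraticAlgebra F ω 0) (fun e => h2
    (congrArg QuadraticAlgebra.re e)) (ω := -(gam Q ω J w / gam Q ω J u))
    (by simp [h1, h6]) (t / gam Q ω J u)
  have h7 := h.inf_perp (h.pair_le hu) (h.pair_mem hu)
  have h8 : a.re • u + a.im • J u ∈ (F ∙ u) ⊔ (F ∙ J u) := mem_span_pair'.2 ⟨_, _, rfl⟩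
  have h9 : b.re • w + b.im • J w ∈ W ⊓ (qP hQ).perp ((F ∙ u) ⊔ (F ∙ J u)) :=
    add_mem (Submodule.smul_mem _ _ hw) (Submodule.smul_mem _ _ (h7.mem w hw))
  refine ⟨_, add_mem (h.pair_le hu h8) h9.1, ?_⟩
  rw [h.gam_add (h.pair_le hu h8) h9.1 (ort_inf_perp W _ _ h8 _ h9)
    (ort_inf_perp W _ _ (h.pair_mem hu _ h8) _ h9), h.gam_smul hu, h.gam_smul hw.1]
  field_simp at hab
  linear_combination hab

theorem plus_iff {v : V} (hv : v ∈ W) (h0 : gam Q ω J v ≠ 0) :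
    Plus Q ((F ∙ v) ⊔ (F ∙ J v)) ↔ IsSquare (gam Q ω J v) := by
  have := fact_of_not_isSquare hω
  have : Finite (QuadraticAlgebra F ω 0) := Finite.of_equiv _ (QuadraticAlgebra.equivProd ω 0).symm
  obtain ⟨h1, h3, -, h4⟩ := h.plane hω hv h0
  rw [plus_plane_iff h4]
  constructor
  · rintro ⟨e, he, h5, h6⟩
    obtain ⟨a, b, rfl⟩ := mem_span_pair'.1 he
    have h7 := h.gam_smul hv ⟨a, b⟩
    have h8 : (⟨a, b⟩ : QuadraticAlgebra F ω 0) ≠ 0 := fun e => by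
      obtain ⟨rfl, rfl⟩ := QuadraticAlgebra.ext_iff.1 e
      simp at h5
    refine ((isSquare_mul_iff (pow_ne_zero 2 h8) h0).1 (h7 ▸ ?_)).1 (IsSquare.sq _)
    simp only [gam, polar_self', h6, mul_zero]
    generalize polar Q _ _ = s
    by_cases h9 : IsSquare s
    · obtain ⟨c, rfl⟩ := h9
      exact ⟨⟨c, 0⟩, by ext <;> simp⟩
    · have hω0 : ω ≠ 0 := by rintro rfl; simp at hω
      obtain ⟨c, hc⟩ := (isSquare_mul_iff (a := s) (by rintro rfl; simp at h9) hω0).2 (by tauto)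
      exact ⟨⟨0, c / ω⟩, by ext <;> simp; field_simp; linear_combination hc⟩
  · rintro ⟨μ, hμ⟩
    have h5 : μ ≠ 0 := by rintro rfl; exact h0 (by simpa using hμ)
    have h6 := h.gam_smul hv μ⁻¹
    rw [hμ, show μ⁻¹ ^ 2 * (μ * μ) = 1 by field_simp] at h6
    refine ⟨_, mem_span_pair'.2 ⟨μ⁻¹.re, μ⁻¹.im, rfl⟩, fun e => ?_, ?_⟩
    · rw [e] at h6
      simpa [gam, QuadraticAlgebra.re_one] using congrArg QuadraticAlgebra.re h6
    · have := congrArg QuadraticAlgebra.im h6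
      simpa only [gam, polar_self', QuadraticAlgebra.im_one, mul_eq_zero, h2, false_or] using this

theorem exists_gam_eq' (h' : QS (qP hQ) 1 ω J' W') (hW : Nd (qP hQ) W)
    (hd : finrank F W = finrank F W') (hp : Plus Q W ↔ Plus Q W') {v' : V} (hv' : v' ∈ W')
    (h0 : gam Q ω J' v' ≠ 0) : ∃ v ∈ W, gam Q ω J v = gam Q ω J' v' := by
  have := fact_of_not_isSquare hω
  have : Finite (QuadraticAlgebra F ω 0) := Finite.of_equiv _ (QuadraticAlgebra.equivProd ω 0).symm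
  by_cases h1 : 2 < finrank F W
  · exact h.exists_gam_eq h2 hω hW h1 _
  obtain ⟨-, -, -, h3⟩ := h'.plane hω hv' h0
  have h4 := Submodule.finrank_mono (h'.pair_le hv')
  obtain ⟨u, hu, h5⟩ := exists_gam_ne (ω := ω) (J := J) h2 hW (by
    rintro rfl; rw [finrank_bot] at hd; omega)
  obtain ⟨-, -, -, h6⟩ := h.plane hω hu h5
  rw [← Submodule.eq_of_le_of_finrank_le (h.pair_le hu) (by omega),
    ← Submodule.eq_of_le_of_finrank_le (h'.pair_le hv') (by omega), h.plus_iff h2 hω hu h5,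
    h'.plus_iff h2 hω hv' h0, ← isSquare_mul_iff h5 h0] at hp
  obtain ⟨μ, hμ⟩ := hp
  refine ⟨_, h.pair_le hu (mem_span_pair'.2 ⟨(μ / gam Q ω J u).re, (μ / gam Q ω J u).im, rfl⟩), ?_⟩
  rw [h.gam_smul hu]
  field_simp
  linear_combination -hμ

end QS

variable [Fintype F] [FiniteDimensional F V]

theorem exists_spn {g : V ≃ₗ[F] V} (hg : g ∈ (qP hQ).Iso) : ∃ c, c ≠ 0 ∧ Spn Q g c :=
  Iso_le_of (X :=
    { carrier := {g | ∃ c, c ≠ 0 ∧ Spn Q g c}
      mul_mem' := fun ⟨_, h1, h2⟩ ⟨_, h3, h4⟩ => ⟨_, mul_ne_zero h1 h3, h2.mul h4⟩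
      one_mem' := ⟨1, one_ne_zero, spn_one⟩
      inv_mem' := fun ⟨_, h1, h2⟩ => ⟨_, h1, h2.inv⟩ })
    (fun _ h => ⟨1, one_ne_zero, spn_of_mem_E h⟩)
    (fun d c hc h0 => by obtain rfl : c = Q d := hc; exact ⟨_, h0, spn_refl h0⟩) hg

variable (h2 : (2 : F) ≠ 0)
include h2

theorem o_exists_qs (ω : F) {W : Submodule F V} (hW : Nd (qP hQ) W) (he : Even (finrank F W)) :
    ∃ J, QS (qP hQ) 1 ω J W :=
  (glue_qs 1 ω).exists_of_peel (fun W => Nd (qP hQ) W ∧ Even (finrank F W)) (by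
    rintro W ⟨h1, k, h3⟩ h0
    obtain ⟨v, hv, hv0⟩ := h1.exists_Q_ne h0
    have h4 := (Submodule.span_singleton_le_iff_mem _ _).2 hv
    have h5 := h1.finrank_inf_perp h4
    rw [finrank_span_singleton (ne_zero_of_Q hv0)] at h5
    obtain ⟨w, hw, hw0⟩ := (h1.inf_perp (nd_line h2 hv0) h4).exists_Q_ne fun h0 => by
      rw [h0, finrank_bot] at h5; omega
    have ho : polar Q w v = 0 := hw.2 v (Submodule.mem_span_singleton_self v)
    have ho' : polar Q v w = 0 := by rwa [polar_comm]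
    obtain ⟨h6, h7, h8⟩ := orth_pair (hQ := hQ) h2 hv0 hw0 ho'
    have h9 := h1.finrank_inf_perp (pair_le hv hw.1)
    obtain ⟨s, t, hst⟩ := exists_sq_sub_mul h2 (ω := -(Q w / Q v)) (by simp [hv0, hw0]) ω
    obtain ⟨J, e1, e2⟩ := exists_map_pair (ne_zero_of_Q hv0) h8 (s • v + t • w)
      ((t * (Q w / Q v)) • v + (-s) • w)
    refine ⟨_, pair_le hv hw.1, fun e => by rw [e, finrank_bot] at h7; omega, h6,
      ⟨J, QS.of_pair (fun _ => rfl) (e1 ▸ mem_span_pair'.2 ⟨_, _, rfl⟩)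
        (e2 ▸ mem_span_pair'.2 ⟨_, _, rfl⟩) ?_ ?_ ?_ ?_ ?_ ?_⟩, h1.inf_perp h6 (pair_le hv hw.1),
      k - 1, by omega⟩
    iterate 2 simp only [e1, e2, map_add, map_smul, ← hst]; module
    iterate 4
      simp only [e1, e2, qP_B, polar_add_left, polar_add_right, polar_smul_left, polar_smul_right,
        ho, ho', polar_self', smul_eq_mul]
      field_simp
      try ring_nf) ⟨hW, he⟩

variable {ω : F} (hω : ¬ IsSquare ω) {J : End F V} (hJ : QS (qP hQ) 1 ω J ⊤)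
include hω hJ

theorem o_self_conj {J' : End F V} (hJ' : QS (qP hQ) 1 ω J' ⊤) :
    ∃ g ∈ (qP hQ).Iso, ∀ v, g (J v) = J' (g v) := by
  obtain ⟨g, hg, -, h1⟩ := exists_iso_of_peel (P := qP hQ) (J := J) (J' := J') (fun W W' =>
    Nd (qP hQ) W ∧ Nd (qP hQ) W' ∧ finrank F W = finrank F W' ∧ (Plus Q W ↔ Plus Q W') ∧
      QS (qP hQ) 1 ω J W ∧ QS (qP hQ) 1 ω J' W') (fun W W' h => h.2.2.2.2.1.mem) (by
      rintro W W' ⟨h1, h3, h4, hp, h5, h6⟩ h0
      obtain ⟨v', hv', h7⟩ := QS.exists_gam_ne (ω := ω) (J := J') h2 h3 (by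
        rintro rfl; exact h0 (Submodule.finrank_eq_zero.1 (by rw [h4, finrank_bot])))
      obtain ⟨v, hv, h8⟩ := h5.exists_gam_eq' h2 hω h6 h1 h4 hp hv' h7
      obtain ⟨a1, a2, a3, a4⟩ := h5.plane hω hv (h8 ▸ h7)
      obtain ⟨b1, b2, b3, b4⟩ := h6.plane hω hv' h7
      have e1 : polar Q (J v) v = polar Q (J' v') v' := congrArg QuadraticAlgebra.re h8
      have e2 : polar Q v v = polar Q v' v' := congrArg QuadraticAlgebra.im h8
      have e3 := h5.polar_JJ hv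
      rw [e2, ← h6.polar_JJ hv'] at e3
      simp only [polar_self', mul_right_inj' h2] at e2 e3
      obtain ⟨g, hg, h10, h11⟩ := exists_iso_pair (P := qP hQ) a1 a2 b1 b2 (qP_val_self hQ v) e2
        (qP_val_self hQ _) e3 (by rw [qP_B, qP_B, polar_comm, ← e1, polar_comm])
      have h12 := h1.finrank_inf_perp (h5.pair_le hv)
      have h13 := h3.finrank_inf_perp (h6.pair_le hv')
      have h14 := plus_perp h1 a3 (h5.pair_le hv) (h5.even hω) (a4 ▸ even_two)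
      have h15 := plus_perp h3 b3 (h6.pair_le hv') (h6.even hω) (b4 ▸ even_two)
      rw [h5.plus_iff h2 hω hv (h8 ▸ h7), h8] at h14
      rw [h6.plus_iff h2 hω hv' h7] at h15
      refine ⟨_, h5.pair_le hv, fun e => a1 ((Submodule.eq_bot_iff _).1 e v
        (left_mem_pair _ _)), a3, h5.pair_mem hv, g, hg, ?_⟩
      rw [map_pair_of h10 h11]
      exact ⟨h6.pair_le hv', eq_on_pair (f := (g : End F V) * J) (g := J' * g) (by simp [h10, h11])
        (by simp [h10, h11, h5.sq v hv, h6.sq v' hv']), h1.inf_perp a3 (h5.pair_le hv),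
        h3.inf_perp b3 (h6.pair_le hv'), by omega, by tauto,
        h5.inf_perp (h5.pair_le hv) (h5.pair_mem hv),
        h6.inf_perp (h6.pair_le hv') (h6.pair_mem hv')⟩) ⟨nd_top, nd_top, rfl, Iff.rfl, hJ, hJ'⟩
  exact ⟨g, hg, fun v => h1 v trivial⟩

variable (hn : 7 ≤ finrank F V)
include hn

theorem exists_E_comm {g : V ≃ₗ[F] V} (hg : g ∈ (qP hQ).Iso)
    (hd : LinearMap.det (g : V →ₗ[F] V) = 1) :
    ∃ n : V ≃ₗ[F] V, (∀ v, n (J v) = J (n v)) ∧ g * n ∈ (qP hQ).E := by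
  have := fact_of_not_isSquare hω
  have : Finite (QuadraticAlgebra F ω 0) := Finite.of_equiv _ (QuadraticAlgebra.equivProd ω 0).symm
  obtain ⟨c, hc, h1⟩ := exists_spn hg
  obtain ⟨t, h3, h4⟩ : ∃ t : QuadraticAlgebra F ω 0, t ≠ 0 ∧ (IsSquare t ↔ IsSquare (-c)) := by
    by_cases h : IsSquare (-c)
    · exact ⟨1, one_ne_zero, by simp [h]⟩
    · obtain ⟨t, ht⟩ := exists_nonsquare_of_two (F := QuadraticAlgebra F ω 0) fun e => h2
        (congrArg QuadraticAlgebra.re e)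
      exact ⟨t, by rintro rfl; simp at ht, by tauto⟩
  obtain ⟨v, -, rfl⟩ := hJ.exists_gam_eq h2 hω nd_top (by rw [finrank_top]; omega) t
  obtain ⟨-, -, h5, h6⟩ := hJ.plane hω trivial h3
  obtain ⟨y, hy, h7, h8⟩ := h5.exists_scal (a := -1) (by simp)
  simp only [neg_smul, one_smul] at h7
  obtain ⟨θ, h9, h10, h11⟩ := exists_spn_neg h2 1 h5 h6 hy h7
  refine ⟨y, fun u => ?_, (mem_E_iff h2 hn (mul_mem hg hy.1) (h1.mul h10) (mul_ne_zero hc h9)).2
    ⟨by rw [det_mul', hd, h8, h6]; simp, ?_⟩⟩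
  · obtain ⟨a, ha, b, hb, rfl⟩ := h5.exists_decomp le_top (Submodule.mem_top (x := u))
    simp only [map_add, h7 a ha, h7 _ (hJ.pair_mem trivial a ha), hy.2 b hb.2, map_neg,
      hy.2 _ ((hJ.inf_perp le_top (hJ.pair_mem trivial)).mem b hb).2]
  · rw [hJ.plus_iff h2 hω trivial h3, h4, ← isSquare_mul_iff (by simpa) (by simpa)] at h11
    simpa using h11

theorem exists_E_nj {J' : End F V} (hJ' : QS (qP hQ) 1 ω J' ⊤) {x ρ : V ≃ₗ[F] V}
    (hρ : ρ ∈ (qP hQ).Iso) (hd : LinearMap.det (ρ : V →ₗ[F] V) = -1) {c c' : F}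
    (h : ∀ v, x (J' v) = c • J' (x v))
    (h' : ∀ v, (ρ⁻¹ * x * ρ) (J' v) = c' • J' ((ρ⁻¹ * x * ρ) v)) :
    ∃ g ∈ (qP hQ).E, NJ J (g⁻¹ * x * g) := by
  obtain ⟨g, hg, h1⟩ := o_self_conj h2 hω hJ hJ'
  rcases mul_self_eq_one_iff.1 (det_norm hg) with h3 | h3
  · obtain ⟨n, h4, h5⟩ := exists_E_comm h2 hω hJ hn hg h3
    exact ⟨_, h5, nj_of_sign h fun v => by simp only [LinearEquiv.mul_apply, h4, h1]⟩
  · obtain ⟨n, h4, h5⟩ := exists_E_comm h2 hω hJ hn (mul_mem hρ hg) (by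
      rw [det_mul', hd, h3]; simp)
    refine ⟨_, h5, ?_⟩
    rw [show (ρ * g * n)⁻¹ * x * (ρ * g * n) = (g * n)⁻¹ * (ρ⁻¹ * x * ρ) * (g * n) by group]
    exact nj_of_sign h' fun v => by simp only [LinearEquiv.mul_apply, h4, h1]

theorem o_nj_rot {x : V ≃ₗ[F] V} (hx : x ∈ (qP hQ).Iso) (hz : ∀ v, (x ^ 2) v = (-1 : F) • v) :
    ∃ g ∈ (qP hQ).E, NJ J (g⁻¹ * x * g) := by
  have h3 : ∀ v, x (x v) = -v := fun v => by rw [← sq_apply, hz, neg_one_smul]
  have h4 : ∀ v, polar Q v (x v) = 0 := fun v => by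
    have := Iso.B hx v (x v)
    rw [h3, qP_B, qP_B, polar_neg_right, polar_comm] at this
    exact (mul_eq_zero.1 (by linear_combination -this)).resolve_left h2
  have h5 : ∀ v, Q v ≠ 0 → Nd (qP hQ) ((F ∙ v) ⊔ (F ∙ x v)) ∧ (F ∙ v) ⊔ (F ∙ x v) ≠ ⊥ ∧
      ∃ J, QS (qP hQ) 1 ω J ((F ∙ v) ⊔ (F ∙ x v)) ∧ Cm {x} (-1) J ((F ∙ v) ⊔ (F ∙ x v)) :=
    fun v hv => by
      obtain ⟨h5, h6, h7⟩ := orth_pair (hQ := hQ) h2 hv (by rwa [iso_Q hx]) (h4 v)
      exact ⟨h5, fun e => by rw [e, finrank_bot] at h6; omega,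
        exists_qs_rot (P := qP hQ) (fun _ => rfl) h2 ω hx h3 (ne_zero_of_Q hv) h7 (by simp)
          (by simp [h4])⟩
  have hG := (glue_qs (P := qP hQ) 1 ω).cm {x} (-1)
  obtain ⟨v, -, hv⟩ := (nd_top (P := qP hQ)).exists_Q_ne fun e => by
    rw [← finrank_top, e, finrank_bot] at hn; omega
  obtain ⟨h6, -, J₁, h7⟩ := h5 v hv
  have hi : Inv x ((F ∙ v) ⊔ (F ∙ x v)) := fun u hu => (h7.2 x rfl u hu).1
  obtain ⟨J₂, h8⟩ := hG.exists_of_peel (fun W => Nd (qP hQ) W ∧ Inv x W) (by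
    rintro W ⟨h8, h9⟩ h0
    obtain ⟨w, hw, h10⟩ := h8.exists_Q_ne h0
    obtain ⟨h11, h12, J, h13⟩ := h5 w h10
    exact ⟨_, pair_le hw (h9 w hw), h12, h11, ⟨J, h13⟩, h8.inf_perp h11 (pair_le hw (h9 w hw)),
      h9.inf (Inv.perp hx fun u hu => (h13.2 x rfl u hu).1)⟩) ⟨h6.perp, hi.perp hx⟩
  obtain ⟨K, h9, h10⟩ := exists_glue_end h6 J₁ J₂
  replace h7 := hG.congr _ _ _ h7 h9
  replace h8 := hG.congr _ _ _ h8 h10
  have h11 := hG.sup _ _ _ h7 h8 (ort_perp_right _)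
  rw [h6.sup_perp] at h11
  set ρ := reflE (qP_val_self hQ v) hv
  have h12 : ∀ u ∈ (F ∙ v) ⊔ (F ∙ x v), (ρ⁻¹ * x * ρ) u = -x u := fun u hu => by
    refine ρ.injective ?_
    rw [LinearEquiv.mul_apply, LinearEquiv.mul_apply, apply_inv_apply]
    obtain ⟨a, b, rfl⟩ := mem_span_pair'.1 hu
    simp only [ρ, reflE_apply, qP_refl, map_add, map_smul, map_neg, map_sub, h3, polar_self',
      polar_comm Q (x v) v, h4, polar_neg_left]
    field_simp
    module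
  have h13 : ∀ u ∈ (qP hQ).perp ((F ∙ v) ⊔ (F ∙ x v)), (ρ⁻¹ * x * ρ) u = x u := fun u hu => by
    refine ρ.injective ?_
    rw [LinearEquiv.mul_apply, LinearEquiv.mul_apply, apply_inv_apply, reflE_apply, reflE_apply,
      refl_fix _ (hu v (left_mem_pair _ _)), refl_fix _ (hi.perp hx u hu v (left_mem_pair _ _))]
  refine exists_E_nj h2 hω hJ hn h11.1 (reflE_mem_Iso _ _) (det_refl_q hv) (c' := -1)
    (fun u => (h11.2 x rfl u trivial).2) fun u => ?_
  obtain ⟨a, ha, b, hb, rfl⟩ := Submodule.mem_sup.1 (h6.sup_perp.ge (Submodule.mem_top (x := u)))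
  simp only [map_add]
  rw [h12 a ha, h13 b hb, h12 _ (h7.1.mem a ha), h13 _ (h8.1.mem b hb), (h7.2 x rfl a ha).2,
    (h8.2 x rfl b hb).2, map_neg]
  module

omit h2 in
theorem o_qs_iff {r : ℕ} [hr : Fact r.Prime] {p : ℕ} [hp : Fact p.Prime] [CharP F p] (hp2 : p ≠ 2)
    {S : Subgroup (V ≃ₗ[F] V)} (hS : IsPGroup r S) (hSI : S ≤ (qP hQ).Iso)
    (hS' : ∀ g ∈ (qP hQ).Iso, ∃ s ∈ S, ¬ NJ J (g⁻¹ * s * g)) :
    Elu (qP hQ).E r (fun x => ∃ g ∈ (qP hQ).E, NJ J (g⁻¹ * x * g)) ↔ r = 2 := by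
  have : Nontrivial V := (finrank_pos_iff (R := F)).1 (by omega)
  have h2 := two_ne_zero_of_ne (F := F) hp2
  constructor
  · intro H
    by_contra hr2
    replace H := (elu_iff_odd hn hr.out hr2
      fun x y w h ⟨g, hg, h'⟩ => ⟨g, hg, h'.of_smul h g⟩).1 H
    by_cases hrp : r = p
    · subst hrp
      obtain ⟨u, -, hu0, hu⟩ := exists_sing_ne_zero hQ (W := ⊤) (by rw [finrank_top]; omega)
      obtain ⟨f, -, hf⟩ := hQ.ndOn_top.exists_hyp trivial hu0 hu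
      have h1 : Nd (qP hQ) ((F ∙ u) ⊔ (F ∙ f)) := nd_q.2 hf.ndOn
      have h3 := (qP hQ).finrank_perp ((F ∙ u) ⊔ (F ∙ f))
      rw [finrank_pair hu0 hf.notMem] at h3
      obtain ⟨w, hw, hw0⟩ := h1.perp.exists_Q_ne fun e => by rw [e, finrank_bot] at h3; omega
      have h4 : polar Q w u = 0 := hw u (left_mem_pair _ _)
      set y := eichE (qP_sing hQ hu) h4 (qP_val_self hQ w)
      have h5 : ∀ v, nil y v = polar Q v u • w - (polar Q v w + Q w * polar Q v u) • u := fun v => by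
        rw [nil_apply, show y v = _ from qP_eich hQ u w (Q w) v]; abel
      have h6 : ∀ v, nil y (nil y v) = (-(2 * Q w * polar Q v u)) • u := fun v => by
        rw [h5 v, map_sub, map_smul, map_smul, h5, h5]
        simp only [h4, polar_comm Q u w, polar_self', hu]
        module
      have h7 : nil y (nil y f) ≠ 0 := by
        simp [h6, h2, hw0, hu0, polar_comm Q f u, hf.3]
      have h8 : y ^ r = 1 := pow_char_eq_one_iff.2 fun v =>
        nil_eq_zero_of_le (three_le_of_ne hr2) (by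
          rw [nil_succ', nil_succ', pow_one, h6, h5]
          simp [hu, polar_self', polar_sub_left, polar_smul_left, h4])
      obtain ⟨g, hg, h9⟩ := H y (eichE_mem_Iso _ _ _) h8 (by rintro e; simp [e, nil_one] at h7)
      obtain ⟨J', h10, h11⟩ := h9.exists_comm hω hJ (E_le_Iso hg) h8 (hr.out.odd_of_ne_two hr2)
      exact hω (isSquare_of_rank (N := nil y * nil y) (e := u) (fun v => h10.sq v trivial)
        (fun v => by simp [nil_apply, h11]) (fun v => by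
          rw [Module.End.mul_apply, h6]
          exact Submodule.smul_mem _ _ (Submodule.mem_span_singleton_self u)) h7)
    rcases hJ.odd_alt (fun _ => rfl) hp2 hrp hr2 hω (fun W hW h => o_exists_qs h2 ω hW h) hS hSI
      with ⟨y, h1, h3, h4, h5⟩ | ⟨J', h1, h3⟩
    · obtain ⟨g, hg, h6⟩ := H y h1 h3 h4
      exact h5 g (E_le_Iso hg) h6
    · obtain ⟨g, hg, h5⟩ := o_self_conj h2 hω hJ h1
      obtain ⟨s, hs, h6⟩ := hS' g hg
      exact h6 (nj_of_sign (s := 1) (by simpa using h3 s hs) h5)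
  · rintro rfl
    refine (elu_two_iff hp2 hn).2 ⟨fun x hx hx2 hs => ?_, fun x hx hz =>
      o_nj_rot h2 hω hJ hn (E_le_Iso hx) hz⟩
    obtain ⟨k, -, h1, h3, h4, -⟩ := invol_data hp2 hn hx hx2 hs
    obtain ⟨l, hl⟩ := hJ.even hω
    rw [finrank_top] at hl
    obtain ⟨J', h5, h6⟩ := exists_qs_invol hp2 (fun W hW h => o_exists_qs h2 ω hW h) (E_le_Iso hx)
      hx2 ⟨l - k, by omega⟩ (h3 ▸ even_two_mul k)
    obtain ⟨v, hv, h7⟩ := (nd_Fix hp2.symm (E_le_Iso hx) hx2).exists_Q_ne fun e => by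
      rw [e, finrank_bot] at h1; omega
    have h8 : (reflE (qP_val_self hQ v) h7)⁻¹ * x * reflE (qP_val_self hQ v) h7 = x := by
      rw [mul_assoc, inv_mul_eq_iff_eq_mul]
      ext u
      simp only [LinearEquiv.mul_apply, reflE_apply]
      rw [← refl_conj (E_le_Iso hx), mem_Fix.1 hv]
    exact exists_E_nj h2 hω hJ hn h5 (reflE_mem_Iso _ _) (det_refl_q h7) h6 (h8.symm ▸ h6)

omit h2 hω hJ hn [FiniteDimensional F V] in
theorem omega_ext_iff {ι : Type} [Fintype ι] [DecidableEq ι] {Q₀ : (ι → F) → F}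
    (h₀ : Geo.IsNondegenerateQuadraticForm Q₀) (hn : 7 ≤ finrank F (ι → F)) {p : ℕ} [Fact p.Prime]
    [CharP F p] (hodd : Odd (Fintype.card F)) {K : Subalgebra F (Matrix ι ι F)}
    (hK : Geo.IsFieldSubalgebra 2 K) (hKf : Geo.IsSelfAdjointFor (polar Q₀) K) (r : ℕ)
    [Fact r.Prime] (hΩ : r ∣ (Geo.subalgebraNormalizer K).relIndex (Geo.omegaGL Q₀)) :
    (∀ x ∈ Geo.omegaGL Q₀, (∃ z : F, ((x ^ r : GL ι F) : Matrix ι ι F) = z • (1 : Matrix ι ι F)) →
      (∀ z : F, (x : Matrix ι ι F) ≠ z • (1 : Matrix ι ι F)) →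
      ∃ g ∈ Geo.omegaGL Q₀, g⁻¹ * x * g ∈ Geo.subalgebraNormalizer K) ↔ r = 2 := by
  have hp2 : p ≠ 2 := odd_card_iff.1 hodd
  have hc : 7 ≤ Fintype.card ι := by simpa using hn
  have hG := mem_omegaGL_iff h₀ hc
  have : Nonempty ι := Fintype.card_pos_iff.1 (by omega)
  obtain ⟨ω, hω⟩ := exists_nonsquare_of_two (two_ne_zero_of_ne (F := F) hp2)
  obtain ⟨j, hj, h1, -, h3⟩ := exists_gen hK (irr_sq hω) (by simp)
  obtain ⟨S, hS, h4, h5⟩ := exists_pgroup_nj hG h3 hΩ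
  rw [elu_iff_nj hG h3]
  exact o_qs_iff (hQ := nd_toQF h₀) hω ⟨fun _ _ => trivial, fun v _ => by
    simpa [pow_two, sub_eq_zero] using LinearMap.congr_fun h1 v,
    fun u _ v _ => (hKf j hj u v).trans (one_mul _).symm⟩ hn hp2 hS (h4.trans E_le_Iso)
    fun g hg => h5 g fun x hx => by
      have := E_normal (P := oPolar h₀) (inv_mem hg) hx
      rwa [inv_inv] at this

end Cfsg.Agent.H4.El
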