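import Cfsg.Agent.H4.ElJ2

/-!
Field extension structures on symplectic spaces.
-/

set_option autoImplicit false

namespace Cfsg.Agent.H4.El

open Module Polynomial H7 H7.Polar H8

theorem exists_irr_of_degree (F : Type*) [Field F] [Finite F] (p : ℕ) [Fact p.Prime] [CharP F p]
    {k : ℕ} (hk : k ≠ 0) : ∃ m : F[X], Irreducible m ∧ m.Monic ∧ m.natDegree = k := by
  have := NeZero.mk hk
  obtain ⟨α, hα⟩ := Field.exists_primitive_element F (FiniteField.Extension F p k)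
  have h := Algebra.IsIntegral.isIntegral (R := F) α
  exact ⟨_, minpoly.irreducible h, minpoly.monic h, by
    rw [(Field.primitive_element_iff_minpoly_natDegree_eq F α).1 hα, FiniteField.finrank_extension]⟩

theorem exists_dual_mul {F L : Type*} [Field F] [Field L] [Algebra F L] [FiniteDimensional F L]
    {μ : Dual F L} (hμ : μ ≠ 0) (l : Dual F L) : ∃ c, ∀ a, μ (c * a) = l a := by
  obtain ⟨a, ha⟩ := DFunLike.ne_iff.1 hμ
  obtain ⟨c, hc⟩ := (LinearMap.injective_iff_surjective_of_finrank_eq_finrank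
    (f := (LinearMap.mul F L).compr₂ μ) Subspace.dual_finrank_eq.symm).1
    ((injective_iff_map_eq_zero _).2 fun c hc => by_contra fun h0 => ha (by
      simpa [mul_inv_cancel_left₀ h0] using LinearMap.congr_fun hc (c⁻¹ * a))) l
  exact ⟨c, fun a => LinearMap.congr_fun hc a⟩

variable {F : Type*} [Field F] {V : Type*} [AddCommGroup V] [Module F V] {P : Polar F V}

variable (P) in
/-- `J` preserves `W`, is a root of `m`, self-adjoint and alternating there. -/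
structure KS (m : F[X]) (J : End F V) (W : Submodule F V) : Prop where
  mem : ∀ v ∈ W, J v ∈ W
  kill : ∀ v ∈ W, aeval J m v = 0
  adj : ∀ u ∈ W, ∀ v ∈ W, P.B (J u) v = P.B u (J v)
  alt : ∀ v ∈ W, P.B (J v) v = 0

theorem glue_ks (m : F[X]) : Glue P (KS P m) where
  bot J := ⟨fun v hv => by simp [(Submodule.mem_bot F).1 hv],
    fun v hv => by simp [(Submodule.mem_bot F).1 hv],
    fun u hu v _ => by simp [(Submodule.mem_bot F).1 hu],
    fun v hv => by simp [(Submodule.mem_bot F).1 hv]⟩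
  congr J J' W h h' := ⟨fun v hv => h' v hv ▸ h.mem v hv,
    fun v hv => (aeval_intertwine_on (φ := 1) h.mem (fun v hv => (h' v hv).symm) m hv).symm.trans
      (h.kill v hv), fun u hu v hv => by rw [h' u hu, h' v hv, h.adj u hu v hv],
    fun v hv => by rw [h' v hv, h.alt v hv]⟩
  sup J A B h h' ho := by
    refine ⟨fun v hv => ?_, fun v hv => ?_, fun u hu v hv => ?_, fun v hv => ?_⟩
    · obtain ⟨a, ha, b, hb, rfl⟩ := Submodule.mem_sup.1 hv
      rw [map_add]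
      exact Submodule.add_mem_sup (h.mem a ha) (h'.mem b hb)
    · obtain ⟨a, ha, b, hb, rfl⟩ := Submodule.mem_sup.1 hv
      rw [map_add, h.kill a ha, h'.kill b hb, add_zero]
    · obtain ⟨a, ha, b, hb, rfl⟩ := Submodule.mem_sup.1 hu
      obtain ⟨c, hc, d, hd, rfl⟩ := Submodule.mem_sup.1 hv
      simp only [map_add, LinearMap.add_apply, h.adj a ha c hc, h'.adj b hb d hd,
        ho _ (h.mem a ha) d hd, ho a ha _ (h'.mem d hd), ho.symm _ (h'.mem b hb) c hc,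
        ho.symm b hb _ (h.mem c hc)]
    · obtain ⟨a, ha, b, hb, rfl⟩ := Submodule.mem_sup.1 hv
      simp only [map_add, LinearMap.add_apply, h.alt a ha, h'.alt b hb,
        ho _ (h.mem a ha) b hb, ho.symm _ (h'.mem b hb) a ha, add_zero]

theorem alt_aeval (h : ∀ x c, P.Val x c) (hσ : ∀ a, P.σ a = a) {J : End F V} {W : Submodule F V}
    (h1 : ∀ v ∈ W, J v ∈ W) (h2 : ∀ u ∈ W, ∀ v ∈ W, P.B (J u) v = P.B u (J v))
    (h3 : ∀ v ∈ W, P.B (J v) v = 0) (f : F[X]) {v : V} (hv : v ∈ W) :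
    P.B (aeval J f v) v = 0 := by
  induction f using Polynomial.induction_on' with
  | add f g hf hg => simp [hf, hg]
  | monomial n a =>
    rw [← C_mul_X_pow_eq_monomial, aeval_mul_apply, aeval_C, Module.algebraMap_end_apply, map_smul,
      LinearMap.smul_apply, smul_eq_zero]
    right
    have h4 := aeval_mem_of_invariant h1 (X ^ (n / 2)) hv
    rw [← Nat.div_add_mod n 2, two_mul, add_assoc, pow_add, pow_add, mul_comm (X ^ _) (X ^ (n % 2)),
      aeval_mul_apply, aeval_mul_apply, adj_aeval_on hσ h1 h2 _ (aeval_mem_of_invariant h1 _ h4) hv]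
    rcases Nat.mod_two_eq_zero_or_one n with e | e <;> rw [e]
    · simpa using sing_B (h _ 0)
    · simpa using h3 _ h4

namespace KS

variable {m : F[X]} {J : End F V} {W U : Submodule F V}

theorem mono (h : KS P m J W) (hle : U ≤ W) (hU : ∀ v ∈ U, J v ∈ U) : KS P m J U :=
  ⟨hU, fun v hv => h.kill v (hle hv), fun u hu v hv => h.adj u (hle hu) v (hle hv),
    fun v hv => h.alt v (hle hv)⟩

theorem inf_perp (h : KS P m J W) (hle : U ≤ W) (hU : ∀ v ∈ U, J v ∈ U) :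
    KS P m J (W ⊓ P.perp U) :=
  h.mono inf_le_left fun v hv => ⟨h.mem v hv.1, fun u hu => by
    rw [h.adj v hv.1 u (hle hu), hv.2 _ (hU u hu)]⟩

theorem conj (h : KS P m J W) {g : V ≃ₗ[F] V} (hg : g ∈ P.Iso) :
    KS P m ((g : End F V) * J * (g⁻¹ : V ≃ₗ[F] V)) (W.map (g : V →ₗ[F] V)) := by
  have h1 : ∀ v, ((g : End F V) * J * (g⁻¹ : V ≃ₗ[F] V)) ((g : V →ₗ[F] V) v) = g (J v) := fun v =>
    congrArg (fun w => g (J w)) (inv_apply_apply g v)
  refine ⟨?_, ?_, ?_, ?_⟩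
  · rintro _ ⟨v, hv, rfl⟩
    exact ⟨_, h.mem v hv, (h1 v).symm⟩
  · rintro _ ⟨v, hv, rfl⟩
    rw [← aeval_intertwine (φ := (g : End F V)) (J := J) (fun v => (h1 v).symm), h.kill v hv,
      map_zero]
  · rintro _ ⟨u, hu, rfl⟩ _ ⟨v, hv, rfl⟩
    rw [h1, h1, LinearEquiv.coe_coe, Iso.B hg, Iso.B hg, h.adj u hu v hv]
  · rintro _ ⟨v, hv, rfl⟩
    rw [h1, LinearEquiv.coe_coe, Iso.B hg, h.alt v hv]

end KS

/-- The action of the root field on a vector. -/
noncomputable def actE {m : F[X]} (hm : m.Monic) (J : End F V) (u : V) : AdjoinRoot m →ₗ[F] V :=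
  (LinearMap.applyₗ u ∘ₗ (aeval J).toLinearMap) ∘ₗ AdjoinRoot.modByMonicHom hm

theorem actE_mk {m : F[X]} (hm : m.Monic) {J : End F V} {u : V} (hu : aeval J m u = 0) (f : F[X]) :
    actE hm J u (AdjoinRoot.mk m f) = aeval J f u := by
  simp only [actE, LinearMap.comp_apply, AdjoinRoot.modByMonicHom_mk, AlgHom.toLinearMap_apply,
    LinearMap.applyₗ_apply_apply]
  conv_rhs => rw [← modByMonic_add_div f m, map_add, LinearMap.add_apply, mul_comm,
    aeval_mul_apply, hu, map_zero, add_zero]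

variable (P) in
/-- A hyperbolic plane over the root field. -/
structure KB {m : F[X]} (l : Dual F (AdjoinRoot m)) (J : End F V)
    (e : AdjoinRoot m × AdjoinRoot m →ₗ[F] V) : Prop where
  gram : ∀ x y, P.B (e x) (e y) = l (x.1 * y.2) - l (y.1 * x.2)
  comm : ∀ x, J (e x) = e (AdjoinRoot.root m • x)

namespace KB

variable {m : F[X]} [hm : Fact (Irreducible m)] {l : Dual F (AdjoinRoot m)} {J J' : End F V}
  {e e' : AdjoinRoot m × AdjoinRoot m →ₗ[F] V} (h : KB P l J e)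
include h

theorem mem : ∀ v ∈ LinearMap.range e, J v ∈ LinearMap.range e := by
  rintro _ ⟨x, rfl⟩
  exact ⟨_, (h.comm x).symm⟩

theorem eq_zero (hl : l ≠ 0) {x : AdjoinRoot m × AdjoinRoot m} (h0 : ∀ y, P.B (e x) (e y) = 0) :
    x = 0 := by
  obtain ⟨a, ha⟩ := DFunLike.ne_iff.1 hl
  refine Prod.ext (by_contra fun h1 => ha ?_) (by_contra fun h1 => ha ?_)
  · simpa [h.gram, mul_inv_cancel_left₀ h1] using h0 (0, x.1⁻¹ * a)
  · simpa [h.gram, inv_mul_cancel_right₀ h1] using h0 (a * x.2⁻¹, 0)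

theorem injective (hl : l ≠ 0) : Function.Injective e :=
  (injective_iff_map_eq_zero _).2 fun _ hx => h.eq_zero hl fun y => by simp [hx]

theorem nd (hl : l ≠ 0) : Nd P (LinearMap.range e) := nd_of (by
  rintro _ ⟨x, rfl⟩ h0
  rw [h.eq_zero hl fun y => h0 _ ⟨y, rfl⟩, map_zero])

theorem finrank_eq (hl : l ≠ 0) : finrank F (LinearMap.range e) = 2 * m.natDegree := by
  have := (AdjoinRoot.powerBasis hm.out.ne_zero).finite
  rw [LinearMap.finrank_range_of_inj (h.injective hl), finrank_prod,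
    (AdjoinRoot.powerBasis hm.out.ne_zero).finrank, AdjoinRoot.powerBasis_dim, two_mul]

theorem ne_bot (hl : l ≠ 0) : LinearMap.range e ≠ ⊥ := fun h0 => by
  have := h.finrank_eq hl
  rw [h0, finrank_bot] at this
  have := hm.out.natDegree_pos
  omega

theorem exists_iso [Finite F] [FiniteDimensional F V] (hv : ∀ x c, P.Val x c) (hl : l ≠ 0)
    (h' : KB P l J' e') : ∃ g ∈ P.Iso, ∀ x, g (e x) = e' x := by
  obtain ⟨s, hs⟩ := e.exists_leftInverse_of_injective (LinearMap.ker_eq_bot.2 (h.injective hl))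
  have h1 : ∀ x, (e' ∘ₗ s) (e x) = e' x := fun x => congrArg e' (LinearMap.congr_fun hs x)
  obtain ⟨g, hg, h2⟩ := witt (P := P) (e' ∘ₗ s) (LinearMap.range e) (by
      rintro _ ⟨x, rfl⟩ h0
      rw [h1, map_eq_zero_iff _ (h'.injective hl)] at h0
      rw [h0, map_zero]) (by
      rintro _ ⟨x, rfl⟩ _ ⟨y, rfl⟩
      rw [h1, h1, h.gram, h'.gram]) fun u _ => ⟨0, hv _ _, hv _ _⟩
  exact ⟨g, hg, fun x => (h2 _ ⟨x, rfl⟩).trans (h1 x)⟩

end KB

section sp

variable (h : ∀ x c, P.Val x c) (hσ : ∀ a, P.σ a = a) (hε : P.ε = -1)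
include h hσ hε

theorem KS.exists_kb {m : F[X]} [hm : Fact (Irreducible m)] (hm' : m.Monic) {J : End F V}
    {W : Submodule F V} (hJ : KS P m J W) (hW : Nd P W) (h0 : W ≠ ⊥) (l : Dual F (AdjoinRoot m)) :
    ∃ e, LinearMap.range e ≤ W ∧ KB P l J e := by
  have := (AdjoinRoot.powerBasis hm.out.ne_zero).finite
  obtain ⟨v, hv, hv0⟩ := W.exists_mem_ne_zero_of_ne_bot h0
  obtain ⟨w, hw, h1⟩ := hW.exists_ne hv hv0
  have h2 : ∀ u ∈ W, ∀ a, actE hm' J u a ∈ W := fun u hu a => by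
    obtain ⟨f, rfl⟩ := AdjoinRoot.mk_surjective a
    rw [actE_mk hm' (hJ.kill u hu)]
    exact aeval_mem_of_invariant hJ.mem f hu
  have h3 : ∀ u ∈ W, ∀ u' ∈ W, ∀ a b, P.B (actE hm' J u a) (actE hm' J u' b) =
      P.B (actE hm' J u (b * a)) u' := fun u hu u' hu' a b => by
    obtain ⟨f, rfl⟩ := AdjoinRoot.mk_surjective a
    obtain ⟨g, rfl⟩ := AdjoinRoot.mk_surjective b
    rw [← map_mul, actE_mk hm' (hJ.kill u hu), actE_mk hm' (hJ.kill u hu),
      actE_mk hm' (hJ.kill u' hu'), aeval_mul_apply,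
      adj_aeval_on hσ hJ.mem hJ.adj g (aeval_mem_of_invariant hJ.mem f hu) hu']
  have h4 : ∀ u ∈ W, ∀ a, P.B (actE hm' J u a) u = 0 := fun u hu a => by
    obtain ⟨f, rfl⟩ := AdjoinRoot.mk_surjective a
    rw [actE_mk hm' (hJ.kill u hu)]
    exact alt_aeval h hσ hJ.mem hJ.adj hJ.alt f hu
  have h5 : ∀ u ∈ W, ∀ a, J (actE hm' J u a) = actE hm' J u (AdjoinRoot.root m * a) :=
    fun u hu a => by
      obtain ⟨f, rfl⟩ := AdjoinRoot.mk_surjective a
      rw [← AdjoinRoot.mk_X, ← map_mul, actE_mk hm' (hJ.kill u hu), actE_mk hm' (hJ.kill u hu),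
        aeval_mul_apply, aeval_X]
  obtain ⟨c, hc⟩ := exists_dual_mul (μ := P.B.flip w ∘ₗ actE hm' J v) (fun e => h1 (by
    have := LinearMap.congr_fun e (AdjoinRoot.mk m 1)
    rwa [LinearMap.comp_apply, actE_mk hm' (hJ.kill v hv), map_one] at this)) l
  refine ⟨(actE hm' J v).coprod (actE hm' J w ∘ₗ LinearMap.mulRight F c), ?_, fun x y => ?_,
    fun x => ?_⟩
  · rintro _ ⟨x, rfl⟩
    exact W.add_mem (h2 v hv _) (h2 w hw _)
  · simp only [LinearMap.coprod_apply, LinearMap.comp_apply, LinearMap.mulRight_apply, map_add,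
      LinearMap.add_apply]
    rw [P.herm (actE hm' J v y.1) (actE hm' J w _), hσ, hε, h3 v hv v hv, h3 w hw w hw, h3 v hv w hw,
      h3 v hv w hw, h4 v hv, h4 w hw, ← hc, ← hc]
    simp only [LinearMap.comp_apply, LinearMap.flip_apply]
    ring_nf
  · simp [h5 v hv, h5 w hw, mul_assoc]

variable [Fintype F] [FiniteDimensional F V] {m : F[X]} (hm : Irreducible m) (hm' : m.Monic)
include hm hm'

omit h hσ hε [Fintype F] [FiniteDimensional F V] hm' in
theorem exists_dual_ne : ∃ l : Dual F (AdjoinRoot m), l ≠ 0 := by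
  have := Fact.mk hm
  obtain ⟨l, hl⟩ := exists_dual_one' (F := F) (one_ne_zero (α := AdjoinRoot m))
  exact ⟨l, by rintro rfl; simp at hl⟩

theorem KS.dvd {J : End F V} {W : Submodule F V} (hJ : KS P m J W) (hW : Nd P W) :
    2 * m.natDegree ∣ finrank F W := by
  have := Fact.mk hm
  obtain ⟨l, hl⟩ := exists_dual_ne hm
  obtain ⟨-, -, h1⟩ := Glue.exists_of_peel (P := P)
    (D := fun _ W => Nd P W ∧ 2 * m.natDegree ∣ finrank F W) ⟨fun _ => ⟨nd_bot, by simp⟩,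
      fun _ _ _ h _ => h, fun _ A B h1 h2 ho => ⟨h1.1.sup h2.1 ho,
        h1.1.finrank_sup ho ▸ dvd_add h1.2 h2.2⟩⟩ (fun W => Nd P W ∧ KS P m J W) (by
      rintro W ⟨h1, h2⟩ h0
      obtain ⟨e, h3, h4⟩ := h2.exists_kb h hσ hε hm' h1 h0 l
      exact ⟨_, h3, h4.ne_bot hl, h4.nd hl, ⟨0, h4.nd hl, (h4.finrank_eq hl).symm.dvd⟩,
        h1.inf_perp (h4.nd hl) h3, h2.inf_perp h3 h4.mem⟩) ⟨hW, hJ⟩
  exact h1

theorem sp_ks_conj {J J' : End F V} (hJ : KS P m J ⊤) (hJ' : KS P m J' ⊤) :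
    ∃ g ∈ P.Iso, ∀ v, g (J v) = J' (g v) := by
  have := Fact.mk hm
  obtain ⟨l, hl⟩ := exists_dual_ne hm
  obtain ⟨g, hg, -, h1⟩ := exists_iso_of_peel (P := P) (J := J) (J' := J') (fun W W' => Nd P W ∧
    Nd P W' ∧ finrank F W = finrank F W' ∧ KS P m J W ∧ KS P m J' W')
    (fun W W' h => h.2.2.2.1.mem) (by
      rintro W W' ⟨h1, h3, h4, h5, h6⟩ h0
      obtain ⟨e, h7, h8⟩ := h5.exists_kb h hσ hε hm' h1 h0 l
      obtain ⟨e', h9, h10⟩ := h6.exists_kb h hσ hε hm' h3 (by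
        rintro rfl; exact h0 (Submodule.finrank_eq_zero.1 (by rw [h4, finrank_bot]))) l
      obtain ⟨g, hg, h11⟩ := h8.exists_iso h hl h10
      have h12 := h1.finrank_inf_perp h7
      have h13 := h3.finrank_inf_perp h9
      rw [h8.finrank_eq hl] at h12
      rw [h10.finrank_eq hl] at h13
      refine ⟨_, h7, h8.ne_bot hl, h8.nd hl, h8.mem, g, hg, ?_⟩
      rw [← LinearMap.range_comp, show (g : V →ₗ[F] V) ∘ₗ e = e' from LinearMap.ext h11]
      refine ⟨h9, ?_, h1.inf_perp (h8.nd hl) h7, h3.inf_perp (h10.nd hl) h9, by omega,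
        h5.inf_perp h7 h8.mem, h6.inf_perp h9 h10.mem⟩
      rintro _ ⟨x, rfl⟩
      rw [h8.comm, h11, h11, h10.comm]) ⟨nd_top, nd_top, rfl, hJ, hJ'⟩
  exact ⟨g, hg, fun v => h1 v trivial⟩

theorem KS.exists_of_dvd [Nontrivial V] {J : End F V} (hJ : KS P m J ⊤) {W : Submodule F V}
    (hW : Nd P W) (hd : 2 * m.natDegree ∣ finrank F W) : ∃ J', KS P m J' W := by
  have := Fact.mk hm
  obtain ⟨l, hl⟩ := exists_dual_ne hm
  obtain ⟨e, -, he⟩ := hJ.exists_kb h hσ hε hm' nd_top top_ne_bot l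
  refine (glue_ks m).exists_of_peel (fun W => Nd P W ∧ 2 * m.natDegree ∣ finrank F W) ?_ ⟨hW, hd⟩
  rintro W ⟨h1, h2⟩ h0
  obtain ⟨B, h3, h4, h5⟩ := (lam_sp h).sub W h1 _ (Nat.le_of_dvd
    (Submodule.one_le_finrank_iff.2 h0) h2) (dvd_mul_right _ _)
  obtain ⟨g, hg, rfl⟩ := (lam_sp h).cj _ _ (he.nd hl) h4 ((he.finrank_eq hl).trans h5.symm)
  refine ⟨_, h3, fun e => ?_, h4, ⟨_, (hJ.mono le_top he.mem).conj hg⟩, h1.inf_perp h4 h3, ?_⟩
  · rw [e, finrank_bot] at h5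
    have := hm.natDegree_pos
    omega
  · rw [← h1.finrank_inf_perp h3, h5] at h2
    exact (Nat.dvd_add_left dvd_rfl).1 h2

variable {r : ℕ} [hr : Fact r.Prime] {p : ℕ} [hp : Fact p.Prime] [CharP F p]

omit h hσ hε hm hm' in
theorem nd_inf_Kr_of_adj (hrp : r ≠ p) {y : V ≃ₗ[F] V} (hyr : y ^ r = 1) {W : Submodule F V}
    (hW : Nd P W) (hi : Inv y W) {f : F[X]}
    (hf : ∀ u v, P.B (aeval (y : End F V) f u) v = P.B u (aeval (y : End F V) f v)) :
    Nd P (W ⊓ Kr y f) := by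
  classical
  obtain ⟨e, he⟩ := EuclideanDomain.gcd_dvd_right f (X ^ r - 1)
  have h1 := squarefree_X_pow_sub_one (F := F) hrp
  have h2 : IsCoprime (EuclideanDomain.gcd f (X ^ r - 1)) e :=
    (squarefree_mul_iff.1 (he ▸ h1)).1.isCoprime
  have h3 : IsCoprime e f := isCoprime_of_irreducible_dvd (fun h => h1.ne_zero (by
      rw [he, h.1, mul_zero])) fun z hz h3 h4 => hz.not_isUnit (h2.isUnit_of_dvd'
        (EuclideanDomain.dvd_gcd h4 (he ▸ h3.mul_left _)) h3)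
  refine nd_of fun v hv h0 => hW.eq_zero hv.1 fun w hw => ?_
  obtain ⟨a, ha, b, hb, rfl⟩ := Kl.exists_add (x := y) (he ▸ kl_of_pow_eq_one fun v _ => by
    rw [hyr]; rfl) hi h2 hw
  obtain ⟨c, -, rfl⟩ := ((kl_Kr y e).mono inf_le_right).exists_eq_of_coprime
    (hi.inf (inv_Kr _ _)) h3 hb
  rw [map_add, h0 a ⟨ha.1, aeval_eq_zero_of_dvd (EuclideanDomain.gcd_dvd_left _ _) ha.2⟩, ← hf,
    mem_Kr.1 hv.2]
  simp

omit h hσ hε hm hm' [FiniteDimensional F V] in
theorem orderOf_dvd_two_mul (hrp : r ≠ p) {g : F[X]} [hg : Fact (Irreducible g)]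
    (hd : g ∣ cyclotomic r F) : orderOf (Fintype.card F : ZMod r) ∣
      2 * (minpoly F (aeval (AdjoinRoot.root g) (X + X ^ (r - 1) : F[X]))).natDegree := by
  have := (AdjoinRoot.powerBasis hg.out.ne_zero).finite
  have hα := isPrimitiveRoot_root hrp hd
  set ζ := AdjoinRoot.root g
  set d := (minpoly F (aeval ζ (X + X ^ (r - 1) : F[X]))).natDegree
  have h1 := aeval_eq_zero_of_dvd_aeval_eq_zero ((minpoly.irreducible (Algebra.IsIntegral.isIntegral
    (R := F) (aeval ζ (X + X ^ (r - 1) : F[X])))).natDegree_dvd_iff_dvd_X_pow_card_pow_sub_X.1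
    (dvd_refl d)) (minpoly.aeval F _)
  rw [map_sub, map_pow, aeval_X, sub_eq_zero, Nat.card_eq_fintype_card] at h1
  have h2 := aeval_algHom_apply (FiniteField.frobeniusAlgHom F (AdjoinRoot g) ^ d) ζ
    (X + X ^ (r - 1) : F[X])
  simp only [AlgHom.coe_pow, FiniteField.coe_frobeniusAlgHom, pow_iterate, h1] at h2
  have h3 : ∀ ξ : AdjoinRoot g, ξ ^ r = 1 → ξ * ξ ^ (r - 1) = 1 := fun ξ h => by
    rwa [← pow_succ', Nat.sub_add_cancel hr.out.pos]
  have h4 := h3 ζ hα.pow_eq_one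
  have h5 := h3 (ζ ^ Fintype.card F ^ d) (by rw [← pow_mul, mul_comm, pow_mul, hα.pow_eq_one, one_pow])
  simp only [map_add, map_pow, aeval_X] at h2
  have h6 : (ζ ^ Fintype.card F ^ d - ζ) * (ζ ^ Fintype.card F ^ d * ζ - 1) = 0 := by
    linear_combination (ζ ^ Fintype.card F ^ d * ζ) * h2 - ζ * h5 + ζ ^ Fintype.card F ^ d * h4
  rw [orderOf_dvd_iff_pow_eq_one, mul_comm, pow_mul, sq_eq_one_iff]
  rcases mul_eq_zero.1 h6 with h7 | h7
  · left
    rw [sub_eq_zero] at h7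
    nth_rewrite 2 [← pow_one ζ] at h7
    rw [← Nat.cast_pow, ← Nat.cast_one, ZMod.natCast_eq_natCast_iff, hα.eq_orderOf]
    exact (hα.isOfFinOrder hr.out.ne_zero).pow_eq_pow_iff_modEq.1 h7
  · right
    rwa [sub_eq_zero, ← pow_succ, hα.pow_eq_one_iff_dvd, ← ZMod.natCast_eq_zero_iff, Nat.cast_succ,
      add_eq_zero_iff_eq_neg, Nat.cast_pow] at h7

omit hm' in
theorem exists_ks_block (hrp : r ≠ p) {i : ℕ} (hi : i = orderOf (Fintype.card F : ZMod r))
    (hc : 2 * m.natDegree ∣ if Even i then i else 2 * i) {y : V ≃ₗ[F] V}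
    (hy : y ∈ P.Iso) (hyr : y ^ r = 1) {W : Submodule F V} (hW : Nd P W) (hi' : Inv y W)
    (h0 : ¬ W ≤ Fix y) : ∃ f f' : F[X], W ⊓ Kr y f ≠ ⊥ ∧ Nd P (W ⊓ Kr y f) ∧
      KS P m (aeval (y : End F V) f') (W ⊓ Kr y f) := by
  obtain ⟨g, hg, hgm, hd, u, hu, hu0, hug⟩ := ((kl_Kr _ _).mono inf_le_right).exists_irr
    (hi'.inf (inv_Kr _ _)) (cyclotomic_ne_zero r F) fun e => h0 (by
      have h4 := sup_Fix_Kr hrp hyr hi'
      rw [e, bot_sup_eq, inf_eq_left] at h4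
      exact h4)
  have := Fact.mk hg
  have := (AdjoinRoot.powerBasis hg.ne_zero).finite
  have h1 := hi ▸ orderOf_dvd_two_mul hrp hd
  set T : F[X] := X + X ^ (r - 1) with hT
  set s := minpoly F (aeval (AdjoinRoot.root g) T)
  have h2 : Irreducible s := minpoly.irreducible (Algebra.IsIntegral.isIntegral _)
  have := Fact.mk h2
  have := finite_adjoinRoot h2.ne_zero
  obtain ⟨a, ha⟩ := exists_root_of_dvd hm (L := AdjoinRoot s) (by
    rw [(AdjoinRoot.powerBasis h2.ne_zero).finrank, AdjoinRoot.powerBasis_dim]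
    split_ifs at hc with h3
    · exact Nat.dvd_of_mul_dvd_mul_left two_pos (hc.trans h1)
    · exact (Nat.dvd_of_mul_dvd_mul_left two_pos hc).trans
        ((Nat.coprime_two_right.2 (Nat.not_even_iff_odd.1 h3)).dvd_of_dvd_mul_left h1))
  obtain ⟨f, rfl⟩ := AdjoinRoot.mk_surjective a
  rw [← AdjoinRoot.aeval_eq, ← aeval_comp, AdjoinRoot.aeval_eq, AdjoinRoot.mk_eq_zero] at ha
  have h3 : ∀ v, aeval (y : End F V) T v = y v + y⁻¹ v := fun v => by
    have : y ^ (r - 1) = y⁻¹ := eq_inv_of_mul_eq_one_left (by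
      rwa [← pow_succ, Nat.sub_add_cancel hr.out.pos])
    simp [hT, coe_pow_apply, this]
  have h4 : ∀ u v, P.B (aeval (y : End F V) T u) v = P.B u (aeval (y : End F V) T v) :=
    fun u v => by
      simp only [h3, map_add, LinearMap.add_apply]
      rw [iso_B_left hy, iso_B_right hy, add_comm]
  have h5 : ∀ v, P.B (aeval (y : End F V) T v) v = 0 := fun v => by
    rw [h3, map_add, LinearMap.add_apply, ← iso_B_right hy, P.herm v (y v), hσ, hε]
    ring
  refine ⟨s.comp T, f.comp T, (Submodule.ne_bot_iff _).2 ⟨u, ⟨hu.1, aeval_eq_zero_of_dvd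
    (AdjoinRoot.mk_eq_zero.1 (by rw [← AdjoinRoot.aeval_eq, aeval_comp, minpoly.aeval])) hug⟩, hu0⟩,
    nd_inf_Kr_of_adj hrp hyr hW hi' fun u v => by rw [aeval_comp]; exact adj_aeval hσ h4 s u v,
    fun v hv => (hi'.inf (inv_Kr _ _)).aeval _ hv, fun v hv => ?_, fun u _ v _ => ?_,
    fun v _ => ?_⟩
  · rw [aeval_comp, ← aeval_comp]
    exact aeval_eq_zero_of_dvd ha (by rw [← aeval_comp]; exact hv.2)
  · rw [aeval_comp]; exact adj_aeval hσ h4 f u v
  · rw [aeval_comp]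
    exact alt_aeval (W := ⊤) h hσ (fun _ _ => trivial) (fun u _ v _ => h4 u v) (fun v _ => h5 v) f
      trivial

theorem sp_ks_only (hn : 4 ≤ finrank F V) (hk : m.natDegree.Prime) {J : End F V} (hJ : KS P m J ⊤)
    {S : Subgroup (V ≃ₗ[F] V)} (hS : IsPGroup r S) (hSI : S ≤ P.Iso)
    (hS' : ∀ g ∈ P.Iso, ∃ s ∈ S, ¬ NJ J (g⁻¹ * s * g))
    (H : Elu P.Iso r fun x => ∃ g ∈ P.Iso, NJ J (g⁻¹ * x * g)) :
    r = 2 ∧ finrank F V = 4 ∧ m.natDegree = 2 ∧ p ≠ 2 := by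
  have : Nontrivial V := (finrank_pos_iff (R := F)).1 (by omega)
  have hL := lam_sp h
  have hJm : aeval J m = 0 := LinearMap.ext fun v => hJ.kill v trivial
  have hd := hJ.dvd h hσ hε hm hm' nd_top
  rw [finrank_top] at hd
  have hd' := Nat.le_of_dvd (by omega) hd
  have hk2 := hk.two_le
  have key : ∀ {z : V ≃ₗ[F] V}, (∀ v, z (J v) = J (z v)) → ∀ f, ∀ v ∈ Kr z f, J v ∈ Kr z f :=
    fun {z} h1 f v hv => by
      rw [mem_Kr, ← aeval_intertwine (φ := J) fun v => (h1 v).symm, mem_Kr.1 hv, map_zero]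
  have hpow : ∀ {y g : V ≃ₗ[F] V} {r : ℕ}, y ^ r = 1 → (g⁻¹ * y * g) ^ r = 1 :=
    fun {y g r} hy => by
      have := conj_pow (a := g⁻¹) (b := y) (i := r)
      rw [inv_inv] at this
      rw [this, hy, mul_one, inv_mul_cancel]
  have key2 : r ≠ p → ∀ {y g : V ≃ₗ[F] V} {c : ℕ}, y ∈ P.Iso → g ∈ P.Iso → y ^ r = 1 →
      finrank F (Fix y) + c = finrank F V → (∀ v, (g⁻¹ * y * g) (J v) = J ((g⁻¹ * y * g) v)) →
      2 * m.natDegree ∣ c := fun hrp {y g c} hy hg hyr h1 h2 => by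
    have h3 := mul_mem (mul_mem (inv_mem hg) hy) hg
    have h4 := (hJ.mono le_top (key h2 _)).dvd h hσ hε hm hm' (nd_Kr hrp h3 (hpow hyr))
    have h5 := finrank_Kr_Fix hrp (hpow (g := g) hyr) (inv_top _)
    rw [top_inf_eq, top_inf_eq, finrank_top, finrank_Fix_conj] at h5
    rwa [show finrank F (Kr (g⁻¹ * y * g) (cyclotomic r F)) = c by omega] at h4
  by_cases hrp : r = p
  · obtain ⟨x, hx, h1, h3, e, -, -, h4⟩ := exists_transvection (p := p) hL (by omega)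
    have h5 := finrank_Fix_of_rank h3 h4
    obtain ⟨g, -, hg⟩ := H x (E_le_Iso hx) ⟨1, fun v => by rw [hrp, h1, one_smul]; rfl⟩
      (not_scal_of_fix h3 (by omega))
    rw [← finrank_Fix_conj x g] at h5
    rcases hg.comm_or hm hJm with h6 | h6
    · have h7 := dvd_finrank_end hm (key h6 (X - 1)) fun v _ => hJ.kill v trivial
      rw [Kr_X_sub_one] at h7
      have := Nat.le_of_dvd one_pos ((Nat.dvd_add_right h7).1 (h5 ▸ dvd_of_mul_left_dvd hd))
      omega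
    · omega
  by_cases hr2 : r = 2
  · subst hr2
    obtain ⟨D, -, h1, h3⟩ := hL.sub ⊤ nd_top 2 (by rw [finrank_top]; omega) dvd_rfl
    obtain ⟨y, hy, -⟩ := h1.exists_neg (two_ne_zero_of_ne (Ne.symm hrp))
    have h4 := P.finrank_perp D
    rw [← hy.Fix_eq h1, h3] at h4
    obtain ⟨g, hg, hg'⟩ := H y hy.iso ⟨1, fun v => by rw [hy.pow, one_smul]; rfl⟩
      (not_scal_of_fix (hy.ne_one (by rintro rfl; simp at h3)) (by omega))
    rcases hg'.comm_or hm hJm with h6 | h6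
    · have := Nat.le_of_dvd two_pos (key2 hrp hy.iso hg hy.pow h4 h6)
      omega
    · rw [finrank_Fix_conj] at h6
      exact ⟨rfl, by omega, by omega, Ne.symm hrp⟩
  exfalso
  replace H := (elu_iff_of_odd hσ hr2 fun x y w h ⟨g, hg, h'⟩ => ⟨g, hg, h'.of_smul h g⟩).1 H
  obtain ⟨i, hi⟩ : ∃ i, i = orderOf (Fintype.card F : ZMod r) := ⟨_, rfl⟩
  by_cases hc : 2 * m.natDegree ∣ if Even i then i else 2 * i
  · obtain ⟨J', h1, h2⟩ := (glue_ks m).exists_comm (fun J W h => h.mem)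
      (fun W hW h1 => hJ.exists_of_dvd h hσ hε hm hm' hW h1) (fun y hy hyr W hW hi' h1 =>
        let ⟨f, f', h3, h4, h5⟩ := exists_ks_block h hσ hε hm hrp hi hc hy hyr hW hi' h1
        ⟨f, f', h3, h4, h5.dvd h hσ hε hm hm' h4, h5⟩) hd hS hSI
    obtain ⟨g, hg, h5⟩ := sp_ks_conj h hσ hε hm hm' hJ h1
    obtain ⟨s, hs, h6⟩ := hS' g hg
    exact h6 (nj_of_sign (s := 1) (by simpa using h2 s hs) h5)
  obtain ⟨x, hx, hxr, -, h1, -⟩ := exists_central_res hS hSI nd_top (fun s _ => inv_top s) fun h1 => by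
    obtain ⟨s, hs, h2⟩ := hS' 1 (one_mem _)
    exact h2 (nj_of_sign (s := 1) (J' := J) (fun v => by
      rw [mem_Fix.1 (h1 s hs trivial), mem_Fix.1 (h1 s hs trivial), one_smul]) fun _ => rfl)
  obtain ⟨B, y, -, -, h5, h6, h7, -⟩ := exists_single_block hσ hrp hr2 hi hx hxr
    (ne_one_of_not_le h1)
  obtain ⟨g, hg, h8⟩ := H y h5.iso h5.pow h6
  by_cases h9 : Nat.Coprime m.natDegree r
  · exact hc (key2 hrp h5.iso hg h5.pow h7 (h8.comm_of_coprime hm hJm (hpow h5.pow) h9))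
  rcases h8.comm_or hm hJm with h10 | h10
  · exact hc (key2 hrp h5.iso hg h5.pow h7 h10)
  rw [finrank_Fix_conj] at h10
  rw [Nat.coprime_primes hk hr.out, not_not] at h9
  have h11 : i ∣ r - 1 := hi ▸ ZMod.orderOf_dvd_card_sub_one (by
    rw [Ne, ZMod.natCast_eq_zero_iff]; exact not_dvd_card_of_ne hrp)
  have h12 := hr.out.two_le
  split_ifs at h7 with h13
  · have := Nat.le_of_dvd (by omega) h11
    omega
  · have := Nat.le_of_dvd (by omega) ((Nat.coprime_two_left.2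
      (Nat.not_even_iff_odd.1 h13)).mul_dvd_of_dvd_of_dvd (hr.out.even_sub_one hr2).two_dvd h11)
    omega

omit hm hm' in
theorem exists_ks_four (hn : finrank F V = 4) {ω : F} (hω : ω ≠ 0) {e f e' f' : V}
    (h1 : P.B e f = 1) (h2 : P.B e' f' = ω) (ho : Ort P ((F ∙ e) ⊔ (F ∙ f)) ((F ∙ e') ⊔ (F ∙ f'))) :
    ∃ J, KS P (X ^ 2 - C ω) J ⊤ ∧ J e = e' ∧ J f = f' ∧ J e' = ω • e ∧ J f' = ω • f ∧
      ∀ v, ∃ a b c d : F, a • e + b • f + (c • e' + d • f') = v := by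
  have hs : ∀ u v, P.B v u = -P.B u v := fun u v => by rw [P.herm, hσ, hε, neg_one_mul]
  have h0 : ∀ v, P.B v v = 0 := fun v => sing_B (h v 0)
  have h3 : ∀ {e f : V}, P.B e f ≠ 0 → Nd P ((F ∙ e) ⊔ (F ∙ f)) ∧
      finrank F ↥((F ∙ e) ⊔ (F ∙ f)) = 2 := fun {e f} h1 =>
    ⟨nd_pair (by rw [h0, hs e f]; simpa using h1),
      finrank_pair (by rintro rfl; simp at h1) (notMem_span_of_B (h0 e) h1)⟩
  obtain ⟨h4, h5⟩ := h3 (h1 ▸ one_ne_zero)
  have h6 : ∀ v, ∃ a b c d : F, a • e + b • f + (c • e' + d • f') = v := fun v => by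
    have h7 := h4.finrank_sup ho
    rw [h5, (h3 (h2 ▸ hω)).2] at h7
    obtain ⟨u, hu, w, hw, rfl⟩ := Submodule.mem_sup.1
      ((Submodule.eq_top_of_finrank_eq (h7.trans hn.symm)).ge (Submodule.mem_top (x := v)))
    obtain ⟨a, b, rfl⟩ := mem_span_pair'.1 hu
    obtain ⟨c, d, rfl⟩ := mem_span_pair'.1 hw
    exact ⟨a, b, c, d, rfl⟩
  let J : End F V := (P.B.flip f).smulRight e' - (P.B.flip e).smulRight f' +
    (P.B.flip f').smulRight e - (P.B.flip e').smulRight f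
  have hJ : ∀ v, J v = P.B v f • e' - P.B v e • f' + P.B v f' • e - P.B v e' • f := fun _ => rfl
  have a1 := ho e (left_mem_pair _ _) e' (left_mem_pair _ _)
  have a2 := ho e (left_mem_pair _ _) f' (right_mem_pair _ _)
  have a3 := ho f (right_mem_pair _ _) e' (left_mem_pair _ _)
  have a4 := ho f (right_mem_pair _ _) f' (right_mem_pair _ _)
  have b1 : J e = e' := by simp [hJ, h0, h1, a1, a2]
  have b2 : J f = f' := by simp [hJ, h0, hs e f, h1, a3, a4]
  have b3 : J e' = ω • e := by simp [hJ, h0, h2, hs e e', hs f e', a1, a3]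
  have b4 : J f' = ω • f := by simp [hJ, h0, hs e' f', h2, hs e f', hs f f', a2, a4]
  refine ⟨J, ⟨fun _ _ => trivial, fun v _ => ?_, fun u _ v _ => ?_, fun v _ => ?_⟩, b1, b2, b3, b4,
    h6⟩
  · obtain ⟨a, b, c, d, rfl⟩ := h6 v
    simp only [map_sub, pow_two, map_mul, aeval_X, aeval_C, LinearMap.sub_apply,
      Module.End.mul_apply, Module.algebraMap_end_apply, map_add, map_smul, b1, b2, b3, b4]
    module
  all_goals
    simp only [hJ, map_add, map_sub, map_smul, LinearMap.add_apply, LinearMap.sub_apply,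
      LinearMap.smul_apply, LinearMap.map_smulₛₗ, hσ, smul_eq_mul, hs v e, hs v f, hs v e', hs v f']
    ring

omit h hε hm hm' [Fintype F] [FiniteDimensional F V] in
theorem Nd.exists_B_eq {W : Submodule F V} (hW : Nd P W) (h0 : W ≠ ⊥) (t : F) :
    ∃ e ∈ W, ∃ f ∈ W, P.B e f = t := by
  obtain ⟨v, hv, hv0⟩ := W.exists_mem_ne_zero_of_ne_bot h0
  obtain ⟨w, hw, h1⟩ := hW.exists_ne hv hv0
  exact ⟨(t / P.B v w) • v, W.smul_mem _ hv, w, hw, by simp [h1]⟩

omit hm hm' in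
theorem sp_ks_two (hp2 : p ≠ 2) (hn : finrank F V = 4) {ω : F} (hω : ¬ IsSquare ω) {J : End F V}
    (hJ : KS P (X ^ 2 - C ω) J ⊤) : Elu P.Iso 2 fun x => ∃ g ∈ P.Iso, NJ J (g⁻¹ * x * g) := by
  have : Fact (Nat.Prime 2) := ⟨Nat.prime_two⟩
  have : Nontrivial V := (finrank_pos_iff (R := F)).1 (by omega)
  have h2 := two_ne_zero_of_ne (F := F) hp2
  have hω0 : ω ≠ 0 := by rintro rfl; simp at hω
  rintro x hx ⟨z, hz⟩ hs
  suffices H : ∃ J', KS P (X ^ 2 - C ω) J' ⊤ ∧ ∃ c : F, ∀ v, x (J' v) = c • J' (x v) by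
    obtain ⟨J', h1, c, h3⟩ := H
    obtain ⟨g, hg, h4⟩ := sp_ks_conj h hσ hε (irr_sq hω) (monic_X_pow_sub_C _ two_ne_zero) hJ h1
    exact ⟨g, hg, nj_of_sign h3 h4⟩
  rcases eq_or_eq_neg_of_id hσ (norm_eq_one_of_smul (P.Iso.pow_mem hx 2) hz) with rfl | rfl
  · have hx2 := pow_eq_one_of_smul hz
    obtain ⟨e, he, f, hf, h1⟩ := (nd_Fix hp2.symm hx hx2).exists_B_eq hσ (fun h0 => hs (-1) fun v => by
      have h1 := sup_Fix_Kr hp2.symm hx2 (inv_top x)
      rw [h0, inf_bot_eq, sup_bot_eq, top_inf_eq] at h1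
      simpa using mem_Kr_two.1 (h1.ge trivial)) 1
    obtain ⟨e', he', f', hf', h3⟩ := (nd_Kr hp2.symm hx hx2).exists_B_eq hσ
      (Kr_ne_bot hp2.symm hx2 (by rintro rfl; exact hs 1 (by simp))) ω
    obtain ⟨J', h4, b1, b2, b3, b4, h5⟩ := exists_ks_four h hσ hε hn hω0 h1 h3
      ((ort_Kr_Fix hp2.symm hx).symm.mono (pair_le he hf) (pair_le he' hf'))
    refine ⟨J', h4, -1, fun v => ?_⟩
    obtain ⟨a, b, c, d, rfl⟩ := h5 v
    simp only [map_add, map_smul, map_neg, b1, b2, b3, b4, mem_Fix.1 he, mem_Fix.1 hf,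
      mem_Kr_two.1 he', mem_Kr_two.1 hf']
    module
  · have h3 := qs_of_sq_neg hx hz
    have h4 : ∀ v, x (x v) = -v := fun v => by simpa using h3.sq v trivial
    obtain ⟨v, -, hv⟩ := h3.exists_skew_eq h hσ hε h2 (by simp) nd_top top_ne_bot 1
    have h5 : Nd P ((F ∙ v) ⊔ (F ∙ x v)) :=
      nd_pair (by rw [sing_B (h v 0), P.herm v (x v), hσ, hε]; simp [show P.B v (x v) = 1 from hv])
    have h6 := (nd_top (P := P)).finrank_inf_perp (U := (F ∙ v) ⊔ (F ∙ x v)) le_top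
    rw [finrank_pair (by rintro rfl; simp at hv) (notMem_span_of_B (sing_B (h v 0))
      (by simp [show P.B v (x v) = 1 from hv])), finrank_top] at h6
    have h7 := h3.inf_perp le_top (h3.pair_mem (v := v) trivial)
    obtain ⟨w, hw, hw'⟩ := h7.exists_skew_eq h hσ hε h2 (by simp) (nd_top.inf_perp h5 le_top)
      (fun e => by
        rw [LinearEquiv.coe_coe] at e
        rw [e, finrank_bot] at h6; omega) ω
    obtain ⟨J', h8, b1, b2, b3, b4, h9⟩ := exists_ks_four h hσ hε hn hω0 hv hw'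
      ((ort_inf_perp ⊤ _).mono le_rfl (h7.pair_le hw))
    simp only [LinearEquiv.coe_coe] at b2 b4 h9
    refine ⟨J', h8, 1, fun u => ?_⟩
    obtain ⟨a, b, c, d, rfl⟩ := h9 u
    simp only [map_add, map_smul, map_neg, b1, b2, b3, b4, h4]
    module

end sp

end Cfsg.Agent.H4.El
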