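import Cfsg.Agent.H4.ElC2

/-! Pairs of complementary totally singular subspaces. -/

set_option autoImplicit false
set_option linter.unusedSectionVars false

namespace Cfsg.Agent.H4.El

open Module Polynomial H7 H7.Polar H8

theorem two_dvd_card_of_invol {X : Type*} [Finite X] (τ : Equiv.Perm X) (h : τ ^ 2 = 1)
    (Ω : X → Prop) (h1 : ∀ x, Ω x → Ω (τ x)) (h2 : ∀ x, Ω x → τ x ≠ x) :
    2 ∣ Nat.card {x // Ω x} := by
  have : Fact (Nat.Prime 2) := ⟨Nat.prime_two⟩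
  by_contra h3
  obtain ⟨x, h4, h5⟩ := exists_fixed_of_not_dvd (isPGroup_zpowers h) Ω (by
    rintro ⟨g, hg⟩ x hx
    obtain ⟨n, rfl⟩ := (mem_powers_iff_mem_zpowers).2 hg
    induction n with
    | zero => exact hx
    | succ n ih =>
      have := h1 _ (ih (Subgroup.npow_mem_zpowers τ n))
      simpa [pow_succ'] using this) h3
  exact h2 x h4 (h5 ⟨τ, Subgroup.mem_zpowers τ⟩)

variable {F : Type*} [Field F] {V : Type*} [AddCommGroup V] [Module F V] {P : Polar F V}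

variable (P) in
/-- `U`, `U'` are totally singular and span `W`. -/
structure TP (U U' W : Submodule F V) : Prop where
  left : Ts P U
  right : Ts P U'
  sup : U ⊔ U' = W

theorem tp_bot : TP P ⊥ ⊥ ⊥ := ⟨ts_bot, ts_bot, bot_sup_eq _⟩

namespace TP

variable {U U' W T T' W' : Submodule F V}

theorem symm (h : TP P U U' W) : TP P U' U W := ⟨h.right, h.left, sup_comm U U' ▸ h.sup⟩

theorem le (h : TP P U U' W) : U ≤ W := h.sup ▸ le_sup_left

theorem le' (h : TP P U U' W) : U' ≤ W := h.symm.le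

theorem add (h : TP P U U' W) (h' : TP P T T' W') (ho : Ort P W W') :
    TP P (U ⊔ T) (U' ⊔ T') (W ⊔ W') :=
  ⟨h.left.sup h'.left (ho.mono h.le h'.le), h.right.sup h'.right (ho.mono h.le' h'.le'), by
    rw [sup_sup_sup_comm, h.sup, h'.sup]⟩

theorem map (h : TP P U U' ⊤) {g : V ≃ₗ[F] V} (hg : g ∈ P.Iso) :
    TP P (U.map (g : V →ₗ[F] V)) (U'.map (g : V →ₗ[F] V)) ⊤ :=
  ⟨h.left.map hg, h.right.map hg, by
    rw [← Submodule.map_sup, h.sup, Submodule.map_top, LinearEquiv.range]⟩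

theorem eq_zero (h : TP P U U' W) (hW : Nd P W) {v : V} (hv : v ∈ U)
    (h0 : ∀ w ∈ U', P.B v w = 0) : v = 0 :=
  hW.eq_zero (h.le hv) fun w hw => by
    obtain ⟨a, ha, b, hb, rfl⟩ := Submodule.mem_sup.1 (h.sup ▸ hw)
    rw [map_add, h.left.2 v hv a ha, h0 b hb, add_zero]

theorem disjoint (h : TP P U U' W) (hW : Nd P W) : Disjoint U U' :=
  Submodule.disjoint_def.2 fun v hv hv' => h.eq_zero hW hv (h.right.2 v hv')

theorem isCompl (h : TP P U U' ⊤) : IsCompl U U' :=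
  ⟨h.disjoint nd_top, codisjoint_iff.2 h.sup⟩

variable [Finite F] [FiniteDimensional F V]

theorem two_mul (h : TP P U U' W) (hW : Nd P W) : 2 * finrank F U = finrank F W := by
  have h1 := h.left.two_mul_le hW h.le
  have h2 := h.right.two_mul_le hW h.le'
  have h3 := finrank_sup_of_disjoint (h.disjoint hW)
  rw [h.sup] at h3
  omega

theorem ne [Nontrivial V] (h : TP P U U' ⊤) : U ≠ U' := by
  rintro rfl
  have h1 := h.sup
  rw [sup_idem] at h1
  have := h.disjoint nd_top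
  rw [disjoint_self, h1] at this
  exact top_ne_bot this

theorem exists_iso_left (h : TP P U U' ⊤) (h' : TP P U T' ⊤) :
    ∃ g ∈ P.Iso, U.map (g : V →ₗ[F] V) = U ∧ U'.map (g : V →ₗ[F] V) = T' := by
  let π := T'.projection U h'.isCompl.symm
  let φ := LinearMap.ofIsCompl h.isCompl U.subtype (π ∘ₗ U'.subtype)
  have h1 : ∀ a ∈ U, φ a = a := fun a ha => LinearMap.ofIsCompl_apply_left h.isCompl ⟨a, ha⟩
  have h2 : ∀ b ∈ U', φ b = π b := fun b hb => LinearMap.ofIsCompl_apply_right h.isCompl ⟨b, hb⟩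
  have h3 : ∀ b, π b ∈ T' := fun b => Submodule.projection_apply_mem _ b
  have h4 : ∀ b, b - π b ∈ U := fun b => by
    rw [← Submodule.projection_eq_self_sub_projection h'.isCompl.symm]
    exact Submodule.projection_apply_mem _ b
  have h5 : ∀ a ∈ U, ∀ b, P.B a (π b) = P.B a b := fun a ha b => by
    have := h.left.2 a ha _ (h4 b)
    rw [map_sub, sub_eq_zero] at this
    exact this.symm
  have h6 : ∀ a ∈ U, ∀ b, P.B (π b) a = P.B b a := fun a ha b => by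
    rw [P.herm, h5 a ha, ← P.herm]
  have hB : ∀ u u', P.B (φ u) (φ u') = P.B u u' := fun u u' => by
    obtain ⟨a, ha, b, hb, rfl⟩ := Submodule.mem_sup.1 (h.sup ▸ Submodule.mem_top (x := u))
    obtain ⟨a', ha', b', hb', rfl⟩ := Submodule.mem_sup.1 (h.sup ▸ Submodule.mem_top (x := u'))
    simp only [map_add, h1 a ha, h2 b hb, h1 a' ha', h2 b' hb', LinearMap.add_apply,
      h5 a ha, h6 a' ha', h.right.2 b hb b' hb', h'.right.2 _ (h3 b) _ (h3 b')]
  obtain ⟨g, hg, hg'⟩ := witt (P := P) φ ⊤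
    (fun u _ h0 => P.nondeg' fun w => by rw [← hB, h0]; simp) (fun u _ u' _ => hB u u')
    (fun u _ => by
      obtain ⟨a, ha, b, hb, rfl⟩ := Submodule.mem_sup.1 (h.sup ▸ Submodule.mem_top (x := u))
      rw [map_add, h1 a ha, h2 b hb]
      exact ⟨_, P.val_add (h.left.1 a ha) (h.right.1 b hb),
        h5 a ha b ▸ P.val_add (h.left.1 a ha) (h'.right.1 _ (h3 b))⟩)
  refine ⟨g, hg, Inv.map_eq fun v hv => by rwa [hg' v trivial, h1 v hv],
    Submodule.eq_of_le_of_finrank_eq ?_ ?_⟩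
  · rintro _ ⟨v, hv, rfl⟩
    rw [LinearEquiv.coe_coe, hg' v trivial, h2 v hv]
    exact h3 v
  · have := h.symm.two_mul nd_top
    have := h'.symm.two_mul nd_top
    rw [LinearEquiv.finrank_map_eq]
    omega

theorem exists_iso (h : TP P U U' ⊤) (h' : TP P T T' ⊤) :
    ∃ g ∈ P.Iso, U.map (g : V →ₗ[F] V) = T ∧ U'.map (g : V →ₗ[F] V) = T' := by
  obtain ⟨g, hg, rfl⟩ := h.left.exists_iso h'.left (by
    have := h.two_mul nd_top
    have := h'.two_mul nd_top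
    omega)
  obtain ⟨k, hk, h1, h2⟩ := (h.map hg).exists_iso_left h'
  exact ⟨k * g, P.Iso.mul_mem hk hg, (mul_smul k g U).trans h1, (mul_smul k g U').trans h2⟩

end TP

theorem HP.tp {e f : V} (h : HP P e f) : TP P (F ∙ e) (F ∙ f) ((F ∙ e) ⊔ (F ∙ f)) :=
  ⟨ts_span h.left, ts_span h.right, rfl⟩

variable (P) in
/-- `x` fixes an unordered pair of complementary totally singular subspaces. -/
def FP (x : V ≃ₗ[F] V) : Prop :=
  ∃ U U', TP P U U' ⊤ ∧ ((U.map (x : V →ₗ[F] V) = U ∧ U'.map (x : V →ₗ[F] V) = U') ∨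
    (U.map (x : V →ₗ[F] V) = U' ∧ U'.map (x : V →ₗ[F] V) = U))

theorem map_eq_of_smul {x y : V ≃ₗ[F] V} {w : F} (h : ∀ v, x v = w • y v) (U : Submodule F V) :
    U.map (x : V →ₗ[F] V) = U.map (y : V →ₗ[F] V) := by
  rcases subsingleton_or_nontrivial V with hV | hV
  · exact Subsingleton.elim _ _
  have hw : w ≠ 0 := by
    rintro rfl
    obtain ⟨v, hv⟩ := exists_ne (0 : V)
    exact hv (x.map_eq_zero_iff.1 (by simpa using h v))
  ext v
  constructor
  · rintro ⟨u, hu, rfl⟩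
    exact ⟨w • u, U.smul_mem _ hu, by simp [h]⟩
  · rintro ⟨u, hu, rfl⟩
    exact ⟨w⁻¹ • u, U.smul_mem _ hu, by simp [h, smul_smul, hw]⟩

theorem fp_congr {x y : V ≃ₗ[F] V} {w : F} (h : ∀ v, x v = w • y v) : FP P x ↔ FP P y := by
  simp only [FP, map_eq_of_smul h]

theorem inv_inf_Kr_of_comm {s y : V ≃ₗ[F] V} {W : Submodule F V} [FiniteDimensional F V]
    (hi : Inv s W) (hy : Inv y W) (hc : ∀ v ∈ W, y (s v) = s (y v)) (f : F[X]) :
    Inv s (W ⊓ Kr y f) := fun v hv => by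
  refine ⟨hi v hv.1, ?_⟩
  have h1 := ((kl_Kr y f).conj s) (s v) ⟨v, hv.2, rfl⟩
  rwa [aeval_apply_congr hy (fun w hw => by
    rw [LinearEquiv.mul_apply, LinearEquiv.mul_apply, ← hc _ (hi.inv w hw), apply_inv_apply])
    f (hi v hv.1)] at h1

section finite

variable [Fintype F] [FiniteDimensional F V]

theorem Hy.exists_tp {W : Submodule F V} (h : Hy P W) : ∃ U U', TP P U U' W := by
  induction hd : finrank F W using Nat.strong_induction_on generalizing W with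
  | h d ih =>
    by_cases h0 : W = ⊥
    · subst h0; exact ⟨⊥, ⊥, tp_bot⟩
    obtain ⟨e, he, f, hf, hp, h1⟩ := h.exists_hp h0
    obtain ⟨U, U', h2⟩ := ih _ (by have := hp.finrank_inf_perp h.nd he hf; omega) h1 rfl
    have := hp.tp.add h2 (ort_inf_perp _ _)
    rw [hp.nd.sup_inf_perp (sup_le ((Submodule.span_singleton_le_iff_mem _ _).2 he)
      ((Submodule.span_singleton_le_iff_mem _ _).2 hf))] at this
    exact ⟨_, _, this⟩

theorem Lam.tp_iff {δ : ℕ} (hL : Lam P δ) {U U' : Submodule F V} :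
    TP P U U' ⊤ ↔ IsCompl U U' ∧ Ort P U U ∧ Ort P U' U' :=
  ⟨fun h => ⟨h.isCompl, h.left.2, h.right.2⟩,
    fun h => ⟨hL.ts_of_ort _ h.2.1, hL.ts_of_ort _ h.2.2, h.1.sup_eq_top⟩⟩

theorem Lam.fp_iff {δ : ℕ} (hL : Lam P δ) {x : V ≃ₗ[F] V} : FP P x ↔ ∃ U U', IsCompl U U' ∧
    Ort P U U ∧ Ort P U' U' ∧ ((U.map (x : V →ₗ[F] V) = U ∧ U'.map (x : V →ₗ[F] V) = U') ∨
    (U.map (x : V →ₗ[F] V) = U' ∧ U'.map (x : V →ₗ[F] V) = U)) := by
  simp only [FP, hL.tp_iff, and_assoc]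

theorem fp_of_inv {x : V ≃ₗ[F] V} {U U' : Submodule F V} (h : TP P U U' ⊤) (h1 : Inv x U)
    (h2 : Inv x U') : FP P x := ⟨U, U', h, Or.inl ⟨h1.map_eq, h2.map_eq⟩⟩

theorem not_fp_of_rank (hn : 2 < finrank F V) {y : V ≃ₗ[F] V} (hy : y ∈ P.Iso) (h1 : y ≠ 1)
    {L : Submodule F V} (hL : finrank F L ≤ 1) (h : ∀ v, y v - v ∈ L) : ¬ FP P y := by
  rintro ⟨U, U', h2, ⟨h3, h4⟩ | ⟨h3, h4⟩⟩
  · have key : ∀ {U U' : Submodule F V}, TP P U U' ⊤ → Inv y U' → U ≤ Fix y → y = 1 := by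
      intro U U' h2 h4 h5
      ext v
      obtain ⟨a, ha, b, hb, rfl⟩ := Submodule.mem_sup.1 (h2.sup ▸ Submodule.mem_top (x := v))
      have : y b - b = 0 := h2.symm.eq_zero nd_top (U'.sub_mem (h4 b hb) hb) fun w hw => by
        rw [map_sub, LinearMap.sub_apply]
        conv_lhs => rw [← mem_Fix.1 (h5 hw), Iso.B hy, mem_Fix.1 (h5 hw)]
        exact sub_self _
      rw [map_add, mem_Fix.1 (h5 ha), sub_eq_zero.1 this]; rfl
    have h3' := inv_iff_map_le.2 h3.le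
    have h4' := inv_iff_map_le.2 h4.le
    obtain ⟨a, ha, ha'⟩ := SetLike.not_le_iff_exists.1 (mt (key h2 h4') h1)
    obtain ⟨b, hb, hb'⟩ := SetLike.not_le_iff_exists.1 (mt (key h2.symm h3') h1)
    rw [mem_Fix, ← sub_eq_zero] at ha' hb'
    have h5 : ∀ v ∈ L, v ≠ 0 → L = F ∙ v := fun v hv h0 =>
      (Submodule.eq_of_le_of_finrank_le ((Submodule.span_singleton_le_iff_mem _ _).2 hv)
        (by rwa [finrank_span_singleton h0])).symm
    have h6 := h b
    rw [h5 _ (h a) ha'] at h6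
    exact hb' (Submodule.disjoint_def.1 h2.isCompl.disjoint _
      ((Submodule.span_singleton_le_iff_mem _ _).2 (U.sub_mem (h3' a ha) ha) h6)
      (U'.sub_mem (h4' b hb) hb))
  · have h5 := finrank_map_of_inj (f := nil y) (G := U) fun g hg h0 =>
      Submodule.disjoint_def.1 h2.isCompl.disjoint g hg (by
        rw [← nil_eq_zero_iff.1 h0, ← h3]; exact ⟨g, hg, rfl⟩)
    have h6 := Submodule.finrank_mono (show U.map (nil y) ≤ L by rintro _ ⟨v, -, rfl⟩; exact h v)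
    have h7 := h2.two_mul nd_top
    rw [finrank_top] at h7
    omega

theorem FP.exists_inv [Nontrivial V] {x : V ≃ₗ[F] V} (h : FP P x) {r : ℕ} (hr : Odd r)
    (hx : x ^ r = 1) : ∃ U U', TP P U U' ⊤ ∧ Inv x U ∧ Inv x U' := by
  obtain ⟨U, U', h2, ⟨h3, h4⟩ | ⟨h3, h4⟩⟩ := h
  · exact ⟨U, U', h2, inv_iff_map_le.2 h3.le, inv_iff_map_le.2 h4.le⟩
  · obtain ⟨k, rfl⟩ := hr
    have h5 : ∀ k, x ^ (2 * k) • U = U := fun k => by
      induction k with
      | zero => simp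
      | succ k ih =>
        rw [mul_add, pow_add, mul_smul, mul_one, sq, mul_smul, show x • U = U' from h3,
          show x • U' = U from h4, ih]
    have h6 := one_smul (V ≃ₗ[F] V) U
    rw [← hx, pow_succ', mul_smul, h5, show x • U = U' from h3] at h6
    exact absurd h6.symm h2.ne

theorem sp_fp_of_not_sq (h : ∀ x c, P.Val x c) {x : V ≃ₗ[F] V} (hx : x ∈ P.Iso)
    (hz : ∀ v, (x ^ 2) v = (-1 : F) • v) (h1 : ¬ IsSquare (-1 : F))
    (h2 : SDP P.σ (X ^ 2 - C (-1)) 2) : FP P x := by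
  have hxx : ∀ v, x (x v) = -v := fun v => by rw [← sq_apply, hz, neg_one_smul]
  suffices H : ∀ W, Nd P W → Inv x W → ∃ U U', TP P U U' W ∧ U.map (x : V →ₗ[F] V) = U' ∧
      U'.map (x : V →ₗ[F] V) = U by
    obtain ⟨U, U', h3, h4⟩ := H ⊤ nd_top (inv_top x)
    exact ⟨U, U', h3, Or.inr h4⟩
  intro W hW hi
  induction hd : finrank F W using Nat.strong_induction_on generalizing W with
  | h d ih =>
    by_cases h0 : W = ⊥
    · subst h0; exact ⟨⊥, ⊥, tp_bot, by simp, by simp⟩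
    obtain ⟨B, h3, h4, h5, h6, -⟩ := h2.exists_block hx hW hi (kl_of_pow_eq fun v _ => hz v) h0
    obtain ⟨U, U', h7, h8, h9⟩ := ih _ (by have := hW.finrank_inf_perp h3; omega) _
      (hW.inf_perp h4 h3) (hi.inf (h5.perp hx)) rfl
    obtain ⟨v, hv, hv0⟩ := B.exists_mem_ne_zero_of_ne_bot (by rintro rfl; simp at h6)
    have h10 : x v ∉ F ∙ v := fun hh => by
      obtain ⟨a, ha⟩ := Submodule.mem_span_singleton.1 hh
      have := hxx v
      rw [← ha, map_smul, ← ha, smul_smul, ← neg_one_smul F v] at this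
      exact h1 ⟨a, (smul_left_injective F hv0 this).symm⟩
    have h11 : TP P (F ∙ v) (F ∙ x v) B := ⟨ts_span (h _ _), ts_span (h _ _),
      Submodule.eq_of_le_of_finrank_eq (sup_le ((Submodule.span_singleton_le_iff_mem _ _).2 hv)
        ((Submodule.span_singleton_le_iff_mem _ _).2 (h5 v hv))) (by
          rw [finrank_pair hv0 h10, h6])⟩
    have := h11.add h7 (ort_inf_perp _ _)
    rw [h4.sup_inf_perp h3] at this
    refine ⟨_, _, this, ?_, ?_⟩
    · rw [Submodule.map_sup, h8, Submodule.map_span, Set.image_singleton]; rfl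
    · rw [Submodule.map_sup, h9, Submodule.map_span, Set.image_singleton, LinearEquiv.coe_coe,
        hxx, ← neg_one_smul F v, Submodule.span_singleton_smul_eq isUnit_one.neg]

variable {r : ℕ} [hr : Fact r.Prime] {p : ℕ} [hp : Fact p.Prime] [CharP F p]

theorem fp_of_invol (hp2 : p ≠ 2) {x : V ≃ₗ[F] V} (hx : x ∈ P.Iso) (hx2 : x ^ 2 = 1)
    (h1 : Hy P (Fix x)) (h2 : Hy P (Kr x (cyclotomic 2 F))) : FP P x := by
  have : Fact (Nat.Prime 2) := ⟨Nat.prime_two⟩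
  obtain ⟨U, U', h3⟩ := h1.exists_tp
  obtain ⟨T, T', h4⟩ := h2.exists_tp
  have h5 := h4.add h3 (ort_Kr_Fix hp2.symm hx)
  have h6 := sup_Fix_Kr hp2.symm hx2 (inv_top x)
  rw [top_inf_eq, top_inf_eq] at h6
  exact fp_of_inv (h6 ▸ h5) ((inv_of_le_Kr_two h4.le).sup (inv_of_le_Fix h3.le))
    ((inv_of_le_Kr_two h4.le').sup (inv_of_le_Fix h3.le'))

theorem Lam.fp_of_norm_neg {δ : ℕ} (hL : Lam P δ) (hp2 : p ≠ 2) {x : V ≃ₗ[F] V} (hx : x ∈ P.Iso)
    {l : F} (hl : l * P.σ l = -1) (h : ∀ v, (x ^ 2) v = (l ^ 2) • v) : FP P x := by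
  obtain ⟨J, -, -, -, h1, h2, -⟩ := det_of_norm_neg hp2 hx hl h
  exact fp_of_inv ⟨hL.ts_of_ort _ h1, hL.ts_of_ort _ h2, codisjoint_iff.1 (isCompl_eigen hp2
    (by rintro rfl; simp at hl) h).codisjoint⟩ (inv_Kr _ _) (inv_Kr _ _)

theorem sp_fp_two [Nontrivial V] (hp2 : p ≠ 2) (h : ∀ x c, P.Val x c) (hσ : ∀ a, P.σ a = a)
    {x : V ≃ₗ[F] V} (hx : x ∈ P.Iso) {z : F} (hz : ∀ v, (x ^ 2) v = z • v) : FP P x := by
  have : Fact (Nat.Prime 2) := ⟨Nat.prime_two⟩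
  have hL := lam_sp h
  rcases eq_or_eq_neg_of_id hσ (norm_eq_one_of_smul (P.Iso.pow_mem hx 2) hz) with rfl | rfl
  · have h1 := pow_eq_one_of_smul hz
    have h2 := nd_Fix hp2.symm hx h1
    have h3 := nd_Kr hp2.symm hx h1
    exact fp_of_invol hp2 hx h1 (hL.hy h2 (sp_even h _ h2)) (hL.hy h3 (sp_even h _ h3))
  · rcases blk_neg_one (two_ne_zero_of_ne hp2) hσ hx hz with ⟨⟨l, hl⟩, -⟩ | ⟨h1, h2⟩
    · exact hL.fp_of_norm_neg hp2 hx (l := l) (by rw [hσ, hl]) (by rwa [sq l, ← hl])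
    · exact sp_fp_of_not_sq h hx hz h1 h2

variable (hrp : r ≠ p)
include hrp

theorem not_fp_of_aniso (hr2 : r ≠ 2) {y : V ≃ₗ[F] V} {D : Submodule F V} (hD : Nd P D)
    (h0 : 0 < finrank F D) (hy : Fpf P r y D) (ha : Aniso P y D) : ¬ FP P y := fun h => by
  have : Nontrivial V := Module.finrank_pos_iff (R := F).mp (h0.trans_le (Submodule.finrank_le D))
  obtain ⟨U, U', h1, h2, -⟩ := h.exists_inv (hr.out.odd_of_ne_two hr2) hy.pow
  have h3 := two_mul_le_of_aniso hrp hD hy ha h2 h1.left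
  have h4 := h1.two_mul nd_top
  rw [finrank_top] at h4
  omega

theorem SDP.exists_not_fp (hr2 : r ≠ 2) {I : ℕ} (h : SDP P.σ (cyclotomic r F) I) (hI : 0 < I)
    {x : V ≃ₗ[F] V} (hx : x ∈ P.Iso) (hxr : x ^ r = 1) (h1 : x ≠ 1) :
    ∃ y ∈ P.Iso, y ^ r = 1 ∧ y ≠ 1 ∧ ¬ FP P y := by
  obtain ⟨B, y, h2, h3, h4, h5, -⟩ := h.exists_block' hrp hx hxr h1
  exact ⟨y, h4.iso, h4.pow, h4.ne_one (by rintro rfl; simp at h3; omega),
    not_fp_of_aniso hrp hr2 h2 (by omega) h4 h5⟩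

theorem NSP.exists_tp {δ I : ℕ} (hL : Lam P δ) (h : NSP P.σ (cyclotomic r F) I)
    {S : Subgroup (V ≃ₗ[F] V)} (hS : IsPGroup r S) (hSI : S ≤ P.Iso) {W : Submodule F V}
    (hW : Nd P W) (he : Even (finrank F W)) (hi : ∀ s ∈ S, Inv s W) :
    ∃ U U', TP P U U' W ∧ ∀ s ∈ S, Inv s U ∧ Inv s U' := by
  have := finite_equiv (F := F) (V := V)
  induction hd : finrank F W using Nat.strong_induction_on generalizing W with
  | h d ih =>
    let K : Subgroup S :=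
      { carrier := {s | ∀ v ∈ W, (s : V ≃ₗ[F] V) v = v}
        mul_mem' := fun {a b} ha hb v hv => by
          rw [Subgroup.coe_mul, LinearEquiv.mul_apply, hb v hv, ha v hv]
        one_mem' := fun v _ => rfl
        inv_mem' := fun {a} ha v hv => by
          conv_lhs => rw [← ha v hv]
          exact inv_apply_apply _ _ }
    have : K.Normal := ⟨fun a ha g v hv => by
      simp only [Subgroup.coe_mul, LinearEquiv.mul_apply]
      rw [ha _ (hi _ (g⁻¹).2 v hv)]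
      exact apply_inv_apply _ _⟩
    by_cases hK : K = ⊤
    · obtain ⟨U, U', h1⟩ := (hL.hy hW he).exists_tp
      refine ⟨U, U', h1, fun s hs => ?_⟩
      have : (⟨s, hs⟩ : S) ∈ K := hK ▸ Subgroup.mem_top _
      exact ⟨inv_of_le_Fix fun v hv => this v (h1.le hv),
        inv_of_le_Fix fun v hv => this v (h1.le' hv)⟩
    obtain ⟨z, hz1, hz2, hz3⟩ := exists_central_mod hS K hK
    obtain ⟨y, hy, hy'⟩ := hW.exists_res (hSI z.2) (hi _ z.2)
    have hyr : y ^ r = 1 := fixIso_pow_eq_one hW hy fun v hv => by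
      rw [pow_apply_congr (hi _ z.2) hy' r v hv]; exact hz2 v hv
    have hyi : Inv y W := fixIso_inv hy le_rfl
    have hc : ∀ s ∈ S, ∀ v ∈ W, y (s v) = s (y v) := fun s hs v hv => by
      have h7 := congrArg ((z : V ≃ₗ[F] V) * s) (hz3 ⟨s, hs⟩ v hv)
      rw [← LinearEquiv.mul_apply] at h7
      simp only [Subgroup.coe_mul, InvMemClass.coe_inv, mul_inv_cancel_left,
        LinearEquiv.mul_apply] at h7
      rw [hy' _ (hi s hs v hv), ← h7, ← hy' v hv]
    have h5 : W ⊓ Kr y (cyclotomic r F) ≠ ⊥ := by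
      intro h
      have h4 := sup_Fix_Kr hrp hyr hyi
      rw [h, bot_sup_eq, inf_eq_left] at h4
      exact hz1 fun v hv => (hy' v hv).symm.trans (h4 hv)
    obtain ⟨g, hg, hgm, hgd, u, hu, hu0, hug⟩ := ((kl_Kr _ _).mono inf_le_right).exists_irr
      (hyi.inf (inv_Kr _ _)) (cyclotomic_ne_zero r F) h5
    have : Fact (Irreducible g) := ⟨hg⟩
    obtain ⟨f, hf⟩ : g ∣ X ^ r - 1 := hgd.trans ⟨_, cyc_mul.symm⟩
    have hcop : IsCoprime g f := (squarefree_mul_iff.1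
      (hf ▸ squarefree_X_pow_sub_one hrp)).1.isCoprime
    have hk : Kl y (g * f) W := hf ▸ kl_of_pow_eq_one fun v _ => by rw [hyr]; rfl
    have h6 := hk.sup_eq hyi hcop
    have h7 : Disjoint (W ⊓ Kr y g) (W ⊓ Kr y f) := Submodule.disjoint_def.2 fun v hv hv' =>
      (kl_Kr y g).eq_zero_of_coprime hcop hv.2 hv'.2
    have h8 := finrank_sup_of_disjoint h7
    rw [h6] at h8
    have h9 := hW.finrank_inf_perp (inf_le_left (b := Kr y f))
    have h10 := hW.finrank_inf_perp (inf_le_left (b := Kr y g))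
    have h11 : Ort P (W ⊓ Kr y g) (W ⊓ Kr y g) := fun a ha b hb =>
      B_eq_zero_of_not_sd hgm hy.1 (h.nsd g hg hgm hgd) hb.2 ha.2
    have h12 : Disjoint (W ⊓ P.perp (W ⊓ Kr y g)) (W ⊓ P.perp (W ⊓ Kr y f)) :=
      Submodule.disjoint_def.2 fun v hv hv' => hW.eq_zero hv.1 fun w hw => by
        obtain ⟨a, ha, b, hb, rfl⟩ := Submodule.mem_sup.1 (h6 ▸ hw)
        rw [map_add, hv.2 a ha, hv'.2 b hb, add_zero]
    have h13 : W ⊓ P.perp (W ⊓ Kr y f) ≤ W ⊓ Kr y f := fun v hv => by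
      obtain ⟨a, ha, b, hb, rfl⟩ := (hk.mono inf_le_left).exists_add
        (hyi.inf ((hyi.inf (inv_Kr _ _)).perp hy.1)) hcop hv
      rw [Submodule.disjoint_def.1 h12 a ⟨ha.1.1, h11.le_perp ⟨ha.1.1, ha.2⟩⟩ ha.1, zero_add]
      exact ⟨hb.1.1, hb.2⟩
    have h14 := finrank_sup_of_disjoint h12
    obtain ⟨h15, -, h16⟩ := nd_sup_of_compl hW h11 inf_le_left inf_le_left h12
      (Submodule.eq_of_le_of_finrank_eq (sup_le inf_le_left inf_le_left) (by omega))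
    have h17 : W ⊓ Kr y g ⊔ W ⊓ P.perp (W ⊓ Kr y f) ≤ W := sup_le inf_le_left inf_le_left
    have h18 := hW.finrank_inf_perp h17
    have h19 : finrank F ↥(W ⊓ Kr y g) ≠ 0 := Submodule.finrank_eq_zero.not.2
      ((Submodule.ne_bot_iff _).2 ⟨u, ⟨hu.1, hug⟩, hu0⟩)
    have h20 := fun s hs f => inv_inf_Kr_of_comm (hi s hs) hyi (hc s hs) f
    have h21 := fun s hs => (hi s hs).inf ((h20 s hs f).perp (hSI hs))
    obtain ⟨U, U', h22, h23⟩ := ih _ (by omega) (hW.inf_perp h15 h17) (by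
      obtain ⟨k, hk⟩ := he
      exact ⟨k - finrank F ↥(W ⊓ Kr y g), by omega⟩)
      (fun s hs => (hi s hs).inf (((h20 s hs g).sup (h21 s hs)).perp (hSI hs))) rfl
    have := TP.add ⟨hL.ts_of_ort _ h11, hL.ts_of_ort _ ((ort_inf_perp W _).mono h13 le_rfl), rfl⟩
      h22 (ort_inf_perp _ _)
    rw [h15.sup_inf_perp h17] at this
    exact ⟨_, _, this, fun s hs => ⟨(h20 s hs g).sup (h23 s hs).1, (h21 s hs).sup (h23 s hs).2⟩⟩

theorem sp_exists_not_fp [Nontrivial V] (hr2 : r ≠ 2) (h : ∀ x c, P.Val x c) (hσ : ∀ a, P.σ a = a)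
    (Ω : Submodule F V × Submodule F V → Prop) (hΩ : ∀ D, Ω D ↔ TP P D.1 D.2 ⊤)
    (hrΩ : r ∣ Nat.card {D // Ω D} / 2) : ¬ Elu P.Iso r (FP P) := by
  have := finite_equiv (F := F) (V := V)
  have := finite_sub (F := F) (V := V)
  have hL := lam_sp h
  have he := sp_even h ⊤ nd_top
  replace hrΩ := hrΩ.trans (Nat.div_dvd_of_dvd (two_dvd_card_of_invol (Equiv.prodComm _ _)
    (by ext <;> rfl) Ω (fun D hD => (hΩ _).2 ((hΩ _).1 hD).symm)
    fun D hD h => ((hΩ _).1 hD).symm.ne (congrArg Prod.fst h)))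
  have h1 : ∀ (g : P.Iso) D, Ω D → Ω (g • D) := fun g D hD => (hΩ _).2 (((hΩ _).1 hD).map g.2)
  have h2 : ∀ D D', Ω D → Ω D' → ∃ g : P.Iso, g • D = D' := fun D D' hD hD' => by
    obtain ⟨g, hg, h3, h4⟩ := ((hΩ _).1 hD).exists_iso ((hΩ _).1 hD')
    exact ⟨⟨g, hg⟩, Prod.ext h3 h4⟩
  rw [elu_iff_of_odd hσ hr2 fun x y w h => (fp_congr h).2]
  intro H
  by_cases hi : Even (orderOf (Fintype.card F : ZMod r))
  · obtain ⟨U, U', h3⟩ := (hL.hy nd_top he).exists_tp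
    obtain ⟨x, hx, hxr, hx1⟩ := exists_order_of_dvd_card hrp Ω h1 h2 hrΩ ((hΩ (U, U')).2 h3)
    obtain ⟨y, h4, h5, h6, h7⟩ := (sdp_of_id hrp hr2 hσ hi).exists_not_fp hrp hr2
      (orderOf_card_pos hrp) hx hxr hx1
    exact h7 (H y h4 h5 h6)
  · obtain ⟨S, hS, hS'⟩ := exists_pgroup_of_dvd_card Ω h1 h2 hrΩ
    obtain ⟨U, U', h3, h4⟩ := (nsp_of_id hrp hr2 hσ hi).exists_tp hrp hL (hS.map P.Iso.subtype)
      (Subgroup.map_subtype_le _) nd_top he fun s _ => inv_top s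
    obtain ⟨s, hs, hs'⟩ := hS' (U, U') ((hΩ _).2 h3)
    exact hs' (Prod.ext (h4 _ ⟨s, hs, rfl⟩).1.map_eq (h4 _ ⟨s, hs, rfl⟩).2.map_eq)

omit hrp in
theorem exists_transvection {δ : ℕ} (hL : Lam P δ) (hn : 2 ≤ finrank F V) :
    ∃ x ∈ P.E, x ^ p = 1 ∧ x ≠ 1 ∧ ∃ e, e ≠ 0 ∧ x e = e ∧ ∀ v, x v - v ∈ F ∙ e := by
  obtain ⟨T, -, h1, h2⟩ := hL.ts ⊤ nd_top 1 (by rwa [finrank_top])
  obtain ⟨e, he, he0⟩ := T.exists_mem_ne_zero_of_ne_bot (by rintro rfl; simp at h2)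
  obtain ⟨c, hc0, hc⟩ := hL.lam
  have h3 := h1.1 e he
  have h4 : ∀ v, eichE h3 (w := 0) (by simp) hc v - v = -(P.σ c * P.B v e) • e := fun v => by
    simp [eich]
  refine ⟨eichE h3 (w := 0) (by simp) hc, eichE_mem_E _ _ _, pow_char_eq_one_iff.2 fun v =>
    nil_eq_zero_of_le hp.out.two_le ?_, fun h => ?_, e, he0, ?_, fun v => ?_⟩
  · rw [nil_succ, pow_one, nil_apply, nil_apply, h4, h4]
    simp [sing_B h3]
  · obtain ⟨f, hf⟩ := P.exists_B_ne he0
    have := h4 f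
    rw [h] at this
    simp [hc0, he0, P.B_ne_symm hf] at this
  · rw [← sub_eq_zero, h4, sing_B h3]; simp
  · rw [h4]
    exact Submodule.smul_mem _ _ (Submodule.mem_span_singleton_self e)

namespace Uni

variable {q : ℕ} (hU : Uni P q)
include hU

omit hrp in
theorem exists_det [Nontrivial V] {U U' : Submodule F V} (h : TP P U U' ⊤) {μ : F}
    (hμ : μ * P.σ μ = 1) :
    ∃ t ∈ P.Iso, Inv t U ∧ Inv t U' ∧ LinearMap.det (t : V →ₗ[F] V) = μ := by
  obtain ⟨b, hb, hb'⟩ := exists_div_conj P.σ P.σσ hU.ne hμ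
  obtain ⟨u, hu', hu0⟩ := U.exists_mem_ne_zero_of_ne_bot (by
    rintro rfl
    have := h.two_mul nd_top
    rw [finrank_top, finrank_bot] at this
    exact Module.finrank_pos.ne this)
  obtain ⟨f, hf', huf⟩ : ∃ f ∈ U', P.B u f = 1 := by
    obtain ⟨f, hf, hf'⟩ : ∃ f ∈ U', P.B u f ≠ 0 := by
      by_contra! hh
      exact hu0 (h.eq_zero nd_top hu' hh)
    exact ⟨P.σ (P.B u f)⁻¹ • f, U'.smul_mem _ hf, by simp [hf']⟩
  have hu := h.left.1 u hu'
  have hf := h.right.1 f hf'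
  have hfu : P.B f u = 1 := by rw [P.herm, hU.ε, huf, map_one, one_mul]
  have hb0 : P.σ b ≠ 0 := by simpa using hb
  let φ := LinearMap.transvection (P.B.flip f) ((b - 1) • u) ∘ₗ
    LinearMap.transvection (P.B.flip u) (((P.σ b)⁻¹ - 1) • f)
  have h1 : ∀ x, φ x = x + (((P.σ b)⁻¹ - 1) * P.B x u) • f + ((b - 1) * P.B x f) • u :=
    fun x => by
      simp only [φ, LinearMap.comp_apply, LinearMap.transvection.apply, LinearMap.flip_apply,
        map_add, map_smul, sing_B hf, smul_eq_mul]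
      module
  have hB : ∀ x y, P.B (φ x) (φ y) = P.B x y := fun x y => by
    simp only [h1, map_add, map_smul, LinearMap.add_apply, LinearMap.smul_apply, B_smul_right,
      huf, hfu, sing_B hu, sing_B hf, smul_eq_mul, map_mul, map_sub, map_one, map_inv₀, σσ,
      P.herm y u, P.herm y f, hU.ε]
    field_simp
    ring
  obtain ⟨t, ht, ht'⟩ := witt (P := P) φ ⊤
    (fun u _ h0 => P.nondeg' fun w => by rw [← hB, h0]; simp) (fun u _ u' _ => hB u u')
    (fun x _ => by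
      obtain ⟨c, hc⟩ := P.val_ex x
      exact ⟨c, hc, by rwa [val_iff_of_unitary hU.ne hU.ε, hB, ← val_iff_of_unitary hU.ne hU.ε]⟩)
  refine ⟨t, ht, fun v hv => ?_, fun v hv => ?_, ?_⟩
  · rw [ht' v trivial, h1, h.left.2 v hv u hu', mul_zero, zero_smul, add_zero]
    exact U.add_mem hv (U.smul_mem _ hu')
  · rw [ht' v trivial, h1, h.right.2 v hv f hf', mul_zero, zero_smul, add_zero]
    exact U'.add_mem hv (U'.smul_mem _ hf')
  · rw [show (t : V →ₗ[F] V) = φ from LinearMap.ext fun v => ht' v trivial, LinearMap.det_comp,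
      LinearMap.transvection.det, LinearMap.transvection.det]
    simp only [map_smul, LinearMap.flip_apply, huf, hfu, smul_eq_mul]
    field_simp
    linear_combination hb'

omit hrp in
theorem exists_su [Nontrivial V] {U U' T T' : Submodule F V} (h : TP P U U' ⊤) (h' : TP P T T' ⊤) :
    ∃ g ∈ P.Iso ⊓ SLV F V, U.map (g : V →ₗ[F] V) = T ∧ U'.map (g : V →ₗ[F] V) = T' := by
  obtain ⟨g, hg, h1, h2⟩ := h.exists_iso h'
  obtain ⟨t, ht, h3, h4, h5⟩ := hU.exists_det h (det_norm (P.Iso.inv_mem hg))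
  refine ⟨g * t, ⟨P.Iso.mul_mem hg ht, mem_SLV.2 ?_⟩, (mul_smul g t U).trans ?_,
    (mul_smul g t U').trans ?_⟩
  · rw [det_mul', h5, ← det_mul', mul_inv_cancel]; simp
  · rw [show t • U = U from h3.map_eq]; exact h1
  · rw [show t • U' = U' from h4.map_eq]; exact h2

omit hrp in
theorem fp_iff (p : ℕ) [hp : Fact p.Prime] [CharP F p] (hn : 4 ≤ finrank F V) (he : Even (finrank F V))
    (hΩ : ∃ S : Subgroup (V ≃ₗ[F] V), IsPGroup r S ∧ S ≤ P.Iso ∧
      ∀ U U', TP P U U' ⊤ → ∃ s ∈ S, ¬ (Inv s U ∧ Inv s U')) :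
    Elu (P.Iso ⊓ SLV F V) r (FP P) ↔
      (r = 2 ∧ Odd q ∧ padicValNat 2 (q + 1) ≤ padicValNat 2 (finrank F V)) := by
  have : Nontrivial V := Module.finrank_pos_iff (R := F).mp (by omega)
  have hL := hU.lam
  obtain ⟨S, hS, hSI, hS'⟩ := hΩ
  by_cases hrp : r = p
  · subst hrp
    refine iff_of_false (fun H => ?_) ?_
    · obtain ⟨x, h1, h2, h3, e, h4, h5, h6⟩ := exists_transvection hL (by omega)
      refine not_fp_of_rank (by omega) (E_le_Iso h1) h3 (finrank_span_singleton h4).le h6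
        (H x ⟨E_le_Iso h1, E_le_SLV h1⟩ ⟨1, fun v => by rw [h2, one_smul]; rfl⟩
          (not_scalar_of_fix (w := 1) (fun v => (one_smul F _).symm) one_ne_zero h3
            ((Submodule.ne_bot_iff _).2 ⟨e, h5, h4⟩)))
    · rintro ⟨rfl, h1, -⟩
      exact hU.not_char_dvd 2 h1.add_one.two_dvd
  by_cases hr2 : r = 2
  · subst hr2
    have hp2 : p ≠ 2 := Ne.symm hrp
    simp only [true_and, hU.odd hp2]
    constructor
    · intro H
      by_contra! h1
      obtain ⟨x, h2, y, h3, h4, h5, w, h6, h7⟩ := hU.exists_refl hp2 (by omega) h1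
      have h8 : y ≠ 1 := by
        rintro rfl
        have := finrank_Fix_add_two hrp h4
        rw [show Fix (1 : V ≃ₗ[F] V) = ⊤ from eq_top_iff.2 fun _ _ => rfl, finrank_top] at this
        omega
      refine not_fp_of_rank (by omega) h3 h8 h5.le (fun v => mem_Kr_two.2 ?_) ((fp_congr h7).1
        (H x h2 ⟨w ^ 2, fun v => by rw [pow_apply_of_smul h7, h4]; rfl⟩
          (not_scalar_of_fix h7 h6 h8 ?_)))
      · rw [map_sub, ← sq_apply, h4, neg_sub]; rfl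
      · have := finrank_Fix_add_two hrp h4
        intro h
        rw [h, finrank_bot] at this
        omega
    · rintro h x hx ⟨z, hz⟩ -
      rcases hU.cases_two hp2 hx hz with ⟨y, h1, h2, ⟨w, h3⟩, h4⟩ | ⟨l, h1, rfl, -⟩
      · have h5 : Even (finrank F (Kr y (cyclotomic 2 F))) :=
          Nat.not_odd_iff_even.1 fun h' => by have := h4 h'; omega
        have h6 := finrank_Fix_add_two hrp h2
        exact (fp_congr h3).2 (fp_of_invol hp2 h1 h2 (hL.hy (nd_Fix hrp h1 h2)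
          ((Nat.even_add.1 (h6 ▸ he)).1 h5)) (hL.hy (nd_Kr hrp h1 h2) h5))
      · exact hL.fp_of_norm_neg hp2 hx.1 h1 hz
  refine iff_of_false (fun H => ?_) fun h => hr2 h.1
  by_cases h1 : r ∣ q + 1
  · obtain ⟨D, y, h2, h3, h4, h5, h6⟩ := hU.exists_aniso h1 (k := 1) (by
      have := hr.out.two_le; omega) (by omega)
    refine not_fp_of_aniso hrp hr2 h2 (by omega) h4 h5 (H y ⟨h4.iso, h6⟩
      ⟨1, fun v => by rw [h4.pow, one_smul]; rfl⟩ (not_scalar_of_fix (w := 1)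
        (fun v => (one_smul F _).symm) one_ne_zero (h4.ne_one (by rintro rfl; simp at h3)) ?_))
    rw [h4.Fix_eq h2]
    intro h
    have := P.finrank_perp D
    rw [h, finrank_bot] at this
    omega
  rw [hU.elu_iff h1 fun x y w h => (fp_congr h).2] at H
  by_cases h2 : orderOf (q : ZMod r) % 4 = 2
  · obtain ⟨x, hx, hxr, hx'⟩ := exists_fix_eq hrp hS hSI nd_top fun s _ => inv_top s
    obtain ⟨y, h4, h5, h6, h7⟩ := (hU.sdp hrp hr2 h2).exists_not_fp hrp hr2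
      (orderOf_card_pos hrp) hx.1 hxr (by
        rintro rfl
        obtain ⟨U, U', h3⟩ := (hL.hy nd_top (by rwa [finrank_top])).exists_tp
        obtain ⟨s, hs, hs'⟩ := hS' U U' h3
        exact hs' ⟨inv_of_le_Fix fun v _ => (hx' v trivial).1 rfl s hs,
          inv_of_le_Fix fun v _ => (hx' v trivial).1 rfl s hs⟩)
    exact h7 (H y h4 h5 h6)
  · obtain ⟨U, U', h3, h4⟩ := (hU.nsp hrp hr2 h2).exists_tp hrp hL hS hSI nd_top
      (by rwa [finrank_top]) fun s _ => inv_top s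
    obtain ⟨s, hs, hs'⟩ := hS' U U' h3
    exact hs' (h4 s hs)

end Uni

end finite

/-- An `r`-group none of whose conjugates lies in `H`. -/
theorem exists_pgroup_of_dvd_relIndex {ι : Type} [Fintype ι] [DecidableEq ι] [Finite F] {r : ℕ}
    [Fact r.Prime] {H G : Subgroup (GL ι F)} (h : r ∣ H.relIndex G) :
    ∃ S : Subgroup ((ι → F) ≃ₗ[F] (ι → F)), IsPGroup r S ∧ (∀ s ∈ S, ∃ x ∈ G, toLE x = s) ∧
      ∀ g ∈ G, ∃ x ∈ G, toLE x ∈ S ∧ g⁻¹ * x * g ∉ H := by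
  obtain ⟨S, hS, hS'⟩ := exists_pgroup_of_dvd_index (G := G) h
  refine ⟨S.map (toLE.toMonoidHom.comp G.subtype), hS.map _, ?_, fun g hg => ?_⟩
  · rintro _ ⟨x, -, rfl⟩
    exact ⟨x, x.2, rfl⟩
  · obtain ⟨s, hs, hs'⟩ := hS' ⟨g, hg⟩
    exact ⟨s, s.2, ⟨s, hs, rfl⟩, hs'⟩

end Cfsg.Agent.H4.El
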