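import Cfsg.Agent.H4.ElO7
import Cfsg.Agent.H4.ElPair

/-! Quadratic forms polarising to a symplectic form in characteristic two. -/

set_option autoImplicit false
set_option linter.unusedSectionVars false

namespace Cfsg.Agent.H4.El

open Module Polynomial H7 H7.Polar H8 QuadraticMap

variable {F : Type*} [Field F] {V : Type*} [AddCommGroup V] [Module F V] {Q : QuadraticForm F V}

variable (Q) in
/-- The form `Q + f(·, a)²`. -/
def Qa (a : V) : QuadraticForm F V := Q + linMulLin (Q.polarBilin.flip a) (Q.polarBilin.flip a)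

theorem polar_comp' (Q : QuadraticForm F V) (g : V →ₗ[F] V) (u v : V) :
    polar (Q.comp g) u v = polar Q (g u) (g v) := by
  simp [polar]

theorem qa_apply (a v : V) : Qa Q a v = Q v + polar Q v a * polar Q v a := rfl

variable [CharP F 2]

theorem polar_qa (a u v : V) : polar (Qa Q a) u v = polar Q u v := by
  have h2 : (2 : F) = 0 := CharTwo.two_eq_zero
  rw [polar, polar]
  simp only [qa_apply, polar_add_left]
  linear_combination (polar Q u a * polar Q v a) * h2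

theorem nd_qa (hQ : ND Q) (a : V) : ND (Qa Q a) := fun y h =>
  hQ y fun x => (polar_qa a x y).symm.trans (h x)

theorem qa_add (a b v : V) : Qa Q (a + b) v = Qa Q a v + polar Q v b * polar Q v b := by
  have h2 : (2 : F) = 0 := CharTwo.two_eq_zero
  simp only [qa_apply, polar_add_right]
  linear_combination (polar Q v a * polar Q v b) * h2

variable [Fintype F] [FiniteDimensional F V] (hQ : ND Q)
include hQ

theorem exists_qa {Q' : QuadraticForm F V} (h : ∀ u v, polar Q' u v = polar Q u v) :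
    ∃ a, ∀ v, Q' v = Qa Q a v := by
  have : Fact (Nat.Prime 2) := ⟨Nat.prime_two⟩
  have h2 : (2 : F) = 0 := CharTwo.two_eq_zero
  let φ := frobeniusEquiv F 2
  let l : Dual F V :=
    { toFun := fun v => φ.symm (Q' v - Q v)
      map_add' := fun u v => by
        rw [← map_add, Q_add, Q_add, h]
        congr 1; ring
      map_smul' := fun c v => φ.injective (by
        simp only [RingEquiv.apply_symm_apply, Q_smul, RingHom.id_apply, smul_eq_mul, map_mul]
        rw [show φ c = c ^ 2 from rfl]; ring) }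
  obtain ⟨a, ha⟩ := (qP hQ).exists_B_eq l
  refine ⟨a, fun v => ?_⟩
  have h1 : φ (l v) = Q' v - Q v := φ.apply_symm_apply _
  rw [qa_apply, show polar Q v a = l v from ha v, ← pow_two, show l v ^ 2 = φ (l v) from rfl, h1]
  ring

variable {P : Polar F V} (h : ∀ x c, P.Val x c) (hB : ∀ u v, P.B u v = polar Q u v)
include h hB

variable (P Q) in
omit hQ h hB in
/-- some conjugate of `x` preserves `Q` -/
def CQ (x : V ≃ₗ[F] V) : Prop := ∃ g ∈ P.Iso, ∀ v, Q ((g⁻¹ * x * g) v) = Q v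

omit hQ in
theorem polar_iso {g : V ≃ₗ[F] V} (hg : g ∈ P.Iso) (u v : V) :
    polar Q (g u) (g v) = polar Q u v := by rw [← hB, Iso.B hg, hB]

omit hQ in
theorem mem_Iso_of_qa {a : V} {g : V ≃ₗ[F] V} (hg : ∀ v, Qa Q a (g v) = Qa Q a v) : g ∈ P.Iso :=
  ⟨fun u v => by rw [hB, hB, ← polar_qa a u, ← polar_qa (Q := Q) a (g u), polar, polar, ← map_add, hg, hg, hg],
    fun _ _ _ => h _ _⟩

theorem exists_qa_iso {g : V ≃ₗ[F] V} (hg : g ∈ P.Iso) (b : V) :
    ∃ a, ∀ v, Qa Q b (g v) = Qa Q a v :=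
  exists_qa hQ (Q' := (Qa Q b).comp (g : V →ₗ[F] V)) fun u v => by
    rw [polar_comp', polar_qa]; exact polar_iso h hB hg u v

omit hQ in
theorem exists_iso_of_wp (hσ : ∀ a, P.σ a = a) {a : V} {s : F} (hs : Q a = s * s + s) :
    ∃ T ∈ P.Iso, ∀ v, Q (T v) = Qa Q a v := by
  have h2 : (2 : F) = 0 := CharTwo.two_eq_zero
  wlog h0 : s ≠ 0 generalizing s
  · exact this (s := 1) (by rw [hs, not_not.1 h0]; linear_combination -h2) one_ne_zero
  refine ⟨eichE (h a 0) (w := 0) (by simp) (h 0 s⁻¹), eichE_mem_Iso _ _ _, fun v => ?_⟩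
  simp only [eichE_apply, eich, smul_zero, add_zero, polar_zero_right, mul_zero, zero_add, hσ, hB, Q_sub,
    Q_smul, polar_smul_right, qa_apply, hs, smul_eq_mul]
  field_simp
  ring

omit hQ in
theorem exists_cq_of_val (hσ : ∀ a, P.σ a = a) {a b : V} (hb : Qa Q a b = Q a) :
    ∃ g ∈ P.Iso, ∀ x : V ≃ₗ[F] V, x ∈ P.Iso → (∀ v, Qa Q a (x v) = Qa Q a v) → x b = b →
      ∀ v, Q ((g⁻¹ * x * g) v) = Q v := by
  have h2 : (2 : F) = 0 := CharTwo.two_eq_zero
  obtain ⟨T, hT, hT'⟩ := exists_iso_of_wp h hB hσ (a := a + b) (s := polar Q a b) (by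
    rw [Q_add, qa_apply, polar_comm Q b a] at *
    linear_combination hb + (Q a - polar Q a b * polar Q a b) * h2)
  refine ⟨T⁻¹, P.Iso.inv_mem hT, fun x hx h1 h3 v => ?_⟩
  have h4 := polar_iso h hB hx (T⁻¹ v) b
  rw [h3] at h4
  rw [inv_inv, LinearEquiv.mul_apply, LinearEquiv.mul_apply, hT', qa_add, h1, h4, ← qa_add, ← hT',
    apply_inv_apply]

omit hQ h hB in
theorem exists_val_of_ne {Q : QuadraticForm F V} {b : V} (hb : Q b ≠ 0) (c : F) :
    ∃ t : F, Q (t • b) = c := by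
  have : Fact (Nat.Prime 2) := ⟨Nat.prime_two⟩
  obtain ⟨t, ht⟩ := (frobeniusEquiv F 2).surjective (c / Q b)
  refine ⟨t, ?_⟩
  rw [Q_smul, ← pow_two, show t ^ 2 = _ from ht]
  field_simp

theorem eq_of_fix_qa {a b : V} {x : V ≃ₗ[F] V} (hx : x ∈ P.Iso)
    (h1 : ∀ v, Qa Q a (x v) = Qa Q a v) (h2 : ∀ v, Qa Q b (x v) = Qa Q b v) :
    x (b - a) = b - a := by
  have h0 : (2 : F) = 0 := CharTwo.two_eq_zero
  rw [← sub_eq_zero]
  refine hQ _ fun w => ?_
  obtain ⟨v, rfl⟩ := x.surjective w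
  have h3 := h2 v
  rw [← add_sub_cancel a b, qa_add, qa_add, h1, add_right_inj] at h3
  rw [polar_sub_right, polar_iso h hB hx]
  refine pow_eq_zero_iff two_ne_zero |>.1 ?_
  linear_combination -h3 + (polar Q (x v) (b - a) ^ 2 - polar Q v (b - a) * polar Q (x v) (b - a)) * h0

theorem exists_fix_qa {x : V ≃ₗ[F] V} (hx : x ∈ P.Iso) (hx2 : x ^ 2 = 1) :
    ∃ a, ∀ v, Qa Q a (x v) = Qa Q a v := by
  have h0 : (2 : F) = 0 := CharTwo.two_eq_zero
  have hxx : ∀ w, x (x w) = w := fun w => by rw [← sq_apply, hx2]; rfl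
  obtain ⟨c, hc⟩ := exists_qa hQ (Q' := Q.comp (x : V →ₗ[F] V)) fun u v => by
    rw [polar_comp']; exact polar_iso h hB hx u v
  have h1 : c ∈ P.perp (P.perp (LinearMap.range (nil x))) := fun v hv => by
    have h2 : x v = v := by
      rw [← sub_eq_zero]
      refine P.nondeg' fun w => ?_
      have := hv _ ⟨x w, rfl⟩
      rw [nil_apply, hxx, map_sub, ← Iso.B hx v, ← Iso.B hx v, hxx] at this
      rw [map_sub, LinearMap.sub_apply, ← Iso.B hx v]
      linear_combination -this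
    have h3 := hc v
    rw [comp_apply, LinearEquiv.coe_coe, h2, qa_apply, left_eq_add, mul_self_eq_zero] at h3
    rw [hB, polar_comm, h3]
  rw [perp_perp] at h1
  obtain ⟨a, rfl⟩ := h1
  refine ⟨a, fun v => ?_⟩
  have h3 := hc v
  have h4 := polar_iso h hB hx v (x a)
  rw [comp_apply, LinearEquiv.coe_coe, qa_apply, nil_apply, polar_sub_right] at h3
  rw [hxx] at h4
  rw [qa_apply, qa_apply, h3, h4]
  linear_combination (polar Q v (x a) ^ 2 - polar Q v (x a) * polar Q v a) * h0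

theorem cq_two (hσ : ∀ a, P.σ a = a) (ht : Plus Q ⊤ ∨ finrank F V % 4 ≠ 0) {x : V ≃ₗ[F] V}
    (hx : x ∈ P.Iso) (hx2 : x ^ 2 = 1) : CQ Q P x := by
  have : Fact (Nat.Prime 2) := ⟨Nat.prime_two⟩
  have h0 : (2 : F) = 0 := CharTwo.two_eq_zero
  obtain ⟨a, ha⟩ := exists_fix_qa hQ h hB hx hx2
  by_cases h1 : ∃ b, x b = b ∧ Qa Q a b ≠ 0
  · obtain ⟨b, h1, h2⟩ := h1
    obtain ⟨t, ht⟩ := exists_val_of_ne h2 (Q a)
    obtain ⟨g, hg, hg'⟩ := exists_cq_of_val h hB hσ ht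
    exact ⟨g, hg, hg' x hx ha (by rw [map_smul, h1])⟩
  have hx' : x ∈ (qP (nd_qa hQ a)).Iso := (mem_qP_Iso _).2 ha
  have hK := pow_char_eq_one_iff.1 hx2
  rcases ht with ⟨U, -, hU, hU'⟩ | ht
  · push Not at h1
    have h2 : Ort P (Fix x) (Fix x) := fun u hu v hv => by
      rw [hB, ← polar_qa a, polar, h1 u hu, h1 v hv, h1 _ ((Fix x).add_mem hu hv)]; ring
    have h3 : Ort P U U := fun u hu v hv => by
      rw [hB, polar, hU u hu, hU v hv, hU _ (U.add_mem hu hv)]; ring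
    have h4 := LinearMap.finrank_range_add_finrank_ker (nil x)
    have h5 : LinearMap.range (nil x) ≤ Fix x := by
      rintro _ ⟨v, rfl⟩
      exact nil_eq_zero_iff.1 (by simpa [pow_succ] using hK v)
    have h6 := Submodule.finrank_mono h5
    rw [show LinearMap.ker (nil x) = Fix x from ker_sub_one x] at h4
    rw [finrank_top] at hU'
    have h7 : P.perp U = U := (Submodule.eq_of_le_of_finrank_le h3.le_perp (by
      have := P.finrank_perp U; omega)).symm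
    have h8 : P.perp (Fix x) = Fix x := (Submodule.eq_of_le_of_finrank_le h2.le_perp (by
      have := P.finrank_perp (Fix x); omega)).symm
    have h9 : a ∈ P.perp (P.perp (U ⊔ Fix x)) := fun w hw => by
      have h10 := h1 w (h8.le (perp_anti le_sup_right hw))
      rw [qa_apply, hU w (h7.le (perp_anti le_sup_left hw)), zero_add, mul_self_eq_zero] at h10
      rw [hB, polar_comm, h10]
    rw [perp_perp] at h9
    obtain ⟨u, hu, w, hw, rfl⟩ := Submodule.mem_sup.1 h9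
    have h10 := h1 w hw
    rw [qa_apply, polar_add_right, polar_self', h0, zero_mul, add_zero, polar_comm Q w] at h10
    obtain ⟨T, hT, hT'⟩ := exists_iso_of_wp h hB hσ (a := u + w) (s := polar Q u w) (by
      rw [Q_add, hU u hu]
      linear_combination h10 - polar Q u w * polar Q u w * h0)
    refine ⟨T⁻¹, P.Iso.inv_mem hT, fun v => ?_⟩
    rw [inv_inv, LinearEquiv.mul_apply, LinearEquiv.mul_apply, hT', ha, ← hT', apply_inv_apply]
  · obtain ⟨e, j, h2⟩ := exists_i2 hx' (even_of_two h0) nd_top (inv_top x) fun v _ => hK v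
    have h3 := (h2.i2 hx').2.2
    rw [finrank_top] at h3
    obtain ⟨U, -, h4, h5, h6⟩ := h2.i2_sub hx' (e' := 1) (j' := 0) (by omega) (Nat.zero_le _)
    exact absurd (exists_fix_of_plane hx' hx2 h4 h5 h6) h1

theorem not_cq_two (hσ : ∀ a, P.σ a = a) (ht : ¬ Plus Q ⊤) {j : ℕ} (hj : finrank F V = 4 * j)
    (h0 : 0 < j) : ∃ x ∈ P.Iso, x ^ 2 = 1 ∧ x ≠ 1 ∧ ¬ CQ Q P x := by
  have : Fact (Nat.Prime 2) := ⟨Nat.prime_two⟩
  obtain ⟨y, hy, -, h1, h2⟩ := exists_at hσ (Or.inr CharTwo.two_eq_zero) j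
    ((lam_sp h).hy nd_top (sp_even h _ nd_top)) (by rwa [finrank_top])
  refine ⟨y, hy.1, h1.pow_char fun a ha => (Multiset.eq_of_mem_replicate ha).le,
    h1.ne_one (a := 2) (Multiset.mem_replicate.2 ⟨by omega, rfl⟩) one_lt_two, ?_⟩
  rintro ⟨g, hg, hg'⟩
  refine ht ⟨((⊤ : Submodule F V).map (nil y ^ 1)).map ((g⁻¹ : V ≃ₗ[F] V) : V →ₗ[F] V), le_top, ?_, ?_⟩
  · rintro _ ⟨_, ⟨v, -, rfl⟩, rfl⟩
    obtain ⟨v, rfl⟩ := g.surjective v
    have h3 := h2 (g v) trivial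
    have h4 := hg' v
    rw [nil_apply, map_sub, LinearMap.sub_apply, sing_B (h _ 0), sub_zero, iso_B_right hg, hB] at h3
    rw [pow_one, nil_apply, LinearEquiv.coe_coe, map_sub, inv_apply_apply, Q_sub, h3]
    rw [LinearEquiv.mul_apply, LinearEquiv.mul_apply] at h4
    rw [h4, sub_zero, CharTwo.add_self_eq_zero]
  · rw [LinearEquiv.finrank_map_eq, h1.jt.rank, finrank_top, hj]
    simp; ring

theorem not_cq_odd [Nontrivial V] (hσ : ∀ a, P.σ a = a) {r : ℕ} [hr : Fact r.Prime] (hr2 : r ≠ 2)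
    {S : Subgroup (V ≃ₗ[F] V)} (hS : IsPGroup r S) (hSI : S ≤ P.Iso)
    (hS' : ∀ g ∈ P.Iso, ∃ s ∈ S, ¬ ∀ v, Q ((g⁻¹ * s * g) v) = Q v) :
    ∃ x ∈ P.Iso, x ^ r = 1 ∧ x ≠ 1 ∧ ¬ CQ Q P x := by
  have : Fact (Nat.Prime 2) := ⟨Nat.prime_two⟩
  have := finite_V (F := F) (V := V)
  obtain ⟨a, ha⟩ : ∃ a, ∀ s ∈ S, ∀ v, Qa Q a (s v) = Qa Q a v := by
    let act : MulAction S (V → F) := arrowAction
    obtain ⟨_, ⟨a, rfl⟩, h1⟩ := exists_fixed_of_not_dvd hS
      (fun φ : V → F => φ ∈ Set.range fun a v => Qa Q a v) (by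
        rintro s _ ⟨b, rfl⟩
        obtain ⟨a, ha⟩ := exists_qa_iso hQ h hB (hSI s⁻¹.2) b
        exact ⟨a, funext fun v => (ha v).symm⟩) (by
        rw [Nat.card_range_of_injective fun a b hab => ?_, Module.natCard_eq_pow_finrank (K := F),
          Nat.card_eq_fintype_card]
        · exact fun h => hr2 (eq_char_of_dvd_card hr.out h)
        · rw [← sub_eq_zero]
          refine hQ _ fun w => ?_
          have : Qa Q a w = Qa Q b w := congrFun hab w
          rw [← add_sub_cancel b a, qa_add, add_eq_left, mul_self_eq_zero] at this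
          exact this)
    exact ⟨a, fun s hs v => congrFun (h1 ⟨s, hs⟩⁻¹) v⟩
  obtain ⟨x, hx, hxr, hx'⟩ := exists_fix_eq (P := qP (nd_qa hQ a)) hr2 hS
    (fun s hs => (mem_qP_Iso _).2 (ha s hs)) nd_top fun s _ => inv_top s
  have h1 : Fix x = ⊥ := by
    by_contra h1
    obtain ⟨b, h2, h3⟩ := (nd_Fix hr2 hx.1 hxr).exists_Q_ne h1
    obtain ⟨t, ht⟩ := exists_val_of_ne h3 (Q a)
    obtain ⟨g, hg, hg'⟩ := exists_cq_of_val h hB hσ ht
    obtain ⟨s, hs, hs'⟩ := hS' g hg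
    exact hs' (hg' s (hSI hs) (ha s hs) (by rw [map_smul, (hx' b trivial).1 h2 s hs]))
  have h2 := iso_Q hx.1
  have h3 := mem_Iso_of_qa h hB h2
  refine ⟨x, h3, hxr, ?_, ?_⟩
  · rintro rfl
    exact top_ne_bot ((eq_top_iff.2 fun _ _ => rfl : Fix (1 : V ≃ₗ[F] V) = ⊤) ▸ h1)
  rintro ⟨g, hg, hg'⟩
  obtain ⟨b, hb⟩ := exists_qa hQ (Q' := Q.comp ((g⁻¹ : V ≃ₗ[F] V) : V →ₗ[F] V)) fun u v => by
    rw [polar_comp']; exact polar_iso h hB (P.Iso.inv_mem hg) u v
  simp only [comp_apply, LinearEquiv.coe_coe] at hb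
  have h4 : b - a ∈ Fix x := eq_of_fix_qa hQ h hB h3 h2 fun v => by
    have := hg' (g⁻¹ v)
    rwa [LinearEquiv.mul_apply, LinearEquiv.mul_apply, apply_inv_apply, hb, hb] at this
  rw [h1, Submodule.mem_bot, sub_eq_zero] at h4
  obtain ⟨s, hs, hs'⟩ := hS' g hg
  refine hs' fun v => ?_
  rw [LinearEquiv.mul_apply, LinearEquiv.mul_apply, hb, h4, ha s hs, ← h4, ← hb, inv_apply_apply]

theorem cq_iff [Nontrivial V] (hσ : ∀ a, P.σ a = a) {r : ℕ} [hr : Fact r.Prime]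
    (hΩ : ∃ S : Subgroup (V ≃ₗ[F] V), IsPGroup r S ∧ S ≤ P.Iso ∧
      ∀ g ∈ P.Iso, ∃ s ∈ S, ¬ ∀ v, Q ((g⁻¹ * s * g) v) = Q v) :
    Elu P.Iso r (CQ Q P) ↔ (r = 2 ∧ (Plus Q ⊤ ∨ finrank F V % 4 ≠ 0)) := by
  have h1 : ∀ {x : V ≃ₗ[F] V} {z : F}, x ∈ P.Iso → (∀ v, x v = z • v) → x = 1 := by
    intro x z hx hz
    have := eq_or_eq_neg_of_id hσ (norm_eq_one_of_smul hx hz)
    rw [CharTwo.neg_eq, or_self] at this
    ext v
    rw [hz, this, one_smul]; rfl
  have h2 : Elu P.Iso r (CQ Q P) ↔ ∀ x ∈ P.Iso, x ^ r = 1 → x ≠ 1 → CQ Q P x :=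
    ⟨fun H x hx hxr hx1 => H x hx ⟨1, fun v => by rw [hxr, one_smul]; rfl⟩
      fun z hz => hx1 (h1 hx hz), fun H x hx ⟨z, hz⟩ hx1 => H x hx (h1 (P.Iso.pow_mem hx r) hz)
        (by rintro rfl; exact hx1 1 fun v => (one_smul F v).symm)⟩
  rw [h2]
  constructor
  · intro H
    by_cases hr2 : r = 2
    · subst hr2
      by_contra! h3
      obtain ⟨h4, h5⟩ := h3 rfl
      have := Module.finrank_pos (R := F) (M := V)
      obtain ⟨x, h6, h7, h8, h9⟩ := not_cq_two hQ h hB hσ h4 (j := finrank F V / 4) (by omega)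
        (by omega)
      exact h9 (H x h6 h7 h8)
    · obtain ⟨S, hS, hSI, hS'⟩ := hΩ
      obtain ⟨x, h6, h7, h8, h9⟩ := not_cq_odd hQ h hB hσ hr2 hS hSI hS'
      exact absurd (H x h6 h7 h8) h9
  · rintro ⟨rfl, ht⟩ x hx hx2 -
    exact cq_two hQ h hB hσ ht hx hx2

end Cfsg.Agent.H4.El
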