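import Cfsg.Agent.H4.ElJ1
import Cfsg.Agent.H1.ElTensor
import Cfsg.Agent.Tens.C4Fin

/-!
Prime order elements of symplectic groups and tensor decompositions `Sp ⊗ O`.
-/

set_option autoImplicit false

namespace Cfsg.Agent.H4.El

open Module Polynomial H7 H7.Polar H8 Tens

variable {F U W V : Type*} [Field F] [AddCommGroup U] [Module F U] [AddCommGroup W] [Module F W]
  [AddCommGroup V] [Module F V] (τ : Tens.TS F U W V)

theorem aeval_K_one (d : End F W) (f : F[X]) : aeval (τ.K 1 d) f = τ.K 1 (aeval d f) := by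
  induction f using Polynomial.induction_on with
  | C a => simp [Algebra.algebraMap_eq_smul_one]
  | add f g hf hg => simp [hf, hg]
  | monomial n a h =>
    rw [pow_succ, ← mul_assoc, map_mul, map_mul (aeval d), h, aeval_X, aeval_X, τ.K_mul, mul_one]

theorem KE_pow (a : U ≃ₗ[F] U) (d : W ≃ₗ[F] W) (k : ℕ) : τ.KE a d ^ k = τ.KE (a ^ k) (d ^ k) := by
  induction k with
  | zero => simp
  | succ k ih => rw [pow_succ, ih, τ.KE_mul, pow_succ, pow_succ]

theorem KE_congr {a a' : U ≃ₗ[F] U} {d d' : W ≃ₗ[F] W} {w : F} (ha : ∀ u, a u = w • a' u)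
    (hd : ∀ x, d' x = w • d x) : τ.KE a d = τ.KE a' d' :=
  LinearEquiv.toLinearMap_injective (τ.ext fun u x => by simp [ha, hd])

theorem eq_one_of_KE [Nontrivial U] {d : W ≃ₗ[F] W} (h : τ.KE 1 d = 1) : d = 1 := by
  obtain ⟨u, hu⟩ := exists_ne (0 : U)
  refine LinearEquiv.ext fun x => τ.tp_inj hu ?_
  simpa using LinearEquiv.congr_fun h (τ.tp u x)

variable [FiniteDimensional F U] [FiniteDimensional F W]

theorem finrank_range_K (a : End F U) (d : End F W) : finrank F (LinearMap.range (τ.K a d)) =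
    finrank F (LinearMap.range a) * finrank F (LinearMap.range d) := by
  rw [← H1.El.finrank_range_tmap, show τ.K a d = (τ.e : _ →ₗ[F] V) ∘ₗ TensorProduct.map a d ∘ₗ
    (τ.e.symm : V →ₗ[F] _) from τ.ext fun u x => by rw [τ.K_tp]; simp [τ.tp_def], LinearMap.range_comp,
    LinearEquiv.finrank_map_eq, LinearEquiv.range_comp]

theorem finrank_Kr_KE (d : W ≃ₗ[F] W) (f : F[X]) :
    finrank F (Kr (τ.KE 1 d) f) = finrank F U * finrank F (Kr d f) := by
  have := τ.finiteDimensional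
  have h1 := LinearMap.finrank_range_add_finrank_ker (aeval (τ.KE 1 d : End F V) f)
  have h2 := LinearMap.finrank_range_add_finrank_ker (aeval (d : End F W) f)
  have h3 := finrank_range_K τ 1 (aeval (d : End F W) f)
  rw [← aeval_K_one, Module.End.one_eq_id, LinearMap.range_id, finrank_top] at h3
  rw [τ.finrank_eq, ← h2] at h1
  change finrank F (LinearMap.range (aeval (τ.K LinearMap.id d) f)) + _ = _ at h1
  rw [h3, mul_add] at h1
  exact Nat.add_left_cancel h1

theorem finrank_Fix_KE (d : W ≃ₗ[F] W) :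
    finrank F (Fix (τ.KE 1 d)) = finrank F U * finrank F (Fix d) := by
  rw [← Kr_X_sub_one, ← Kr_X_sub_one, finrank_Kr_KE]

theorem support_le (a : U ≃ₗ[F] U) (d : W ≃ₗ[F] W) {U₀ : Submodule F U}
    (h : ∀ T ≤ U₀, Inv a T → T = ⊥) :
    finrank F U₀ * finrank F W + finrank F (Fix (τ.KE a d)) ≤ finrank F V := by
  have := τ.finiteDimensional
  obtain ⟨C, hC⟩ := U₀.exists_isCompl
  have h1 := finrank_range_K τ (U₀.subtype ∘ₗ U₀.projectionOnto C hC) 1
  rw [show LinearMap.range (1 : End F W) = ⊤ from LinearMap.range_id, finrank_top,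
    LinearMap.range_comp, Submodule.range_projectionOnto, Submodule.map_subtype_top] at h1
  rw [← h1, ← finrank_sup_of_disjoint]
  · exact Submodule.finrank_le _
  refine Submodule.disjoint_def.2 ?_
  rintro _ ⟨v, rfl⟩ hv
  refine τ.flip.eq_zero_of_pr fun ψ => ?_
  have h2 := h (LinearMap.range ((LinearMap.applyₗ (τ.K (U₀.subtype ∘ₗ U₀.projectionOnto C hC) 1 v))
    ∘ₗ τ.flip.pr)) (by
      rintro _ ⟨ψ, rfl⟩
      simp only [LinearMap.comp_apply, LinearMap.applyₗ_apply_apply]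
      rw [← τ.flip_K, τ.flip.pr_K]
      exact Subtype.prop _) (by
      rintro _ ⟨ψ, rfl⟩
      refine ⟨ψ ∘ₗ (d.symm : End F W), ?_⟩
      simp only [LinearMap.comp_apply, LinearMap.applyₗ_apply_apply]
      conv_lhs => rw [← mem_Fix.1 hv, τ.KE_apply, ← τ.flip_K, τ.flip.pr_K]
      rw [show (ψ ∘ₗ (d.symm : End F W)) ∘ₗ (d : End F W) = ψ by ext; simp]
      rfl)
  exact (Submodule.eq_bot_iff _).1 h2 _ ⟨ψ, rfl⟩

theorem le_of_not_scal {a : U ≃ₗ[F] U} (d : W ≃ₗ[F] W) (h : ∀ c : F, ¬ ∀ u, a u = c • u) :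
    finrank F W + finrank F (Fix (τ.KE a d)) ≤ finrank F V := by
  obtain ⟨u, hu⟩ : ∃ u, a u ∉ F ∙ u := by
    by_contra! h1
    obtain ⟨c, hc⟩ := scal_of_eigen (z := (a : End F U)) h1
    exact h c hc
  have h0 : u ≠ 0 := by rintro rfl; simp at hu
  have := support_le τ a d (U₀ := F ∙ u) fun T hT hi => by
    by_contra h1
    rw [Submodule.eq_of_le_of_finrank_le hT (by
      rw [finrank_span_singleton h0]
      exact Submodule.one_le_finrank_iff.2 h1)] at hi
    exact hu (hi u (Submodule.mem_span_singleton_self u))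
  rwa [finrank_span_singleton h0, one_mul] at this

theorem NN_cases {z : V ≃ₗ[F] V} (hz : z ∈ τ.NN) [Nontrivial U] :
    finrank F W + finrank F (Fix z) ≤ finrank F V ∨ ∃ d, z = τ.KE 1 d := by
  obtain ⟨a, d, rfl⟩ := hz
  by_cases h : ∀ c : F, ¬ ∀ u, a u = c • u
  · exact Or.inl (le_of_not_scal τ d h)
  · push Not at h
    obtain ⟨c, hc⟩ := h
    obtain ⟨u, hu⟩ := exists_ne (0 : U)
    have h0 : c ≠ 0 := by rintro rfl; exact hu (by simpa using hc u)
    exact Or.inr ⟨scal W c h0 * d, KE_congr τ hc fun _ => rfl⟩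

variable [Fintype F] {r : ℕ} [hr : Fact r.Prime] {p : ℕ} [hp : Fact p.Prime] [CharP F p]

omit [FiniteDimensional F W] in
theorem exists_cyc_block (hrp : r ≠ p) {a : U ≃ₗ[F] U} (har : a ^ r = 1) (h1 : a ≠ 1) :
    finrank F (Fix a) + orderOf (Fintype.card F : ZMod r) ≤ finrank F U ∧ ∃ U₀ : Submodule F U,
      finrank F U₀ + 1 = orderOf (Fintype.card F : ZMod r) ∧ ∀ T ≤ U₀, Inv a T → T = ⊥ := by
  obtain ⟨g, hg, hm, hd, u, hu, h0, h2⟩ := (kl_Kr a _).exists_irr (inv_Kr _ _)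
    (cyclotomic_ne_zero r F) (Kr_ne_bot hrp har h1)
  have := Fact.mk hg
  have h3 := finrank_range_act hm h2 h0
  rw [natDegree_eq_orderOf hrp hg hd] at h3
  have h4 := finrank_Kr_Fix hrp har (inv_top a)
  have h5 := Submodule.finrank_mono (range_act_le hm h2 (inv_Kr a _) hu)
  rw [top_inf_eq, top_inf_eq, finrank_top] at h4
  refine ⟨by omega, ?_⟩
  have h6 := orderOf_card_pos (F := F) hrp
  obtain ⟨U₀, h7, h8⟩ := exists_le_finrank_eq (LinearMap.range (act hm a u))
    (k := orderOf (Fintype.card F : ZMod r) - 1) (by omega)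
  refine ⟨U₀, by omega, fun T hT hi => by_contra fun h9 => ?_⟩
  obtain ⟨v, hv, hv0⟩ := T.exists_mem_ne_zero_of_ne_bot h9
  have := Submodule.finrank_mono ((range_act_le_of_mem hm h2 hi hv hv0 (h7 (hT hv))).trans hT)
  omega

theorem not_mem_NN_block (hrp : r ≠ p) (ha : Even (finrank F U)) (ha2 : 2 ≤ finrank F U)
    (hb : 3 ≤ finrank F W) {z : V ≃ₗ[F] V} (hz : z ^ r = 1) {i : ℕ}
    (hi : i = orderOf (Fintype.card F : ZMod r))
    (h1 : finrank F (Fix z) + (if Even i then i else 2 * i) = finrank F V)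
    (h2 : Odd i → ∃ f, Odd (finrank F (Kr z f))) : z ∉ τ.NN := by
  have : Nontrivial U := (finrank_pos_iff (R := F)).1 (by omega)
  have : Nontrivial W := (finrank_pos_iff (R := F)).1 (by omega)
  have h0 := orderOf_card_pos (F := F) hrp
  have hn := τ.finrank_eq
  have hz1 : z ≠ 1 := by
    rintro rfl
    rw [show Fix (1 : V ≃ₗ[F] V) = ⊤ from eq_top_iff.2 fun _ _ => rfl, finrank_top] at h1
    split_ifs at h1 <;> omega
  have hL : ∀ d, z ≠ τ.KE 1 d := by
    rintro d rfl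
    rw [KE_pow, one_pow] at hz
    have h3 := (exists_cyc_block hrp (eq_one_of_KE τ hz) (by rintro rfl; simp at hz1)).1
    rw [finrank_Fix_KE] at h1
    split_ifs at h1 with h4
    · nlinarith
    · obtain ⟨f, hf⟩ := h2 (Nat.not_even_iff_odd.1 h4)
      rw [finrank_Kr_KE] at hf
      exact Nat.not_even_iff_odd.2 hf (ha.mul_right _)
  intro h
  by_cases h3 : i = 1
  · rcases NN_cases τ h with h4 | ⟨d, h4⟩
    · simp [h3] at h1; omega
    · exact hL d h4
  obtain ⟨a, d, rfl⟩ := h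
  obtain ⟨s, hs⟩ : ∃ s : F, ∀ u, (a ^ r) u = s • u := by
    by_contra! h4
    have := le_of_not_scal τ (d ^ r) fun c hc => (h4 c).elim fun u hu => hu (hc u)
    rw [← KE_pow, hz, show Fix (1 : V ≃ₗ[F] V) = ⊤ from eq_top_iff.2 fun _ _ => rfl,
      finrank_top] at this
    omega
  obtain ⟨w, rfl⟩ := exists_pow_eq_of_not_dvd (r := r)
    (mt (orderOf_eq_one_iff_dvd (r := r) Fintype.card_pos).mpr (hi ▸ h3)) s
  obtain ⟨u, hu⟩ := exists_ne (0 : U)
  have hw : w ≠ 0 := by
    rintro rfl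
    exact hu (by simpa [hr.out.ne_zero] using hs u)
  have h4 : ∀ u, a u = w • (scal U w⁻¹ (inv_ne_zero hw) * a) u := fun u => by
    rw [LinearEquiv.mul_apply, scal_apply, smul_inv_smul₀ hw]
  have h5 : (scal U w⁻¹ (inv_ne_zero hw) * a) ^ r = 1 := LinearEquiv.ext fun u =>
    smul_right_injective U (pow_ne_zero r hw) ((pow_apply_of_smul h4 r u).symm.trans (hs u))
  rw [KE_congr τ h4 (d' := scal W w hw * d) fun _ => rfl] at *
  generalize scal U w⁻¹ (inv_ne_zero hw) * a = a' at *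
  generalize scal W w hw * d = d' at *
  rw [KE_pow, h5] at hz
  obtain ⟨h6, U₀, h7, h8⟩ := exists_cyc_block hrp h5 (by rintro rfl; exact hL _ rfl)
  have h9 := support_le τ a' d' h8
  obtain ⟨h10, h11⟩ : i = 3 ∧ finrank F W = 3 := by
    have : finrank F U₀ * 3 ≤ finrank F U₀ * finrank F W := Nat.mul_le_mul_left _ hb
    split_ifs at h1 with h
    · omega
    · have : finrank F U₀ = 2 := by
        rw [Nat.even_iff] at h
        omega
      rw [this] at h7 h9
      omega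
  rw [h10, if_neg (by decide)] at h1
  by_cases h12 : d' = 1
  · subst h12
    rw [← τ.flip_KE', finrank_Fix_KE] at h1
    nlinarith
  · obtain ⟨-, W₀, h13, h14⟩ := exists_cyc_block hrp (eq_one_of_KE τ hz) h12
    have := support_le τ.flip d' a' h14
    rw [τ.flip_KE', show finrank F W₀ = 2 by omega] at this
    obtain ⟨k, hk⟩ := ha
    omega

omit τ [FiniteDimensional F U] [FiniteDimensional F W] in
theorem exists_single_block [FiniteDimensional F V] {P : Polar F V} (hσ : ∀ a, P.σ a = a)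
    (hrp : r ≠ p) (hr2 : r ≠ 2) {i : ℕ} (hi : i = orderOf (Fintype.card F : ZMod r))
    {x : V ≃ₗ[F] V} (hx : x ∈ P.Iso) (hxr : x ^ r = 1) (h1 : x ≠ 1) :
    ∃ B y, Nd P B ∧ finrank F B = (if Even i then i else 2 * i) ∧ Fpf P r y B ∧ y ≠ 1 ∧
      finrank F (Fix y) + (if Even i then i else 2 * i) = finrank F V ∧
      (Odd i → ∃ g, Irreducible g ∧ g ∣ cyclotomic r F ∧ finrank F (Kr y g) = i) := by
  subst hi
  have h0 := orderOf_card_pos (F := F) hrp
  obtain ⟨B, y, h2, h3, h4⟩ := (blk_of_id hrp hr2 hσ).exists_block hrp h0 hx hxr h1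
  have h5 : B ≠ ⊥ := by rintro rfl; rw [finrank_bot] at h3; split_ifs at h3 <;> omega
  refine ⟨B, y, h2, h3, h4, h4.ne_one h5, by rw [h4.Fix_eq h2, ← h3, P.finrank_perp], fun ho => ?_⟩
  obtain ⟨g, hg, hm, hd, u, hu, h6, h7⟩ := h4.kl.exists_irr h4.inv (cyclotomic_ne_zero r F) h5
  have := Fact.mk hg
  have h8 := finrank_range_act hm h7 h6
  rw [natDegree_eq_orderOf hrp hg hd] at h8
  have h9 := Submodule.finrank_mono (range_act_le hm h7 (inv_Kr y g) h7)
  have h10 := Ort.two_mul_le (P := P) (U := Kr y g) (fun a ha b hb => B_eq_zero_of_not_sd hm h4.iso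
    ((nsp_of_id hrp hr2 hσ (Nat.not_even_iff_odd.2 ho)).nsd g hg hm hd) hb ha) h2
    (h4.Kr_eq hrp h2 ▸ fun v hv => aeval_eq_zero_of_dvd hd hv)
  rw [h3, if_neg (Nat.not_even_iff_odd.2 ho)] at h10
  exact ⟨g, hg, hd, by omega⟩

omit τ [FiniteDimensional F U] [FiniteDimensional F W] in
theorem Nd.exists_neg [FiniteDimensional F V] {P : Polar F V} (h2 : (2 : F) ≠ 0)
    {D : Submodule F V} (hD : Nd P D) : ∃ y, Fpf P 2 y D ∧ ∀ v ∈ D, y v = -v := by
  obtain ⟨y, h1, h3, -⟩ := hD.exists_scal (a := -1) (by simp)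
  simp only [neg_smul, one_smul] at h3
  refine ⟨y, ⟨h1, fixIso_pow_eq_one hD h1 fun v hv => ?_, fun v hv h => ?_⟩, h3⟩
  · rw [sq_apply, h3 v hv, map_neg, h3 v hv, neg_neg]
  · rw [h3 v hv, neg_eq_iff_add_eq_zero, ← two_smul F v, smul_eq_zero] at h
    exact h.resolve_left h2

omit τ [FiniteDimensional F U] [FiniteDimensional F W] [Fintype F] in
theorem not_scal_of_fix [FiniteDimensional F V] {y : V ≃ₗ[F] V} (h1 : y ≠ 1)
    (h2 : 0 < finrank F (Fix y)) (z : F) : ¬ ∀ v, y v = z • v := fun h => by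
  obtain ⟨v, hv, h0⟩ := (Fix y).exists_mem_ne_zero_of_ne_bot (Submodule.one_le_finrank_iff.1 h2)
  have : z = 1 := smul_left_injective F h0 (by simp only [← h v, one_smul]; exact hv)
  exact h1 (LinearEquiv.ext fun v => by rw [h, this, one_smul]; rfl)

theorem sp_tens_iff {PU : Polar F U} {PW : Polar F W} {PV : Polar F V} (h : Compat τ PU PW PV)
    (hU : IsSp PU) (hW : H1.IsO PW) (hV : IsSp PV) (hp2 : p ≠ 2) (ha2 : 2 ≤ finrank F U)
    (hb : 3 ≤ finrank F W) (hex : ∃ x ∈ PV.Iso, x ^ r = 1 ∧ x ≠ 1) :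
    Elu PV.Iso r (fun x => ∃ g ∈ PV.Iso, g⁻¹ * x * g ∈ τ.NN) ↔ (r = 2 ∧ finrank F U = 2) := by
  have := τ.finiteDimensional
  have : Nontrivial U := (finrank_pos_iff (R := F)).1 (by omega)
  have hn := τ.finrank_eq
  have h6 : 6 ≤ finrank F V := hn ▸ Nat.mul_le_mul ha2 hb
  have : Nontrivial V := (finrank_pos_iff (R := F)).1 (by omega)
  have h2 := two_ne_zero_of_ne (F := F) hp2
  have hL := lam_sp hV.val
  have ha := hU.even
  have key : ∀ {y g : V ≃ₗ[F] V} {k : ℕ}, finrank F (Fix y) + k = finrank F V → k ≤ 2 →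
      g⁻¹ * y * g ∈ τ.NN → finrank F U ∣ k := fun {y g k} h1 h3 h4 => by
    rw [← finrank_Fix_conj y g] at h1
    rcases NN_cases τ h4 with h5 | ⟨d, h5⟩
    · omega
    · rw [h5, finrank_Fix_KE, hn] at h1
      exact (Nat.dvd_add_right (dvd_mul_right _ _)).1 (h1 ▸ dvd_mul_right _ _)
  constructor
  · intro H
    by_cases hrp : r = p
    · obtain ⟨x, hx, h1, h3, e, -, -, h4⟩ := exists_transvection (p := p) hL (by omega)
      have h5 := finrank_Fix_of_rank h3 h4
      obtain ⟨g, -, hg⟩ := H x (E_le_Iso hx) ⟨1, fun v => by rw [hrp, h1, one_smul]; rfl⟩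
        (not_scal_of_fix h3 (by omega))
      have := Nat.le_of_dvd one_pos (key h5 (by omega) hg)
      omega
    by_cases hr2 : r = 2
    · subst hr2
      obtain ⟨D, -, h1, h3⟩ := hL.sub ⊤ nd_top 2 (by rw [finrank_top]; omega) dvd_rfl
      obtain ⟨y, hy, -⟩ := h1.exists_neg h2
      have h4 := PV.finrank_perp D
      rw [← hy.Fix_eq h1, h3] at h4
      obtain ⟨g, -, hg⟩ := H y hy.iso ⟨1, fun v => by rw [hy.pow, one_smul]; rfl⟩
        (not_scal_of_fix (hy.ne_one (by rintro rfl; simp at h3)) (by omega))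
      have := Nat.le_of_dvd two_pos (key h4 le_rfl hg)
      exact ⟨rfl, by omega⟩
    obtain ⟨x, hx, hxr, h1⟩ := hex
    obtain ⟨B, y, -, -, h3, h4, h5, h7⟩ := exists_single_block hV.σ hrp hr2 rfl hx hxr h1
    obtain ⟨g, -, hg⟩ := (elu_iff_of_odd hV.σ hr2 (by
      rintro x y w h ⟨g, hg, a, d, h'⟩
      obtain ⟨v, hv⟩ := exists_ne (0 : V)
      have hw : w ≠ 0 := by rintro rfl; exact hv (by simpa using h v)
      refine ⟨g, hg, a, scal W w hw * d, LinearEquiv.ext fun v => ?_⟩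
      rw [LinearEquiv.mul_apply, LinearEquiv.mul_apply, h, map_smul, ← LinearEquiv.mul_apply,
        ← LinearEquiv.mul_apply, h']
      induction v using τ.induction with
      | h0 => simp
      | h u x => simp
      | hadd a b ha hb => simp only [map_add, smul_add, ha, hb])).1 H y h3.iso h3.pow h4
    refine absurd hg (not_mem_NN_block τ hrp ha ha2 hb ?_ rfl (by rwa [finrank_Fix_conj]) fun ho => ?_)
    · have := conj_pow (a := g⁻¹) (b := y) (i := r)
      rw [inv_inv] at this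
      rw [this, h3.pow, mul_one, inv_mul_cancel]
    · obtain ⟨f, -, -, hf⟩ := h7 ho
      exact ⟨f, by rwa [finrank_Kr_conj, hf]⟩
  · rintro ⟨rfl, hu⟩ x hx ⟨z, hz⟩ -
    obtain ⟨e, he⟩ := exists_ne (0 : U)
    suffices H : ∃ y ∈ τ.NN, ∃ g ∈ PV.Iso, ∀ v, g (y v) = x (g v) by
      obtain ⟨y, hy, g, hg, H⟩ := H
      refine ⟨g, hg, (LinearEquiv.ext fun v => ?_ : y = g⁻¹ * x * g) ▸ hy⟩
      rw [LinearEquiv.mul_apply, LinearEquiv.mul_apply, ← H, inv_apply_apply]
    rcases eq_or_eq_neg_of_id hV.σ (norm_eq_one_of_smul (PV.Iso.pow_mem hx 2) hz) with rfl | rfl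
    · have hx2 := pow_eq_one_of_smul hz
      obtain ⟨j, hj⟩ := sp_even hV.val _ (nd_Kr hp2.symm hx hx2)
      have h1 := Submodule.finrank_le (Kr x (cyclotomic 2 F))
      obtain ⟨D, -, h3, h4⟩ := exists_nd_of_aniso (P := PW) (fun A hA h0 => by
        by_contra! h3
        refine h0 (hA.eq_bot_of_ort fun u hu v hv => ?_)
        have := h3 _ (A.add_mem hu hv)
        simp only [map_add, LinearMap.add_apply, h3 u hu, h3 v hv] at this
        rw [PW.herm u v, hW.σ, hW.ε] at this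
        exact (mul_eq_zero.1 (by linear_combination this)).resolve_left h2) nd_top j
        (by rw [finrank_top]; rw [hn, hu] at h1; omega)
      obtain ⟨d, hd, -⟩ := h3.exists_neg h2
      have h5 := h.KE_mem_Iso (hU.val e 0) he PU.Iso.one_mem hd.iso.1
      have h7 : τ.KE 1 d ^ 2 = 1 := by rw [KE_pow, hd.pow]; simp
      exact ⟨_, ⟨1, d, rfl⟩, invol_conj hp2 h5 hx h7 hx2 (hL.cj _ _ (nd_Kr hp2.symm h5 h7)
        (nd_Kr hp2.symm hx hx2) (by rw [finrank_Kr_KE, hd.Kr_eq hp2.symm h3, hu]; omega))⟩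
    · obtain ⟨a, ha, h1⟩ := exists_sq_neg_one_sp hU.val hU.σ hU.ε
      have h5 := h.KE_mem_Iso (hU.val e 0) he ha (d := 1) fun _ _ => rfl
      exact ⟨_, ⟨a, 1, rfl⟩, sp_skew_conj hV.val hV.σ hV.ε h2 (neg_ne_zero.2 one_ne_zero)
        (qs_of_sq_neg h5 fun v => by
          rw [KE_pow]
          induction v using τ.induction with
          | h0 => simp
          | h u x => simp [h1]
          | hadd a b ha hb => simp only [map_add, smul_add, ha, hb]) (qs_of_sq_neg hx hz)⟩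

end Cfsg.Agent.H4.El
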