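import Cfsg.Agent.H4.NoTwo
import Cfsg.Agent.H4.Feit

/-! The two-point stabiliser of a sharply triply transitive group of even degree has a subgroup
of index two. -/

set_option autoImplicit false

namespace Cfsg.Agent.H4.Index2

open MulAction Cfsg.Agent.H4.Basic Cfsg.Agent.H4.Zass Cfsg.Agent.H4.NoTwo Cfsg.Agent.H4.Coord
open Cfsg.Agent.H4.OddStab Cfsg.Agent.H4.Sharp Cfsg.Agent.H4.CyclicP

variable {G Ω : Type*} [Group G] [MulAction G Ω] {a b : Ω} {K : Subgroup G}

theorem invol_inverts (hK : IsKer a K) (h3 : Sharp3 G Ω) (hab : a ≠ b)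
    (hc : ∀ u ∈ K, ∀ v ∈ K, u * v = v * u) {t : G} (ht : t ∈ stabilizer G a ⊓ stabilizer G b)
    (htt : t * t = 1) (ht1 : t ≠ 1) {u : G} (hu : u ∈ K) : t * u * t⁻¹ = u⁻¹ := by
  have h1 := hK.norm t ht.1 u hu
  refine eq_inv_of_mul_eq_one_left (hK.fpf h3 hab ht.1 ht.2 ht1 (K.mul_mem h1 hu) ?_)
  conv_rhs => rw [hc _ h1 _ hu]
  rw [inv_eq_of_mul_eq_one_right htt]
  calc t * (t * u * t * u) = (t * t) * u * t * u := by group
    _ = u * t * u * (t * t) := by rw [htt]; simp
    _ = _ := by group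

theorem invol_unique (hK : IsKer a K) (h3 : Sharp3 G Ω) (hab : a ≠ b) (hK1 : K ≠ ⊥)
    (hc : ∀ u ∈ K, ∀ v ∈ K, u * v = v * u) {t z : G} (ht : t ∈ stabilizer G a ⊓ stabilizer G b)
    (htt : t * t = 1) (hz : z ∈ stabilizer G a ⊓ stabilizer G b)
    (hzz : z * z = 1) (hz1 : z ≠ 1) : t = 1 ∨ t = z := by
  by_contra h
  push Not at h
  obtain ⟨u, hu⟩ := (Subgroup.ne_bot_iff_exists_ne_one).1 hK1
  have h1 := invol_inverts hK h3 hab hc ht htt h.1 u.2
  have h2 := invol_inverts hK h3 hab hc hz hzz hz1 u.2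
  have h4 := Subgroup.mul_mem _ (Subgroup.inv_mem _ ht) hz
  refine hu (Subtype.ext (hK.fpf h3 hab h4.1 h4.2 (fun e => h.2 (inv_mul_eq_one.1 e)) u.2 ?_))
  calc t⁻¹ * z * u = t⁻¹ * (z * u * z⁻¹) * z := by group
    _ = _ := by rw [h2, ← h1]; group

theorem field_bound [Finite G] (hK : IsKer a K) (h3 : Sharp3 G Ω) (hab : a ≠ b) (hK1 : K ≠ ⊥)
    (hc : ∀ u ∈ K, ∀ v ∈ K, u * v = v * u)
    (hd : Nat.card K - 1 ≤ 2 * Nat.card ↥(stabilizer G a ⊓ stabilizer G b))
    (hna : ∃ u ∈ stabilizer G a ⊓ stabilizer G b, ∃ v ∈ stabilizer G a ⊓ stabilizer G b,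
      u * v ≠ v * u) :
    ∃ m : ℕ, 1 < m ∧ m * m ≤ Nat.card K ∧ m ∣ Nat.card K ∧
      Nat.card (Subgroup.center ↥(stabilizer G a ⊓ stabilizer G b)) ∣ m - 1 := by
  classical
  letI : CommGroup K := { (inferInstance : Group K) with
    mul_comm := fun u v => Subtype.ext (hc u u.2 v v.2) }
  set H := stabilizer G a ⊓ stabilizer G b with hH
  let ψ : H →* AddMonoid.End (Additive K) :=
    { toFun := fun h => MonoidHom.toAdditive (FeitUp.cjK hK ⟨h, h.2.1⟩)
      map_one' := AddMonoidHom.ext fun w => Additive.toMul.injective (Subtype.ext (by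
        change ((1 : H) : G) * (w.toMul : K) * ((1 : H) : G)⁻¹ = (w.toMul : K)
        simp))
      map_mul' := fun h k => AddMonoidHom.ext fun w => Additive.toMul.injective (Subtype.ext (by
        change ((h * k : H) : G) * (w.toMul : K) * ((h * k : H) : G)⁻¹ =
          h * (k * (w.toMul : K) * (k : G)⁻¹) * (h : G)⁻¹
        simp [mul_assoc])) }
  have hψ : ∀ h (v : Additive K), ((ψ h v).toMul : G) = h * v.toMul * (h : G)⁻¹ := fun _ _ => rfl
  obtain ⟨u₀, hu₀⟩ := (Subgroup.ne_bot_iff_exists_ne_one).1 hK1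
  have hv₀ : Additive.ofMul u₀ ≠ 0 := hu₀
  haveI : Nontrivial (Additive K) := ⟨_, _, hv₀⟩
  have hψinj : Function.Injective ψ := by
    rw [injective_iff_map_eq_one]
    intro h hh
    by_contra h1
    have := hψ h (Additive.ofMul u₀)
    rw [hh] at this
    exact hu₀ (Subtype.ext (hK.fpf h3 hab h.2.1 h.2.2 (fun e => h1 (Subtype.ext e)) u₀.2
      (mul_inv_eq_iff_eq_mul.1 this.symm)))
  have hAB : ∀ x ∈ ψ '' Subgroup.center H, ∀ y ∈ Set.range ψ, x * y = y * x := by
    rintro _ ⟨h, hh, rfl⟩ _ ⟨k, rfl⟩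
    rw [← map_mul, ← map_mul, Subgroup.mem_center_iff.1 hh k]
  obtain ⟨hR, hinj⟩ := closure_isField (ψ '' Subgroup.center H) (Set.range ψ)
    (fun x hx y hy => hAB x hx y (Set.image_subset_range _ _ hy)) hAB (by
    intro W hW
    by_cases hbot : W = ⊥
    · exact Or.inl hbot
    right
    have := hK.eq_of_invariant h3 hab _ le_rfl hd ((AddSubgroup.toSubgroup' W).map K.subtype)
      (Subgroup.map_subtype_le _) (by
      rintro h hh _ ⟨u, hu, rfl⟩
      exact ⟨_, hW _ ⟨⟨h, hh⟩, rfl⟩ (Additive.ofMul u) hu, rfl⟩) (by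
      intro h
      apply hbot
      rw [eq_bot_iff]
      intro w hw
      have : ((w.toMul : K) : G) ∈ (AddSubgroup.toSubgroup' W).map K.subtype := ⟨w.toMul, hw, rfl⟩
      rw [h, Subgroup.mem_bot] at this
      have h2 : w.toMul = 1 := Subtype.ext this
      exact h2)
    rw [eq_top_iff]
    intro w _
    have h2 : ((w.toMul : K) : G) ∈ (AddSubgroup.toSubgroup' W).map K.subtype := by
      rw [this]; exact w.toMul.2
    obtain ⟨w', hw', e⟩ := h2
    have : w' = w.toMul := Subtype.ext e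
    rw [this] at hw'
    exact hw')
  haveI := finite_end (V := Additive K)
  set R := Subring.closure (ψ '' Subgroup.center H) with hRdef
  letI := hR.toField
  let ev : R →+ Additive K := AddMonoidHom.mk'
    (fun r => (r : AddMonoid.End (Additive K)) (Additive.ofMul u₀)) (fun _ _ => rfl)
  have hev1 : Function.Injective ev := by
    rw [injective_iff_map_eq_zero]
    intro r hr
    exact Subtype.ext ((hinj r r.2 _ hr).resolve_right hv₀)
  have hRB : ∀ (r : R) (h : H) v, (r : AddMonoid.End (Additive K)) (ψ h v) =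
      ψ h ((r : AddMonoid.End (Additive K)) v) := fun r h v =>
    DFunLike.congr_fun (comm_closure _ (ψ h) (fun x hx => hAB x hx _ ⟨h, rfl⟩) r r.2) v
  have hev2 : ¬ Function.Surjective ev := by
    intro hs
    obtain ⟨u, hu, v, hv, huv⟩ := hna
    apply huv
    have key : ∀ h : H, ∃ r : R, ψ h = r := by
      intro h
      obtain ⟨r, hr⟩ := hs (ψ h (Additive.ofMul u₀))
      refine ⟨r, AddMonoidHom.ext fun w => ?_⟩
      obtain ⟨r', rfl⟩ := hs w
      have hr' : (r : AddMonoid.End (Additive K)) (Additive.ofMul u₀) = ψ h (Additive.ofMul u₀) := hr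
      change ψ h ((r' : AddMonoid.End (Additive K)) (Additive.ofMul u₀)) = ev (r * r')
      rw [← hRB, ← hr', mul_comm]
      rfl
    obtain ⟨r, hr⟩ := key ⟨u, hu⟩
    obtain ⟨r', hr'⟩ := key ⟨v, hv⟩
    have : ψ (⟨u, hu⟩ * ⟨v, hv⟩) = ψ (⟨v, hv⟩ * ⟨u, hu⟩) := by
      rw [map_mul, map_mul, hr, hr']
      exact congrArg Subtype.val (mul_comm r r')
    exact congrArg Subtype.val (hψinj this)
  refine ⟨Nat.card R, Finite.one_lt_card, ?_, ?_, ?_⟩
  · rw [Function.Surjective] at hev2
    push Not at hev2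
    obtain ⟨v₁, hv₁⟩ := hev2
    let f : R × R →+ Additive K := ev.coprod (AddMonoidHom.mk'
      (fun r => (r : AddMonoid.End (Additive K)) v₁) (fun _ _ => rfl))
    have hf : Function.Injective f := by
      rw [injective_iff_map_eq_zero]
      rintro ⟨r, r'⟩ h
      have h' : ev r + (r' : AddMonoid.End (Additive K)) v₁ = 0 := h
      by_cases hr' : r' = 0
      · subst hr'
        have : ev r = 0 := by simpa using h'
        rw [(injective_iff_map_eq_zero ev).1 hev1 r this]
        rfl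
      · exfalso
        apply hv₁ (-(r'⁻¹ * r))
        have h1 : v₁ = ((r'⁻¹ * r' : R) : AddMonoid.End (Additive K)) v₁ := by
          rw [inv_mul_cancel₀ hr']
          rfl
        rw [h1, map_neg]
        change _ = ((r'⁻¹ : R) : AddMonoid.End (Additive K)) ((r' : AddMonoid.End (Additive K)) v₁)
        rw [eq_neg_of_add_eq_zero_right h', map_neg]
        rfl
    have := Nat.card_le_card_of_injective f hf
    rwa [Nat.card_prod] at this
  · have := AddSubgroup.card_dvd_of_injective ev hev1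
    exact this
  · let φ : Subgroup.center H →* R :=
      { toFun := fun h => ⟨ψ h, Subring.subset_closure ⟨h, h.2, rfl⟩⟩
        map_one' := Subtype.ext (map_one ψ)
        map_mul' := fun h k => Subtype.ext (map_mul ψ _ _) }
    have := Subgroup.card_dvd_of_injective φ.toHomUnits (by
      intro h k e
      have h1 : φ h = φ k := congrArg Units.val e
      exact Subtype.ext (hψinj (congrArg Subtype.val h1)))
    rwa [Nat.card_units] at this

theorem exists_index_two [Finite G] [Fintype Ω] [FaithfulSMul G Ω]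
    (h3t : IsMultiplyPretransitive G Ω 3) (h3 : Sharp3 G Ω) (heven : Even (Fintype.card Ω))
    {c : Ω} (hab : a ≠ b) (hac : a ≠ c) (hbc : b ≠ c) :
    ∃ M : Subgroup ↥(stabilizer G a ⊓ stabilizer G b), M.index = 2 := by
  classical
  haveI : Fact (Nat.Prime 2) := ⟨Nat.prime_two⟩
  have hcard := card_stab2_of_sharp h3t h3 hab hac hbc
  have hH0 : 0 < Nat.card ↥(stabilizer G a ⊓ stabilizer G b) := Nat.card_pos
  rw [Nat.card_eq_fintype_card (α := Ω)] at hcard
  have h2 := two_of_three h3t (by omega)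
  obtain ⟨K, hK⟩ := exists_isKer h2 h3 hab
  have hKc := hK.card_add_one hab
  rw [Nat.card_eq_fintype_card (α := Ω)] at hKc
  have hc := hK.comm_of_large h3 hab (by omega)
  have hK1 : K ≠ ⊥ := by
    rintro rfl
    rw [Subgroup.card_bot] at hKc
    omega
  have hHev : Even (Nat.card ↥(stabilizer G a ⊓ stabilizer G b)) := by
    rw [Nat.even_iff] at heven ⊢
    omega
  obtain ⟨z, hz, hzz, hz1⟩ := exists_involution_of_even _ hHev
  have huniq : ∀ t ∈ stabilizer G a ⊓ stabilizer G b, t * t = 1 → t = 1 ∨ t = z :=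
    fun t ht htt => invol_unique hK h3 hab hK1 hc ht htt hz hzz hz1
  obtain ⟨s, hs1, hs2, hs3⟩ := three_trans h3t hab hac hbc hab.symm hbc hac
  have hss : s * s = 1 := h3 _ a b c hab hbc hac (by rw [mul_smul, hs1, hs2])
    (by rw [mul_smul, hs2, hs1]) (by rw [mul_smul, hs3, hs3])
  have hs0 : s ≠ 1 := by
    rintro rfl
    exact hab (by simpa using hs1)
  have hC : ∀ h ∈ stabilizer G a ⊓ stabilizer G b, h * s = s * h → h = 1 ∨ h = z := by
    intro h hh e
    have hfix : ∀ x : Ω, s • x = x → s • h • x = h • x := fun x hx => by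
      rw [← mul_smul, ← e, mul_smul, hx]
    by_cases h1 : h • c = c
    · exact Or.inl (h3 h a b c hab hbc hac hh.1 hh.2 h1)
    refine huniq h hh (h3 _ a b c hab hbc hac (Subgroup.mul_mem _ hh hh).1
      (Subgroup.mul_mem _ hh hh).2 ?_)
    rw [mul_smul]
    exact (h3.eq_or_eq hs0 (Ne.symm h1) hs3 (hfix c hs3) (hfix _ (hfix c hs3))).resolve_right
      fun e' => h1 (smul_left_cancel h e')
  have hconjz : ∀ g : G, (g • a = a ∧ g • b = b) ∨ (g • a = b ∧ g • b = a) → z * g = g * z := by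
    intro g hg
    have h4 : g * z * g⁻¹ ∈ stabilizer G a ⊓ stabilizer G b := by
      rcases hg with hg | hg
      · exact Subgroup.mul_mem _ (Subgroup.mul_mem _ hg hz) (Subgroup.inv_mem _ hg)
      · exact swap_conj_mem hg.1 hg.2 hz
    rcases huniq _ h4 (by
      calc g * z * g⁻¹ * (g * z * g⁻¹) = g * (z * z) * g⁻¹ := by group
        _ = 1 := by rw [hzz]; simp) with h | h
    · exact absurd (by simpa using h) hz1
    · exact (mul_inv_eq_iff_eq_mul.1 h).symm
  by_contra hno
  push Not at hno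
  set H := stabilizer G a ⊓ stabilizer G b with hH
  have hnorm : ∀ h ∈ H, ∀ u ∈ K, h * u * h⁻¹ ∈ K := fun h hh => hK.norm h hh.1
  have hfpf : ∀ h ∈ H, h ≠ 1 → ∀ u ∈ K, h * u = u * h → u = 1 :=
    fun h hh h1 u hu => hK.fpf h3 hab hh.1 hh.2 h1 hu
  have hcyc : ∀ P : Sylow 2 H, ¬ IsCyclic ((P : Subgroup H).map H.subtype) := by
    intro P hP
    obtain ⟨M, hM⟩ := exists_index_two_of_cyclic hHev P
      (((P : Subgroup H).equivMapOfInjective H.subtype H.subtype_injective).isCyclic.2 hP)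
    exact hno M hM
  let X := Subgroup.centralizer ({z} : Set G)
  have hX : ∀ g, g ∈ X ↔ (g • a = a ∧ g • b = b) ∨ (g • a = b ∧ g • b = a) := fun g => by
    rw [Subgroup.mem_centralizer_singleton_iff]
    exact ⟨fun h => fix_or_swap h3 hab hz1 hz hz h.symm, fun h => (hconjz g h).symm⟩
  have hHX : H ≤ X := fun h hh => (hX h).2 (Or.inl hh)
  let s' : X := ⟨s, (hX s).2 (Or.inr ⟨hs1, hs2⟩)⟩
  let z' : X := ⟨z, hHX hz⟩
  let e := Subgroup.subgroupOfEquivOfLe hHX
  have hno' : ∀ M : Subgroup (H.subgroupOf X), M.index ≠ 2 := fun M hM =>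
    hno (M.comap e.symm.toMonoidHom) (by
      rw [Subgroup.index_comap_of_surjective _ e.symm.surjective, hM])
  have hC' : ∀ h ∈ H.subgroupOf X, h * s' = s' * h → h = 1 ∨ h = z' := fun h hh e =>
    (hC h hh (congrArg Subtype.val e)).imp Subtype.ext Subtype.ext
  by_cases hk : ∃ k ∈ H, s * k * s⁻¹ = z * k
  swap
  · push Not at hk
    have hinv := inverted_of (H := H.subgroupOf X) hC' (Subtype.ext hss) (Subtype.ext hzz)
      (fun x => Subtype.ext (Subgroup.mem_centralizer_singleton_iff.1 x.2)) _ le_rfl hz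
      (fun h hh => swap_conj_mem hs1 hs2 hh) (fun h hh e => hk h hh (congrArg Subtype.val e))
    have hcomm := Ident.comm_of_inverted (E := H) (s := s) fun h hh =>
      congrArg Subtype.val (hinv ⟨h, hHX hh⟩ hh)
    obtain ⟨P⟩ : Nonempty (Sylow 2 H) := inferInstance
    have hle := Subgroup.map_subtype_le (P : Subgroup H)
    exact hcyc P (isCyclic_of_fpf Nat.prime_two _ K (P.isPGroup'.map _)
      (fun u hu v hv => hcomm u (hle hu) v (hle hv)) hK1 (fun h hh => hnorm h (hle hh))
      (fun h hh => hfpf h (hle hh)))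
  obtain ⟨k, hk, hks⟩ := hk
  have hkk : k * k = z := by
    refine (hC _ (H.mul_mem hk hk) ?_).resolve_left fun h => ?_
    · symm
      rw [← mul_inv_eq_iff_eq_mul]
      calc s * (k * k) * s⁻¹ = (s * k * s⁻¹) * (s * k * s⁻¹) := by group
        _ = (z * z) * (k * k) := by
          rw [hks, mul_assoc, ← mul_assoc k, ← hconjz k (Or.inl hk)]; group
        _ = _ := by rw [hzz, one_mul]
    · rcases huniq k hk h with rfl | rfl
      · exact hz1 (by simpa using hks.symm)
      · rw [← hconjz s (Or.inr ⟨hs1, hs2⟩), mul_inv_cancel_right, hzz] at hks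
        exact hz1 hks
  have hsk2 : s * k * (s * k) = 1 := by
    calc s * k * (s * k) = (s * k * s⁻¹) * (s * s) * k := by group
      _ = 1 := by rw [hks, hss, mul_one, mul_assoc, hkk, hzz]
  have hska : (s * k) • a = b := by rw [mul_smul, hk.1, hs1]
  have hskb : (s * k) • b = a := by rw [mul_smul, hk.2, hs2]
  have hfix : ∃ d : Ω, (s * k) • d = d := by
    by_contra hcon
    push Not at hcon
    let φ := Equiv.Perm.sign.comp (toPermHom G Ω)
    have h4 : φ k = 1 := by
      by_contra h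
      exact hno _ (index_ker_sign (φ.comp H.subtype) (x := ⟨k, hk⟩) h)
    have h5 : φ (s * k) = φ s := by rw [map_mul, h4, mul_one]
    have hzc : z • c ≠ c := fun h => hz1 (h3 z a b c hab hbc hac hz.1 hz.2 h)
    have h6 := h3.fixedBy_eq hs0 hzc.symm hs3 (by
      rw [← mul_smul, ← hconjz s (Or.inr ⟨hs1, hs2⟩), mul_smul, hs3])
    have h7 : Fintype.card (Function.fixedPoints (toPermHom G Ω s)) = 2 := by
      rw [← Nat.card_eq_fintype_card, Nat.card_coe_set_eq]
      change (fixedBy Ω s).ncard = 2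
      rw [h6, Set.ncard_pair hzc.symm]
    have h8 : Fintype.card (Function.fixedPoints (toPermHom G Ω (s * k))) = 0 := by
      rw [Fintype.card_eq_zero_iff]
      exact ⟨fun x => hcon x x.2⟩
    simp only [φ, MonoidHom.comp_apply] at h5
    rw [Equiv.Perm.sign_of_pow_two_eq_one (by rw [← map_pow, sq, hsk2, map_one]),
      Equiv.Perm.sign_of_pow_two_eq_one (by rw [← map_pow, sq, hss, map_one]), h7, h8] at h5
    obtain ⟨m, hm⟩ := heven
    rw [show (Fintype.card Ω - 0) / 2 = (Fintype.card Ω - 2) / 2 + 1 by omega, pow_succ] at h5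
    simp at h5
  obtain ⟨d, hd⟩ := hfix
  have had : a ≠ d := by
    rintro rfl
    exact hab (hd.symm.trans hska)
  have hbd : b ≠ d := by
    rintro rfl
    exact hab (hskb.symm.trans hd)
  obtain ⟨h, hh1, hh2, hh3⟩ := three_trans h3t hab hac hbc hab had hbd
  have hhs : h * s * h⁻¹ = s * k := by
    refine h3.eq_of_agree hab hbd had ?_ ?_ ?_
    · rw [hska, mul_smul, mul_smul, inv_smul_eq_iff.2 hh1.symm, hs1, hh2]
    · rw [hskb, mul_smul, mul_smul, inv_smul_eq_iff.2 hh2.symm, hs2, hh1]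
    · rw [hd, mul_smul, mul_smul, inv_smul_eq_iff.2 hh3.symm, hs3, hh3]
  have hidx : (H.subgroupOf X).index = 2 := by
    rw [Subgroup.index_eq_two_iff]
    refine ⟨s', fun x => ?_⟩
    change Xor (((x : G) * s) • a = a ∧ ((x : G) * s) • b = b) ((x : G) • a = a ∧ (x : G) • b = b)
    rw [mul_smul, mul_smul, hs1, hs2]
    rcases (hX x).1 x.2 with h | h <;> simp [h.1, h.2, hab, hab.symm]
  rcases structure_of_small (H := H.subgroupOf X) (s := s') (z := z') hidx
    (fun h => hab (h.1.symm.trans hs1)) (Subtype.ext hss) hz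
    (fun e => hz1 (congrArg Subtype.val e)) (Subtype.ext hzz)
    (fun t ht htt => (huniq t ht (congrArg Subtype.val htt)).imp Subtype.ext Subtype.ext)
    hC' hno' (k := ⟨k, hHX hk⟩) hk (Subtype.ext hks)
    (isConj_iff.2 ⟨⟨h, hHX ⟨hh1, hh2⟩⟩, Subtype.ext hhs⟩) with hcen | ⟨⟨u, hu, v, hv, huv⟩, h12, h3d⟩
  · have hk4 : k ^ 2 ^ 2 = 1 := by
      rw [show 2 ^ 2 = 2 * 2 by norm_num, pow_mul, sq k, hkk, sq, hzz]
    obtain ⟨P, hP⟩ := (isPGroup_zpowers (p := 2) (k := 2) (g := (⟨k, hk⟩ : H))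
      (Subtype.ext hk4)).exists_le_sylow
    have hle := Subgroup.map_subtype_le (P : Subgroup H)
    refine hcyc P (isCyclic_of_fpf' Nat.prime_two _ K (P.isPGroup'.map _) hK1
      (fun h hh => hnorm h (hle hh)) (fun h hh => hfpf h (hle hh))
      (Or.inr ⟨⟨k, ⟨k, hk⟩, hP (Subgroup.mem_zpowers _), rfl⟩, ?_, fun g => ?_⟩))
    · rw [← Subgroup.orderOf_coe]
      exact orderOf_eq_prime_pow (p := 2) (n := 1) (by rw [pow_one, sq, hkk]; exact hz1) hk4
    · exact Subtype.ext (congrArg Subtype.val (hcen ⟨g, hHX (hle g.2)⟩ (hle g.2))).symm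
  have hcen : (Subgroup.center (H.subgroupOf X)).index = (Subgroup.center H).index := by
    rw [← Subgroup.index_comap_of_surjective (f := e.symm.toMonoidHom) _ e.symm.surjective]
    congr 1
    ext x
    simp only [Subgroup.mem_comap, Subgroup.mem_center_iff]
    constructor
    · intro h g
      apply e.symm.injective
      rw [map_mul, map_mul]
      exact h _
    · intro h g
      obtain ⟨g, rfl⟩ := e.symm.surjective g
      change e.symm g * e.symm x = e.symm x * e.symm g
      rw [← map_mul, ← map_mul, h]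
  rw [hcen] at h12 h3d
  obtain ⟨m, hm1, hm2, hm3, hm4⟩ := field_bound hK h3 hab hK1 hc (by rw [← hH]; omega)
    ⟨u, hu, v, hv, fun e => huv (Subtype.ext e)⟩
  rw [← hH] at hm4
  have hZ := (Subgroup.center H).index_mul_card
  have h2Z : 2 ∣ Nat.card (Subgroup.center H) := by
    have : orderOf (⟨⟨z, hz⟩, Subgroup.mem_center_iff.2 fun g =>
        Subtype.ext (hconjz g (Or.inl g.2)).symm⟩ : Subgroup.center H) = 2 := by
      rw [← Subgroup.orderOf_coe, ← Subgroup.orderOf_coe]
      exact orderOf_eq_two_iff.2 ⟨hzz, hz1⟩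
    rw [← this]
    exact orderOf_dvd_natCard _
  have h3Z : 3 ∣ Nat.card (Subgroup.center H) := by
    haveI : Fact (Nat.Prime 3) := ⟨Nat.prime_three⟩
    obtain ⟨y, hy⟩ := exists_prime_orderOf_dvd_card' (G := H) 3 (hZ ▸ h3d.mul_right _)
    have hy3 : ∀ g : H, g * y * g⁻¹ = y ∨ g * y * g⁻¹ = y⁻¹ := by
      intro g
      by_contra hcon
      push Not at hcon
      have h4 := Count.ncard_order_three_le h2 h3 (by omega) hab
      have hmem : ∀ w : H, orderOf w = 3 →
          (w : G) ∈ {y : G | y • a = a ∧ y • b = b ∧ y ^ 3 = 1 ∧ y ≠ 1} := by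
        intro w hw
        refine ⟨w.2.1, w.2.2, ?_, fun e => ?_⟩
        · rw [← hw]
          exact congrArg Subtype.val (pow_orderOf_eq_one w)
        · rw [show w = 1 from Subtype.ext e, orderOf_one] at hw
          omega
      have h5 : ({(y : G), ((y⁻¹ : H) : G), ((g * y * g⁻¹ : H) : G)} : Set G).ncard = 3 := by
        rw [Set.ncard_eq_three]
        refine ⟨_, _, _, fun e => ?_, fun e => hcon.1 (Subtype.ext e).symm,
          fun e => hcon.2 (Subtype.ext e).symm, rfl⟩
        have h6 : y ^ 2 = 1 := by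
          rw [sq, ← eq_inv_iff_mul_eq_one]
          exact Subtype.ext e
        have := orderOf_dvd_of_pow_eq_one h6
        rw [hy] at this
        omega
      have h6 := Set.ncard_le_ncard (s := {(y : G), ((y⁻¹ : H) : G), ((g * y * g⁻¹ : H) : G)})
        (t := {y : G | y • a = a ∧ y • b = b ∧ y ^ 3 = 1 ∧ y ≠ 1}) (by
        rintro _ (rfl | rfl | rfl)
        · exact hmem y hy
        · exact hmem _ (by rw [orderOf_inv, hy])
        · exact hmem _ (by rw [← hy]; exact (MulAut.conj g).orderOf_eq y))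
      omega
    have : orderOf (⟨y, Subgroup.mem_center_iff.2 (central_of_class hno hy3)⟩ :
        Subgroup.center H) = 3 := by
      rw [← Subgroup.orderOf_coe]
      exact hy
    rw [← this]
    exact orderOf_dvd_natCard _
  generalize Nat.card (Subgroup.center H) = A at *
  generalize (Subgroup.center H).index = i at *
  have hA : A ≤ m - 1 := Nat.le_of_dvd (by omega) hm4
  have h4 : i * A ≤ 12 * A := Nat.mul_le_mul_right _ h12
  have h5 : m ≤ 11 := by
    by_contra h
    have : 12 * m ≤ m * m := Nat.mul_le_mul_right _ (by omega)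
    omega
  have h6 : 6 ∣ m - 1 := (Nat.Coprime.mul_dvd_of_dvd_of_dvd (by norm_num) h2Z h3Z).trans hm4
  have h7 : m = 7 := by omega
  subst h7
  have h8 : A = 6 := by
    have : 0 < A := Nat.pos_of_dvd_of_pos hm4 (by norm_num)
    omega
  subst h8
  omega

theorem exists_index_two' [Finite G] [Fintype Ω] [FaithfulSMul G Ω]
    (h3t : IsMultiplyPretransitive G Ω 3) (h3 : Sharp3 G Ω) (heven : Even (Fintype.card Ω))
    {c : Ω} (hab : a ≠ b) (hac : a ≠ c) (hbc : b ≠ c) {s : G} (hs1 : s • a = b) (hs2 : s • b = a)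
    (hs3 : s • c = c) :
    ∃ N : Subgroup G, N ≤ stabilizer G a ⊓ stabilizer G b ∧
      N.relIndex (stabilizer G a ⊓ stabilizer G b) = 2 ∧ ∀ n ∈ N, s * n * s⁻¹ ∈ N := by
  have hss : s * s = 1 := h3 _ a b c hab hbc hac (by rw [mul_smul, hs1, hs2])
    (by rw [mul_smul, hs2, hs1]) (by rw [mul_smul, hs3, hs3])
  obtain ⟨M, hM⟩ := exists_index_two h3t h3 heven hab hac hbc
  obtain ⟨N, hN, hN'⟩ := exists_invariant_index_two (swapAut hs1 hs2).toMonoidHom (fun x => by
    refine Subtype.ext ?_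
    change s * (s * x * s⁻¹) * s⁻¹ = x
    calc s * (s * x * s⁻¹) * s⁻¹ = (s * s) * x * (s * s)⁻¹ := by group
      _ = x := by rw [hss]; simp) hM
  refine ⟨N.map (Subgroup.subtype _), Subgroup.map_subtype_le _, ?_, ?_⟩
  · rw [Subgroup.relIndex, Subgroup.subgroupOf, Subgroup.comap_map_eq_self_of_injective
      (Subgroup.subtype_injective _), hN]
  · rintro _ ⟨x, hx, rfl⟩
    exact ⟨_, hN' x hx, rfl⟩

end Cfsg.Agent.H4.Index2
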