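import Cfsg.Agent.H4.LW3

/-!
Homogeneous groups inducing exactly the alternating group on `(k+1)`-sets.
-/

set_option autoImplicit false

namespace Cfsg.Agent.H4.LW

open MulAction Equiv Cfsg.Agent.H4.Basic Cfsg.Agent.H4.Gleason Cfsg.Agent.H4.Homog
open scoped Pointwise

variable {G α : Type*} [Group G] [MulAction G α] [DecidableEq α] [Fintype α] [Finite G] {k : ℕ}

omit [Finite G] in
theorem AltI.symI {Δ : Finset α} (h : AltI G Δ) {a b : α} (ha : a ∈ Δ) (hb : b ∈ Δ) (hab : a ≠ b)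
    {g : G} (hg : Ind Δ (swap a b) g) : SymI G Δ := fun τ hτ => by
  rcases Int.units_eq_one_or (Perm.sign τ) with h1 | h1
  · exact h τ h1 hτ
  obtain ⟨g', hg'⟩ := h (τ * swap a b) (by simp [h1, hab]) fun x hx => by
    rw [Perm.mul_apply, swap_supp ha hb x hx, hτ x hx]
  have := hg'.mul hg (pres_swap ha hb)
  rw [mul_assoc, swap_mul_self, mul_one] at this
  exact ⟨_, this⟩

omit [Fintype α] in
theorem swap_klein {a b c d : α} (hab : a ≠ b) (hac : a ≠ c) (had : a ≠ d) (hbc : b ≠ c)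
    (hbd : b ≠ d) (hcd : c ≠ d) :
    swap a d * swap b c = swap a b * swap c d * (swap a c * swap b d) := by
  ext x
  simp only [Perm.mul_apply]
  grind [swap_apply_def]

theorem card_le_of_altI [FaithfulSMul G α] (hk : KT G α k) (h4 : 4 ≤ k)
    (hkn : k ≤ Fintype.card α) (hA : ∀ Δ : Finset α, Δ.card = k + 1 → AltI G Δ)
    (hN : ∀ Δ : Finset α, Δ.card = k + 1 → ¬ SymI G Δ) : Fintype.card α ≤ k + 2 := by
  replace hN : ∀ Δ : Finset α, Δ.card = k + 1 → ∀ a ∈ Δ, ∀ b ∈ Δ, a ≠ b → ∀ g : G,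
      ¬ Ind Δ (swap a b) g := fun Δ h a ha b hb hab g hg => hN Δ h ((hA Δ h).symI ha hb hab hg)
  have hi : ∀ w : G, w * w = 1 → ∀ t : Finset α, w ∈ FS G t → k ≤ t.card + 1 → w = 1 := by
    intro w hw t ht h
    refine FaithfulSMul.eq_of_smul_eq_smul (α := α) fun a => by_contra fun ha => ?_
    rw [one_smul] at ha
    obtain ⟨t', h1, h2⟩ := Finset.exists_subset_card_eq (show k - 1 ≤ t.card by omega)
    have h3 : w • w • a = a := by rw [← mul_smul, hw, one_smul]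
    have h5 : a ∉ t' := fun h => ha (mem_FS.1 ht a (h1 h))
    have h6 : w • a ∉ t' := fun h => ha ((mem_FS.1 ht _ (h1 h)).symm.trans h3)
    refine hN (insert a (insert (w • a) t')) (by
      rw [Finset.card_insert_of_notMem (by simp [h5, Ne.symm ha]), Finset.card_insert_of_notMem h6]
      omega) a (by simp) (w • a) (by simp) (Ne.symm ha) w (ind_swap_of (mem_FS.2 fun x hx => ?_)
      rfl h3)
    simp only [Finset.mem_erase, Finset.mem_insert] at hx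
    exact mem_FS.1 ht x (h1 ((hx.2.2.resolve_left hx.2.1).resolve_left hx.1))
  obtain ⟨Λ, -, hΛ⟩ := exists_superset_card (s := (∅ : Finset α)) (k := k) (by simp) hkn
  have ho : Odd (Nat.card (FS G Λ)) := Nat.not_even_iff_odd.1 fun h => by
    obtain ⟨w, h1, h2, h3⟩ := exists_involution_of_even _ h
    exact h3 (hi w h2 Λ h1 (by omega))
  obtain ⟨t, ht, h2⟩ := Finset.exists_subset_card_eq (show 4 ≤ Λ.card by omega)
  obtain ⟨a, b, c, d, hab, hac, had, hbc, hbd, hcd, ht'⟩ := Finset.card_eq_four.1 h2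
  have ha : a ∈ t := by simp [ht']
  have hb : b ∈ t := by simp [ht']
  have hc : c ∈ t := by simp [ht']
  have hd : d ∈ t := by simp [ht']
  let D : Perm α → Prop := fun τ =>
    τ * τ = 1 ∧ Perm.sign τ = 1 ∧ (∀ x ∉ t, τ x = x) ∧ τ a ≠ a
  have hp : ∀ τ, D τ → Pres Λ τ := fun τ h => pres_of_supp fun x hx => h.2.2.1 x fun h => hx (ht h)
  have hO : ∀ y ∉ Λ, ∀ z ∈ orbit (FS G Λ) y, z ∉ Λ := by
    rintro y hy _ ⟨η, rfl⟩
    exact FS_smul_notMem η.2 hy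
  have p1 : ∀ τ, D τ → ∀ v : G, Ind Λ τ v → ∀ y ∉ Λ, ∀ z ∈ orbit (FS G Λ) y,
      v • z ∈ orbit (FS G Λ) y := fun τ hτ v hv y hy z hz => by
    have h1 := hO y hy z hz
    obtain ⟨g, hg⟩ := hA (insert z Λ) (by rw [Finset.card_insert_of_notMem h1, hΛ]) τ hτ.2.1
      fun x hx => hτ.2.2.1 x fun h => hx (Finset.mem_insert_of_mem (ht h))
    have h3 : g • z = z := (hg z (by simp)).trans (hτ.2.2.1 z fun h => h1 (ht h))
    have h5 := hv.mul_mem ((hg.mono (Finset.subset_insert _ _)).inv (hp τ hτ) hτ.1) (hp τ hτ) hτ.1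
    have : (v * g⁻¹) • z ∈ orbit (FS G Λ) y := mapsTo_smul_orbit (⟨_, h5⟩ : FS G Λ) y hz
    rwa [mul_smul, inv_smul_eq_iff.2 h3.symm] at this
  have p3 : ∀ τ, D τ → ∀ v : G, v * v = 1 → Ind Λ τ v → ∀ y ∉ Λ, ∃ z ∈ orbit (FS G Λ) y,
      v • z = z := fun τ hτ v h hv y hy => exists_fix_of_odd h _ (ho.of_dvd_nat (by
    rw [← index_stabilizer]; exact Subgroup.index_dvd_card _)) (p1 τ hτ v hv y hy)
  have p0 : ∀ τ, D τ → ∀ v : G, Ind Λ τ v → v ≠ 1 := fun τ hτ v hv h =>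
    hτ.2.2.2 (by rw [← hv a (ht ha), h, one_smul])
  have p5 : ∀ τ, D τ → ∀ v : G, v * v = 1 → Ind Λ τ v → ∀ y ∉ Λ, ∀ x ∈ orbit (FS G Λ) y,
      ∀ x' ∈ orbit (FS G Λ) y, v • x = x → v • x' = x' → x = x' := by
    intro τ hτ v h hv y hy x hx x' hx' h1 h3
    obtain ⟨g, hg⟩ := hk Λ hΛ.le (swap a b)
    have hp' := pres_swap (ht ha) (ht hb)
    have h5 := Ind.smul_notMem hg hp' hy
    obtain ⟨z, hz, h6⟩ := p3 τ hτ v h hv _ h5
    have h7 : z ∉ orbit (FS G Λ) y := fun h7 => by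
      obtain ⟨η, hη⟩ : g • y ∈ orbit (FS G Λ) y := by
        rw [← orbit_eq_iff.2 h7, orbit_eq_iff.2 hz]; exact mem_orbit_self _
      refine hN (insert y Λ) (by rw [Finset.card_insert_of_notMem hy, hΛ]) a (by simp [ht ha]) b
        (by simp [ht hb]) hab _ ((Ind.FS_mul hg hp' ((FS G Λ).inv_mem η.2)).insert ?_)
      rw [mul_smul, ← hη, swap_supp (ht ha) (ht hb) y hy]
      exact inv_smul_smul _ _
    by_contra h8
    have h9 : v ∈ FS G (Λ \ t) := mem_FS.2 fun x hx => by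
      rw [Finset.mem_sdiff] at hx
      rw [hv x hx.1, hτ.2.2.1 x hx.2]
    refine p0 τ hτ v hv (hi v h _ (insert_mem_FS (insert_mem_FS (insert_mem_FS h9 h6) h3) h1) ?_)
    rw [Finset.card_insert_of_notMem (by
        simp only [Finset.mem_insert, Finset.mem_sdiff, not_or]
        exact ⟨h8, fun e => h7 (e ▸ hx), fun h => hO y hy x hx h.1⟩),
      Finset.card_insert_of_notMem (by
        simp only [Finset.mem_insert, Finset.mem_sdiff, not_or]
        exact ⟨fun e => h7 (e ▸ hx'), fun h => hO y hy x' hx' h.1⟩),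
      Finset.card_insert_of_notMem (fun h => hO _ h5 z hz (Finset.mem_sdiff.1 h).1),
      Finset.card_sdiff_of_subset ht]
    omega
  have hD : ∀ b ∈ t, ∀ c ∈ t, ∀ d ∈ t, a ≠ b → a ≠ c → a ≠ d → b ≠ c → b ≠ d → c ≠ d →
      D (swap a b * swap c d) := fun b hb c hc d hd hab hac had hbc hbd hcd =>
    ⟨by rw [mul_assoc, ← mul_assoc (swap c d), swap_comm_of_ne hac had hbc hbd, mul_assoc,
      swap_mul_self, mul_one, swap_mul_self], by simp [hab, hcd], fun x hx => by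
      rw [Perm.mul_apply, swap_supp hc hd x hx, swap_supp ha hb x hx], by
      rw [Perm.mul_apply, swap_apply_of_ne_of_ne hac had, swap_apply_left]; exact hab.symm⟩
  have d1 := hD b hb c hc d hd hab hac had hbc hbd hcd
  have d2 := hD c hc b hb d hd hac hab had hbc.symm hcd hbd
  have d3 := hD d hd b hb c hc had hab hac hbd.symm hcd.symm hbc
  rw [swap_klein hab hac had hbc hbd hcd] at d3
  generalize swap a b * swap c d = τ₁ at d1 d3
  generalize swap a c * swap b d = τ₂ at d2 d3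
  have p6 : ∀ v₁ v₂ : G, v₁ * v₁ = 1 → v₂ * v₂ = 1 → Ind Λ τ₁ v₁ → Ind Λ τ₂ v₂ → ∀ y ∉ Λ,
      ∀ x₁ ∈ orbit (FS G Λ) y, ∀ x₂ ∈ orbit (FS G Λ) y, v₁ • x₁ = x₁ → v₂ • x₂ = x₂ →
      x₁ = x₂ := by
    intro v₁ v₂ h1 h3 h5 h6 y hy x₁ hx₁ x₂ hx₂ h7 h8
    obtain ⟨j, h9, h10⟩ := (h5.mul h6 (hp _ d2)).exists_invol ho (hp _ d3) d3.1
    have h11 : Commute v₁ ((v₁ * v₂) ^ (2 * j + 1)) := by
      rw [Commute, SemiconjBy, conj_pow_of_invol h1 h3, inv_eq_of_sq h9]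
    have h12 : Commute v₂ ((v₁ * v₂) ^ (2 * j + 1)) := by
      have := h11.mul_left ((Commute.refl (v₁ * v₂)).pow_right (2 * j + 1))
      rwa [← mul_assoc, h1, one_mul] at this
    generalize (v₁ * v₂) ^ (2 * j + 1) = u at *
    obtain ⟨x, hx, h13⟩ := p3 _ d3 u h9 h10 y hy
    have h14 : ∀ τ, D τ → ∀ v : G, Ind Λ τ v → Commute v u → v • x = x := fun τ hτ v hv h =>
      p5 _ d3 u h9 h10 y hy _ (p1 τ hτ v hv y hy x hx) x hx
        (by rw [← mul_smul, ← h.eq, mul_smul, h13]) h13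
    exact (p5 _ d1 v₁ h1 h5 y hy _ hx₁ x hx h7 (h14 _ d1 _ h5 h11)).trans
      (p5 _ d2 v₂ h3 h6 y hy _ hx _ hx₂ (h14 _ d2 _ h6 h12) h8)
  have hex : ∀ τ, D τ → ∃ v : G, v * v = 1 ∧ Ind Λ τ v := fun τ hτ => by
    obtain ⟨g, hg⟩ := hk Λ hΛ.le τ
    obtain ⟨j, h⟩ := Ind.exists_invol ho hg (hp τ hτ) hτ.1
    exact ⟨_, h⟩
  obtain ⟨v₁, h1, h3⟩ := hex _ d1
  obtain ⟨v₂, h5, h6⟩ := hex _ d2
  by_contra h7
  refine p0 _ d2 _ h6 (hi _ h5 tᶜ (mem_FS.2 fun y hy => ?_) (by rw [Finset.card_compl]; omega))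
  by_cases h8 : y ∈ Λ
  · rw [h6 y h8, d2.2.2.1 y (Finset.mem_compl.1 hy)]
  obtain ⟨x₁, hx₁, h9⟩ := p3 _ d1 _ h1 h3 y h8
  obtain ⟨x₂, hx₂, h10⟩ := p3 _ d2 _ h5 h6 y h8
  obtain ⟨η, hη⟩ := mem_orbit_symm.1 hx₁
  replace hη : (η : G) • x₁ = y := hη
  rwa [p6 (η * v₁ * (η : G)⁻¹) v₂ (by rw [← pow_two, conj_pow, pow_two, h1]; simp) h5
    ((h3.FS_mul (hp _ d1) η.2).mul_FS ((FS G Λ).inv_mem η.2)) h6 y h8 y (mem_orbit_self y) x₂ hx₂
    (by rw [← hη, mul_smul, mul_smul, inv_smul_smul, h9]) h10]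

theorem kt_succ_of_hg [FaithfulSMul G α] (hk : KT G α k) (h4 : 4 ≤ k)
    (hkn : k + 2 < Fintype.card α) (h : Hg G α (k + 1)) : KT G α (k + 1) := by
  by_contra h1
  obtain ⟨Δ, h2, h3⟩ := exists_altI hk h4 (by omega)
  refine (card_le_of_altI hk h4 (by omega) (fun Δ' h5 => ?_)
    fun Δ' h5 h6 => h1 (kt_of_symI h h5 h6)).not_gt hkn
  obtain ⟨g, rfl⟩ := h Δ Δ' h2 h5
  exact h3.smul g

end Cfsg.Agent.H4.LW
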