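import Cfsg.Agent.H4.LW4

/-!
The Livingstone-Wagner theorem.
-/

set_option autoImplicit false

namespace Cfsg.Agent.H4.LW

open MulAction Equiv Cfsg.Agent.H4.Basic Cfsg.Agent.H4.Gleason Cfsg.Agent.H4.Homog
open scoped Pointwise

variable {G α : Type*} [Group G] [MulAction G α] [DecidableEq α] [Fintype α] {k : ℕ}

omit [DecidableEq α] in
theorem card_eq_of_kt (hk : KT G α k) {Λ : Finset α} (hΛ : Λ.card = k) :
    Nat.card G = (Fintype.card α).choose k * k.factorial * Nat.card (FS G Λ) := by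
  have := IsMultiplyPretransitive.index_of_fixingSubgroup_eq (G := G) (Λ : Set α) (by
    rw [Set.ncard_coe_finset, hΛ]; exact hk.multi)
  rw [Set.ncard_coe_finset, hΛ, Nat.card_eq_fintype_card] at this
  rw [← this, FS, Subgroup.index_mul_card]

theorem card_eq_of_hg (h : Hg G α k) {Δ : Finset α} (hΔ : Δ.card = k) :
    Nat.card G = (Fintype.card α).choose k * Nat.card (stabilizer G Δ) := by
  rw [← (stabilizer G Δ).index_mul_card, index_stabilizer, ← Finset.card_univ,
    ← Finset.card_powersetCard, ← Set.ncard_coe_finset]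
  congr 2
  ext t
  rw [Finset.mem_coe, Finset.mem_powersetCard_univ]
  exact ⟨fun ⟨g, hg⟩ => by rw [← hg]; simpa using hΔ, fun ht => h Δ t hΔ ht⟩

variable (G) in
/-- A finset as a set for its stabiliser. -/
def setSub (Δ : Finset α) : SubMulAction (stabilizer G Δ) α where
  carrier := Δ
  smul_mem' g x hx := by
    have := Finset.smul_mem_smul_finset (a := (g : G)) (Finset.mem_coe.1 hx)
    rwa [mem_stabilizer_iff.1 g.2] at this

theorem exists_card_stabilizer {Δ : Finset α} (h : ∀ g ∈ FS G Δ, g = 1) :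
    ∃ t, Nat.card (stabilizer G Δ) * t = Δ.card.factorial ∧ (t = 1 → SymI G Δ) := by
  classical
  have h1 : Function.Injective (toPermHom (stabilizer G Δ) (setSub G Δ)) :=
    (injective_iff_map_eq_one _).2 fun g hg => Subtype.ext (h _ (mem_FS.2 fun x hx =>
      congrArg Subtype.val (congrArg (fun e : Perm (setSub G Δ) => e ⟨x, hx⟩) hg)))
  refine ⟨(toPermHom (stabilizer G Δ) (setSub G Δ)).range.index, ?_, fun ht τ hτ => ?_⟩
  · rw [Nat.card_congr (MonoidHom.ofInjective h1).toEquiv, Subgroup.card_mul_index,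
      Nat.card_perm, show Nat.card (setSub G Δ) = Nat.card Δ from rfl, Nat.card_eq_fintype_card,
      Fintype.card_coe]
  · obtain ⟨g, hg⟩ := (Subgroup.index_eq_one.1 ht).ge (Subgroup.mem_top
      (τ.subtypePerm (p := fun x => x ∈ setSub G Δ) (supp_iff hτ)))
    exact ⟨g, fun x hx =>
      congrArg Subtype.val (congrArg (fun e : Perm (setSub G Δ) => e ⟨x, hx⟩) hg)⟩

variable [Finite G]

theorem sr_of_hg [FaithfulSMul G α] (hkn : k + 1 < Fintype.card α) (h : ¬ KT G α (k + 1))
    (h1 : Hg G α (k + 1)) (h2 : Hg G α (k + 1 + 1)) : SR G α k := by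
  intro t g hg ht
  obtain ⟨t', h3, h4⟩ := Finset.exists_subset_card_eq (Nat.succ_le_of_lt ht)
  obtain ⟨Γ, -, hΓ⟩ := exists_superset_card (s := (∅ : Finset α)) (k := k + 1 + 1) (by simp) hkn
  by_contra h5
  refine h (kt_of_constant_orders (by omega) hkn (Nat.card (FS G t')) (Nat.card (FS G Γ)) ?_
    (fun s hs => card_FS_eq h1 hs h4) fun s hs => card_FS_eq h2 hs hΓ)
  rw [Finite.one_lt_card_iff_nontrivial, Subgroup.nontrivial_iff_exists_ne_one]
  exact ⟨g, mem_FS.2 fun x hx => mem_FS.1 hg x (h3 hx), h5⟩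

theorem three_dvd_card_stabilizer (hs : SR G α k) (hk : 2 ≤ k) (hkn : k < Fintype.card α)
    (h1 : Hg G α (k + 1)) {Λ Δ : Finset α} (hΛ : Λ.card = k) (hΔ : Δ.card = k + 1)
    (h : 3 ∣ Nat.card (FS G Λ)) : 3 ∣ Nat.card (stabilizer G Δ) := by
  have := Fact.mk Nat.prime_three
  obtain ⟨⟨g, hg⟩, h2⟩ := exists_prime_orderOf_dvd_card' 3 h
  rw [Subgroup.orderOf_mk] at h2
  have h3 : g * (g * g) = 1 := by rw [← pow_three, ← h2, pow_orderOf_eq_one]
  obtain ⟨y, -, hy⟩ := Finset.exists_mem_notMem_of_card_lt_card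
    (show Λ.card < (Finset.univ : Finset α).card by rw [Finset.card_univ]; omega)
  have h4 : g • y ≠ y := fun e => by
    rw [hs _ _ (insert_mem_FS hg e) (by rw [Finset.card_insert_of_notMem hy]; omega)] at h2
    simp at h2
  have h5 : g • g • g • y = y := by rw [← mul_smul, ← mul_smul, mul_assoc, h3, one_smul]
  obtain ⟨t, h6, h7⟩ := Finset.exists_subset_card_eq (show k - 2 ≤ Λ.card by omega)
  have h8 := FS_smul_notMem hg hy
  have h9 := FS_smul_notMem hg h8
  have h10 : (insert y (insert (g • y) (insert (g • g • y) t))).card = k + 1 := by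
    rw [Finset.card_insert_of_notMem (by
        simp only [Finset.mem_insert, not_or]
        exact ⟨h4.symm, fun e => h4 (by rw [e, h5, ← e]), fun h => hy (h6 h)⟩),
      Finset.card_insert_of_notMem (by
        simp only [Finset.mem_insert, not_or]
        exact ⟨fun e => h4 (smul_left_cancel g e).symm, fun h => h8 (h6 h)⟩),
      Finset.card_insert_of_notMem fun h => h9 (h6 h)]
    omega
  have h11 := (card_eq_of_hg h1 h10).symm.trans (card_eq_of_hg h1 hΔ)
  rw [← Nat.eq_of_mul_eq_mul_left (Nat.choose_pos hkn) h11, ← h2]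
  refine Subgroup.orderOf_dvd_natCard _ (mem_stabilizer_iff.2 (Finset.eq_of_subset_of_card_le
    (fun x hx => ?_) (by simp)))
  obtain ⟨z, hz, rfl⟩ := Finset.mem_smul_finset.1 hx
  simp only [Finset.mem_insert] at hz ⊢
  rcases hz with rfl | rfl | rfl | hz
  · simp
  · simp
  · simp [h5]
  · rw [mem_FS.1 hg z (h6 hz)]; simp [hz]

omit [Finite G] in
theorem not_sharp_seven (hn : Fintype.card α = 7) (hk : KT G α 3) : ¬ SR G α 2 := by
  intro hs
  obtain ⟨Λ, -, hΛ⟩ := exists_superset_card (s := (∅ : Finset α)) (k := 3) (by simp) (by omega)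
  obtain ⟨a, b, c, hab, hac, hbc, h⟩ := Finset.card_eq_three.1 hΛ
  have ha : a ∈ Λ := by simp [h]
  have hb : b ∈ Λ := by simp [h]
  have hc : c ∈ Λ := by simp [h]
  obtain ⟨w, hw⟩ := hk Λ hΛ.le (swap a b)
  obtain ⟨w', hw'⟩ := hk Λ hΛ.le (swap b c)
  have h1 := hs _ _ (Ind.mul_mem hw hw (pres_swap ha hb) (swap_mul_self _ _)) (by omega)
  have h2 := hs _ _ (Ind.mul_mem hw' hw' (pres_swap hb hc) (swap_mul_self _ _)) (by omega)
  have h3 : (w * w') • a = b := by
    rw [mul_smul, hw' a ha, swap_apply_of_ne_of_ne hab hac, hw a ha, swap_apply_left]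
  have h4 : (w * w') • b = c := by
    rw [mul_smul, hw' b hb, swap_apply_left, hw c hc, swap_apply_of_ne_of_ne hac.symm hbc.symm]
  have h5 : (w * w') • c = a := by
    rw [mul_smul, hw' c hc, swap_apply_right, hw b hb, swap_apply_right]
  have h6 : (w * w') ^ 3 ^ 1 = 1 := hs Λ _ (mem_FS.2 fun x hx => by
    rw [pow_one, pow_three, mul_smul (w * w'), mul_smul (w * w')]
    simp only [h, Finset.mem_insert, Finset.mem_singleton] at hx
    rcases hx with rfl | rfl | rfl <;> simp only [h3, h4, h5]) (by omega)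
  have h7 : ∀ g : G, g • a ≠ a → Nat.card (fixedBy α g) ≤ 2 := fun g hg => by
    by_contra h7
    refine hg ?_
    rw [hs (Set.toFinite (fixedBy α g)).toFinset g (mem_FS.2 fun x hx => by simpa using hx) (by
      rw [← Set.ncard_eq_toFinset_card, ← Nat.card_coe_set_eq]; omega), one_smul]
  have h8 := card_modEq_fixedBy (Ω := α) Nat.prime_three h6
  have h9 := h7 _ (h3 ▸ hab.symm)
  have h10 := card_modEq_fixedBy (Ω := α) (k := 1) Nat.prime_two (g := w) (by rw [pow_one, sq, h1])
  have h11 := h7 w (by rw [hw a ha, swap_apply_left]; exact hab.symm)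
  rw [Nat.card_eq_fintype_card, hn, Nat.ModEq] at h8 h10
  obtain ⟨y, hy⟩ := Set.ncard_eq_one.1 (show (fixedBy α (w * w')).ncard = 1 by
    rw [← Nat.card_coe_set_eq]; omega)
  obtain ⟨z, hz⟩ := Set.ncard_eq_one.1 (show (fixedBy α w).ncard = 1 by
    rw [← Nat.card_coe_set_eq]; omega)
  have h12 : (w * w') • y = y := hy.ge rfl
  have h13 : w • y ∈ fixedBy α (w * w') := by
    have := congrArg (· • y) (conj_pow_of_invol h1 h2 1)
    simp only [pow_one] at this
    rw [mul_smul, h12, mul_smul, eq_inv_smul_iff] at this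
    exact this
  have h14 : y ∈ fixedBy α w := (hy.le h13 :)
  have h15 : c ∈ fixedBy α w := (hw c hc).trans (swap_apply_of_ne_of_ne hac.symm hbc.symm)
  rw [(hz.le h14).trans (hz.le h15).symm, h5] at h12
  exact hac h12

theorem not_twentyfour (hn : Fintype.card α = 24) (hk : KT G α 3) (hs : SR G α 3) {Λ : Finset α}
    (hΛ : Λ.card = 3) : Nat.card (FS G Λ) ≠ 7 := by
  intro h
  obtain ⟨z, hz⟩ : Λ.Nonempty := Finset.card_pos.1 (by omega)
  have h1 := Finset.card_erase_add_one hz
  have h2 := (card_eq_of_kt hk hΛ).symm.trans (card_eq_of_kt (hk.mono (by omega))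
    (show (Λ.erase z).card = 2 by omega))
  rw [hn, h] at h2
  have h3 : Nat.card (FS G (Λ.erase z)) = 154 := by
    norm_num [Nat.choose, Nat.factorial] at h2; omega
  have := Fact.mk (show Nat.Prime 11 by norm_num)
  have := Fact.mk (show Nat.Prime 7 by norm_num)
  obtain ⟨Q⟩ : Nonempty (Sylow 11 (FS G (Λ.erase z))) := inferInstance
  have h4 : Nat.card Q = 11 := by
    rw [Q.card_eq_multiplicity, h3, show 154 = 11 * 14 by norm_num,
      Nat.factorization_mul (by norm_num) (by norm_num), Finsupp.add_apply,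
      Nat.Prime.factorization_self (by norm_num),
      Nat.factorization_eq_zero_of_not_dvd (by norm_num)]
    norm_num
  have h5 := Q.card_dvd_index
  have h6 := (Q : Subgroup (FS G (Λ.erase z))).card_mul_index
  rw [h4, h3] at h6
  rw [show (Q : Subgroup (FS G (Λ.erase z))).index = 14 by omega] at h5
  have h7 := card_sylow_modEq_one 11 (FS G (Λ.erase z))
  have h8 : Nat.card (Sylow 11 (FS G (Λ.erase z))) = 1 := by
    have := Nat.le_of_dvd (by norm_num) h5
    rw [Nat.ModEq] at h7
    generalize Nat.card (Sylow 11 (FS G (Λ.erase z))) = m at *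
    interval_cases m <;> omega
  have := (Nat.card_eq_one_iff_unique.1 h8).1
  have := Q.normal_of_subsingleton
  obtain ⟨⟨g, hg⟩, h9⟩ := exists_prime_orderOf_dvd_card' 7 h.symm.dvd
  rw [Subgroup.orderOf_mk] at h9
  let g' : FS G (Λ.erase z) := ⟨g, mem_FS.2 fun x hx => mem_FS.1 hg x (Finset.mem_of_mem_erase hx)⟩
  have h10 := ncard_modEq_fixed_elt (k := 1) (p := 7) (by norm_num) (g := MulAut.conj g') (by
    rw [pow_one, ← map_pow, show g' ^ 7 = 1 from Subtype.ext (h9 ▸ pow_orderOf_eq_one g), map_one])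
    (Q : Set (FS G (Λ.erase z))) (Set.toFinite _) fun x hx => this.conj_mem x hx g'
  rw [← Nat.card_coe_set_eq, show Nat.card (Q : Set (FS G (Λ.erase z))) = 11 from h4,
    Nat.ModEq] at h10
  obtain ⟨q, ⟨h11, h12⟩, h13⟩ := Set.exists_ne_of_one_lt_ncard
    (s := {x ∈ (Q : Set (FS G (Λ.erase z))) | MulAut.conj g' • x = x}) (by omega) 1
  replace h12 : g * q = q * g := mul_inv_eq_iff_eq_mul.1 (congrArg Subtype.val h12)
  have h14 : (q : G) • z = z := by
    have h14 : (q : G) • z ∈ Λ := by_contra fun h14 => by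
      rw [hs _ g (insert_mem_FS hg (x := (q : G) • z) (by
        rw [← mul_smul, h12, mul_smul, mem_FS.1 hg z hz])) (by
          rw [Finset.card_insert_of_notMem h14]; omega)] at h9
      simp at h9
    by_contra h15
    exact FS_smul_notMem q.2 (Finset.notMem_erase z Λ) (Finset.mem_erase.2 ⟨h15, h14⟩)
  have h15 := Subgroup.orderOf_dvd_natCard _ (Finset.insert_erase hz ▸ insert_mem_FS q.2 h14)
  have h16 := Subgroup.orderOf_dvd_natCard (Q : Subgroup (FS G (Λ.erase z))) h11
  rw [h, Subgroup.orderOf_coe] at h15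
  rw [h4] at h16
  exact h13 (orderOf_eq_one_iff.1 (Nat.eq_one_of_dvd_coprimes (by norm_num) h15 h16))

theorem lw_cases [FaithfulSMul G α] (h0 : 1 ≤ k) (hkn : k + 2 ≤ Fintype.card α) (hk : KT G α k)
    (h : ¬ KT G α (k + 1)) (h1 : Hg G α (k + 1)) (h2 : Hg G α (k + 1 + 1)) :
    Fintype.card α = k + 2 ∨ (Fintype.card α = 5 ∧ k = 2 ∧ Nat.card G = 20) ∨
      (Fintype.card α = 6 ∧ k = 3 ∧ Nat.card G = 120) ∨
      (Fintype.card α = 9 ∧ k = 3 ∧ (Nat.card G = 504 ∨ Nat.card G = 1512)) := by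
  refine or_iff_not_imp_left.2 fun h3 => ?_
  have h4 : k < 4 := by
    by_contra h4
    exact h (kt_succ_of_hg hk (by omega) (by omega) h1)
  have hs := sr_of_hg hkn h h1 h2
  obtain ⟨Λ, -, hΛ⟩ := exists_superset_card (s := (∅ : Finset α)) (k := k) (by simp) (by omega)
  obtain ⟨Δ, -, hΔ⟩ := exists_superset_card (s := (∅ : Finset α)) (k := k + 1) (by simp) (by omega)
  obtain ⟨Γ, -, hΓ⟩ := exists_superset_card (s := (∅ : Finset α)) (k := k + 1 + 1) (by simp) hkn
  have ho : Odd (Nat.card (FS G Λ)) := Nat.not_even_iff_odd.1 fun he =>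
    h (kt_of_symI h1 hΔ (symI_of_even hk hs hΛ he hΔ))
  obtain ⟨t, h5, h6⟩ := exists_card_stabilizer (G := G) (Δ := Δ) fun g hg => hs _ g hg (by omega)
  obtain ⟨u, h7, -⟩ := exists_card_stabilizer (G := G) (Δ := Γ) fun g hg => hs _ g hg (by omega)
  replace h6 : t ≠ 1 := fun e => h (kt_of_symI h1 hΔ (h6 e))
  have e1 := card_eq_of_kt hk hΛ
  have e2 := card_eq_of_hg h1 hΔ
  have e3 := card_eq_of_hg h2 hΓ
  have e4 := fun h => three_dvd_card_stabilizer hs h (by omega) h1 hΛ hΔ
  have e5 : k = 3 → Fintype.card α = 24 → Nat.card (FS G Λ) ≠ 7 := by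
    rintro rfl e; exact not_twentyfour e hk hs hΛ
  have e6 : k = 3 → Fintype.card α = 7 → Nat.card (FS G Λ) ≠ 1 := by
    rintro rfl e e'
    refine not_sharp_seven e hk fun s g hg hs' => ?_
    obtain ⟨s', h8, h9⟩ := Finset.exists_subset_card_eq (Nat.succ_le_of_lt hs')
    exact Subgroup.mem_bot.1 (Subgroup.card_eq_one.1 ((card_FS_eq (hg_of_kt hk) h9 hΛ).trans e') ▸
      mem_FS.2 fun x hx => mem_FS.1 hg x (h8 hx))
  rw [hΔ] at h5
  rw [hΓ] at h7
  have c1 := Nat.choose_succ_right_eq (Fintype.card α) k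
  have c2 := Nat.choose_succ_right_eq (Fintype.card α) (k + 1)
  have p1 : 0 < (Fintype.card α).choose k := Nat.choose_pos (by omega)
  have p2 : 0 < (Fintype.card α).choose (k + 1) := Nat.choose_pos (by omega)
  have pA : 0 < Nat.card (stabilizer G Δ) := Nat.card_pos
  have pB : 0 < Nat.card (stabilizer G Γ) := Nat.card_pos
  obtain ⟨M, hM⟩ : ∃ M, Fintype.card α = k + 1 + M := ⟨Fintype.card α - (k + 1), by omega⟩
  rw [show Fintype.card α - k = M + 1 by omega] at c1
  rw [show Fintype.card α - (k + 1) = M by omega] at c2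
  generalize Nat.card (stabilizer G Δ) = A at *
  generalize Nat.card (stabilizer G Γ) = B at *
  generalize Nat.card (FS G Λ) = l at *
  have f1 : M + 1 = t * l := by
    refine Nat.eq_of_mul_eq_mul_left (Nat.mul_pos p1 pA) ?_
    calc _ = (Fintype.card α).choose k * (M + 1) * A := by ring
      _ = Nat.card G * (k + 1) := by rw [← c1, e2]; ring
      _ = (Fintype.card α).choose k * (k + 1).factorial * l := by
        rw [e1, Nat.factorial_succ]; ring
      _ = _ := by rw [← h5]; ring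
  have f2 : B * (t * M) = (k + 1 + 1).factorial := by
    refine Nat.eq_of_mul_eq_mul_left p2 ?_
    calc _ = (Fintype.card α).choose (k + 1) * M * B * t := by ring
      _ = Nat.card G * (k + 1 + 1) * t := by rw [← c2, e3]; ring
      _ = _ := by rw [e2, Nat.factorial_succ (k + 1), ← h5]; ring
  have f3 : t * M ∣ (k + 1 + 1).factorial := Dvd.intro_left _ f2
  have f4 : t ∣ (k + 1).factorial := Dvd.intro_left _ h5
  have f5 := Nat.le_of_dvd (Nat.factorial_pos _) f3
  have f6 := Nat.le_of_dvd (Nat.factorial_pos _) f4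
  rw [Nat.odd_iff] at ho
  rw [hM] at e1 e5 e6 h3 ⊢
  clear c1 c2 p1 p2 e2 e3 hM hkn hs h1 h2 hk h hΛ hΔ hΓ f2 h7
  generalize Nat.card G = g at *
  have f7 : 2 ≤ t := by
    rcases t with _ | _ | t
    · simp at f1
    · exact absurd rfl h6
    · omega
  have f8 : M ≤ 60 := by
    have : (k + 1 + 1).factorial ≤ Nat.factorial 5 := Nat.factorial_le (by omega)
    have : Nat.factorial 5 = 120 := rfl
    nlinarith
  have f9 : l ≤ 31 := by nlinarith
  obtain rfl : M = t * l - 1 := by omega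
  interval_cases k <;> simp only [Nat.factorial] at * <;> interval_cases t <;>
    first | omega | (interval_cases l <;> first | omega | simp_all [Nat.choose])

theorem kt_pred_of_hg [FaithfulSMul G α] (hkn : 2 * (k + 1) ≤ Fintype.card α)
    (h : Hg G α (k + 1)) : KT G α k := by
  induction k with
  | zero => exact fun s hs τ => ⟨1, by simp [Finset.card_eq_zero.1 (Nat.le_zero.1 hs)]⟩
  | succ k ih =>
    have h1 := h.of_le hkn (j := k + 1) (by omega) (by omega)
    rcases Nat.eq_zero_or_pos k with rfl | hk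
    · refine KT.of_tr fun j hj Γ hΓ x y _ _ => ?_
      obtain ⟨g, hg⟩ := h1 {x} {y} (by simp) (by simp)
      rw [Finset.card_eq_zero.1 (show Γ.card = 0 by omega)]
      exact ⟨g, by simp, by simpa using hg⟩
    by_contra h2
    have := lw_cases hk (by omega) (ih (by omega) h1) h2 h1 h
    omega

theorem kt_of_hg [FaithfulSMul G α] (h4 : 4 ≤ k) (hkn : 2 * (k + 1) ≤ Fintype.card α)
    (h : Hg G α (k + 1)) : KT G α (k + 1) :=
  kt_succ_of_hg (kt_pred_of_hg hkn h) h4 (by omega) h

end Cfsg.Agent.H4.LW
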