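import Cfsg.Agent.H4.Index2
import Cfsg.Agent.H5.FieldMaps

/-! Sharply triply transitive groups of degree `p^f + 1` with `p` and `f` odd. -/

set_option autoImplicit false

namespace Cfsg.Agent.H4.OddExp

open MulAction Cfsg.Agent.H4.Basic Cfsg.Agent.H4.Zass Cfsg.Agent.H4.NoTwo Cfsg.Agent.H4.Coord
open Cfsg.Agent.H4.OddStab Cfsg.Agent.H4.Sharp Cfsg.Agent.H4.Index2 Cfsg.Agent.H4.Ident
open OnePoint

variable {G Ω : Type*} [Group G] [MulAction G Ω]

theorem card_aut {F : Type*} [Field F] [Fintype F] {p f : ℕ} (hp : p.Prime)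
    (hF : Fintype.card F = p ^ f) : Nat.card (F ≃+* F) = f := by
  obtain ⟨q, hq⟩ := CharP.exists F
  obtain ⟨n, hq', hn⟩ := FiniteField.card F q
  haveI := Fact.mk hq'
  letI := ZMod.algebra F q
  rw [H5.FieldMaps.card_ringEquiv q]
  have h1 := Module.card_eq_pow_finrank (K := ZMod q) (V := F)
  rw [ZMod.card] at h1
  have h2 : q = p := by
    have : q ∣ p ^ f := by
      rw [← hF, hn]
      exact dvd_pow_self q n.ne_zero
    exact (Nat.prime_dvd_prime_iff_eq hq' hp).1 (hq'.dvd_of_dvd_pow this)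
  subst h2
  exact Nat.pow_right_injective hp.two_le (h1.symm.trans hF)

theorem equiv_pgl_of_odd [Finite G] [Fintype Ω] [FaithfulSMul G Ω]
    (h3t : IsMultiplyPretransitive G Ω 3) (h3 : Sharp3 G Ω) {p f : ℕ} (hp : p.Prime)
    (hp2 : p ≠ 2) (hfo : Odd f) (hΩ : Fintype.card Ω = p ^ f + 1)
    (F : Type*) [Field F] [Fintype F] (hF : Fintype.card F = p ^ f) :
    Nonempty (G ≃* Matrix.ProjGenLinGroup (Fin 2) F) := by
  classical
  have hodd : Odd (p ^ f) := (hp.odd_of_ne_two hp2).pow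
  have hF1 : 1 < Fintype.card F := Fintype.one_lt_card
  have heven : Even (Fintype.card Ω) := hΩ ▸ hodd.add_one
  obtain ⟨a, b, c, hab, hac, hbc⟩ := exists_three (Ω := Ω) (by omega)
  have hcard := card_stab2_of_sharp h3t h3 hab hac hbc
  rw [Nat.card_eq_fintype_card (α := Ω)] at hcard
  have h2 := two_of_three h3t (by omega)
  obtain ⟨K, hK⟩ := exists_isKer h2 h3 hab
  have hKc := hK.card_add_one hab
  rw [Nat.card_eq_fintype_card (α := Ω)] at hKc
  have hc := hK.comm_of_large h3 hab (by omega)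
  have hK1 : K ≠ ⊥ := by
    rintro rfl
    rw [Subgroup.card_bot] at hKc
    omega
  have hHev : Even (Nat.card ↥(stabilizer G a ⊓ stabilizer G b)) := by
    rw [Nat.even_iff] at heven ⊢
    omega
  obtain ⟨z, hz, hzz, hz1⟩ := exists_involution_of_even _ hHev
  have huniq : ∀ t ∈ stabilizer G a ⊓ stabilizer G b, t * t = 1 → t = 1 ∨ t = z :=
    fun t ht htt => invol_unique hK h3 hab hK1 hc ht htt hz hzz hz1
  obtain ⟨s, hs1, hs2, hs3⟩ := three_trans h3t hab hac hbc hab.symm hbc hac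
  have hss : s * s = 1 := h3 _ a b c hab hbc hac (by rw [mul_smul, hs1, hs2])
    (by rw [mul_smul, hs2, hs1]) (by rw [mul_smul, hs3, hs3])
  have hs0 : s ≠ 1 := by
    rintro rfl
    exact hab (by simpa using hs1)
  have hC : ∀ h ∈ stabilizer G a ⊓ stabilizer G b, h * s = s * h → h = 1 ∨ h = z := by
    intro h hh e
    have hfix : ∀ x : Ω, s • x = x → s • h • x = h • x := fun x hx => by
      rw [← mul_smul, ← e, mul_smul, hx]
    by_cases h1 : h • c = c
    · exact Or.inl (h3 h a b c hab hbc hac hh.1 hh.2 h1)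
    refine huniq h hh (h3 _ a b c hab hbc hac (Subgroup.mul_mem _ hh hh).1
      (Subgroup.mul_mem _ hh hh).2 ?_)
    rw [mul_smul]
    exact (h3.eq_or_eq hs0 (Ne.symm h1) hs3 (hfix c hs3) (hfix _ (hfix c hs3))).resolve_right
      fun e' => h1 (smul_left_cancel h e')
  have hconjz : ∀ g : G, g * z * g⁻¹ ∈ stabilizer G a ⊓ stabilizer G b → g * z * g⁻¹ = z := by
    intro g h4
    rcases huniq _ h4 (by
      calc g * z * g⁻¹ * (g * z * g⁻¹) = g * (z * z) * g⁻¹ := by group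
        _ = 1 := by rw [hzz]; simp) with h | h
    · exact absurd (by simpa using h) hz1
    · exact h
  obtain ⟨N, hN, hNi, hNs⟩ := exists_index_two' h3t h3 heven hab hac hbc hs1 hs2 hs3
  set H := stabilizer G a ⊓ stabilizer G b with hH
  have hNc : 2 * Nat.card N = Nat.card H := by
    have := (N.subgroupOf H).index_mul_card
    rwa [Nat.card_congr (Subgroup.subgroupOfEquivOfLe hN).toEquiv, ← Subgroup.relIndex, hNi] at this
  have hm : ∀ x ∈ H, ∀ y ∈ H, x * y ∈ N ↔ (x ∈ N ↔ y ∈ N) := fun x hx y hy =>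
    Subgroup.mul_mem_iff_of_index_two hNi (a := ⟨x, hx⟩) (b := ⟨y, hy⟩)
  have hsi : s⁻¹ = s := inv_eq_of_mul_eq_one_right hss
  have hJ : ∀ h : G, s * (h * s * h⁻¹ * s⁻¹) * s⁻¹ = (h * s * h⁻¹ * s⁻¹)⁻¹ := fun h => by
    simp only [mul_inv_rev, inv_inv, hsi, mul_assoc, hss, mul_one]
  by_cases hzN : z ∈ N
  swap
  · have hNinv : ∀ h ∈ N, s * h * s⁻¹ = h⁻¹ := by
      let φ : N → N := fun h => ⟨h * s * (h : G)⁻¹ * s⁻¹, by
        have := N.mul_mem h.2 (hNs _ (N.inv_mem h.2))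
        simpa [mul_assoc] using this⟩
      have hφ : Function.Injective φ := by
        intro g h e
        have e' : (g : G) * s * (g : G)⁻¹ = h * s * (h : G)⁻¹ :=
          mul_right_cancel (congrArg Subtype.val e)
        rcases hC ((h : G)⁻¹ * g) (hN (h⁻¹ * g).2) (by
          calc (h : G)⁻¹ * g * s = (h : G)⁻¹ * (g * s * (g : G)⁻¹) * g := by group
            _ = _ := by rw [e']; group) with h1 | h1
        · exact Subtype.ext (inv_mul_eq_one.1 h1).symm
        · exact absurd (h1 ▸ (h⁻¹ * g).2) hzN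
      intro h hh
      obtain ⟨g, hg⟩ := Finite.surjective_of_injective hφ ⟨h, hh⟩
      have : h = g * s * (g : G)⁻¹ * s⁻¹ := (congrArg Subtype.val hg).symm
      rw [this, hJ]
    refine equiv_pgl h3 hab hK (by rw [← hH]; omega) hs1 hs2 (fun h hh => ?_) F (by omega)
    by_cases hhN : h ∈ N
    · exact hNinv h hhN
    have h4 := hNinv (z * h) ((hm z hz h hh).2 (by tauto))
    have h5 := hconjz s (swap_conj_mem hs1 hs2 hz)
    have h6 := hconjz h⁻¹ (H.mul_mem (H.mul_mem (H.inv_mem hh) hz) (H.inv_mem (H.inv_mem hh)))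
    calc s * h * s⁻¹ = (s * z * s⁻¹)⁻¹ * (s * (z * h) * s⁻¹) := by group
      _ = (h⁻¹ * z * h⁻¹⁻¹)⁻¹ * (z * h)⁻¹ := by rw [h4, h5, h6]
      _ = h⁻¹ * (z⁻¹ * z⁻¹) := by group
      _ = _ := by rw [← mul_inv_rev, hzz]; simp
  have hNinv : ∀ h ∈ N, s * h * s⁻¹ = h⁻¹ := by
    have h4 := card_le_J hC H le_rfl
    have h5 : (fun h => h * s * h⁻¹ * s⁻¹) '' (H : Set G) = N := by
      refine Set.eq_of_subset_of_ncard_le ?_ ?_
      · rintro _ ⟨h, hh, rfl⟩
        have h6 := swap_conj_mem hs1 hs2 (H.inv_mem hh)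
        have := (hm _ hh _ h6).2 ⟨fun h7 => hNs _ (N.inv_mem h7), fun h7 => by
          have h8 := hNs _ h7
          rw [show s * (s * h⁻¹ * s⁻¹) * s⁻¹ = (s * s) * h⁻¹ * (s * s)⁻¹ by group, hss] at h8
          simpa using h8⟩
        simpa [mul_assoc] using this
      · rw [← Nat.card_coe_set_eq]
        simp only [SetLike.coe_sort_coe]
        omega
    intro h hh
    have : h ∈ (fun h => h * s * h⁻¹ * s⁻¹) '' (H : Set G) := h5 ▸ hh
    obtain ⟨g, -, rfl⟩ := this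
    exact hJ g
  obtain ⟨θ, rfl, rfl, rfl, hT, hβ, hE, hirr⟩ := exists_coord hK hab hac hbc hc N hN
    (comm_of_inverted hNinv) (hK.eq_of_invariant h3 hab N hN (by omega)) F (by omega)
  have hT' : ∀ t : F, ∃ u : G, u • θ ∞ = θ ∞ ∧ ∀ x : F, u • θ x = θ (x + t : F) := by
    intro t
    obtain ⟨u, hu, h⟩ := hT t
    exact ⟨u, hK.fix u hu, h⟩
  have hscal : ∀ h ∈ H, ∃ c : F, ∀ x : F, h • θ x = θ (c * x : F) := by
    intro h hh
    obtain ⟨β, hβ'⟩ := hβ h hh.1 hh.2
    obtain ⟨τ, hτ⟩ := semilinear {c : F | ∃ h ∈ N, ∀ x : F, h • θ x = θ (c * x : F)} hirr β (by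
      rintro c ⟨n, hn, hc⟩
      obtain ⟨c', hc'⟩ := hE (h * n * h⁻¹) (by
        rw [hm _ (H.mul_mem hh (hN hn)) _ (H.inv_mem hh), hm _ hh _ (hN hn), N.inv_mem_iff]
        tauto)
      refine ⟨c', fun x => ?_⟩
      have := hc' (β x)
      rw [← hβ' x, mul_smul, mul_smul, inv_smul_smul, hc, hβ'] at this
      exact coe_eq_coe.1 (θ.injective this))
    obtain ⟨d, hd⟩ := hE (h * h) ((hm _ hh _ hh).2 Iff.rfl)
    have h4 : ∀ x, β 1 * τ (β 1) * τ (τ x) = d * x := by
      intro x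
      have := hd x
      rw [mul_smul, hβ', hβ'] at this
      rw [← coe_eq_coe.1 (θ.injective this), hτ (β x), hτ x, map_mul, mul_assoc]
    have h5 := h4 1
    rw [map_one τ, map_one τ, mul_one, mul_one] at h5
    have hd0 := scalar_ne_zero θ hd
    have h6 : τ * τ = 1 := by
      ext x
      have := h4 x
      rw [h5] at this
      exact mul_left_cancel₀ hd0 this
    have h7 : τ = 1 := eq_one_of_sq_of_odd (H := F ≃+* F) (by rw [card_aut hp hF]; exact hfo) ⊥ h6
    refine ⟨β 1, fun x => ?_⟩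
    rw [hβ', hτ x, h7]
    rfl
  obtain ⟨σ, hσ⟩ := exists_sigma θ hs1 hs2
  have hσ1 : σ 1 = 1 := by
    have := (hσ 1 one_ne_zero).2
    rw [hs3] at this
    exact (coe_eq_coe.1 (θ.injective this)).symm
  have hidx : (scal θ N).index = 2 := by
    have h1 := Subgroup.card_mul_index (scal θ N)
    rw [card_scal θ N (fun h hh => (hN hh).1) hE, card_units_eq] at h1
    exact Nat.eq_of_mul_eq_mul_left (Nat.card_pos (α := N)) (by omega)
  have hD : ∀ c ∈ scal θ N, ∀ x : F, x ≠ 0 → σ (c * x) = (c : F)⁻¹ * σ x :=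
    fun c hc z hz => sigma_scal θ hσ _ hNinv hc hz
  have hm1 : -1 ∈ scal θ N := by
    obtain ⟨c, hc, hc'⟩ := exists_scal θ N hE hzN
    have h4 : (c : F) * c = 1 := by
      have := hc' (c * 1)
      rw [← hc', ← mul_smul, hzz, one_smul] at this
      simpa using (coe_eq_coe.1 (θ.injective this)).symm
    rcases mul_self_eq_one_iff.1 h4 with h5 | h5
    · refine absurd (h3 z _ _ _ hab hbc hac hz.1 hz.2 ?_) hz1
      rw [hc', h5, one_mul]
    · have : c = -1 := Units.ext (by simpa using h5)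
      exact this ▸ hc
  obtain ⟨c, -, hc1, hc2⟩ := funeq θ hss hs1 hs2 hσ hT' ⊤ (fun g h1 h2 => by
    obtain ⟨c, hc⟩ := hscal g ⟨h1, h2⟩
    exact ⟨Units.mk0 c (scalar_ne_zero θ hc), trivial, hc⟩)
  have hneg : σ (-1) = -1 := by simpa [hσ1] using hD _ hm1 1 one_ne_zero
  rw [hσ1, hneg] at hc1
  have hcy : c = -(1 : Fˣ)⁻¹ := Units.ext (by simpa using hc1)
  have key := field_funeq hidx hm1 (fun W hW => hirr W fun c ⟨h, hh, hc⟩ =>
    hW (Units.mk0 c (scalar_ne_zero θ hc)) ⟨h, hh, hc⟩) hD 1 hσ1 (Subgroup.one_mem _)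
    (by rw [← hcy]; exact hc2)
  exact pgl_of_coord θ hT' hscal (by rw [← hH]; omega) hs1 hs2 (hσ 1 one_ne_zero).1
    fun x hx => by rw [(hσ x hx).2, key x hx]

end Cfsg.Agent.H4.OddExp
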