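import Cfsg.Agent.H4.OddExp
import Cfsg.Agent.H4.AffineCoord
import Cfsg.Agent.H2.Sharp2

/-! Transitive groups of degree `p + 1` and order `(p+1) p d`, `d < p`. -/

set_option autoImplicit false

namespace Cfsg.Agent.H4.PrimePlusOne

open MulAction Cfsg.Agent.H4.Basic Cfsg.Agent.H4.Zass

variable {G Ω : Type*} [Group G] [MulAction G Ω]

theorem exists_ker [Finite G] [Finite Ω] [FaithfulSMul G Ω] [IsPretransitive G Ω] {p d : ℕ}
    (hp : p.Prime) (hΩ : Nat.card Ω = p + 1) (hG : Nat.card G = (p + 1) * p * d) (hd : d < p)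
    (a : Ω) : ∃ K : Subgroup G, IsKer a K ∧ Nat.card K = p := by
  classical
  haveI := Fact.mk hp
  have hd0 : d ≠ 0 := by
    rintro rfl
    exact Nat.card_pos.ne' hG
  have hpd : ¬ p ∣ d := fun h => absurd (Nat.le_of_dvd (Nat.pos_of_ne_zero hd0) h) (by omega)
  have hS : Nat.card (stabilizer G a) = p * d := by
    have := (stabilizer G a).index_mul_card
    rw [index_stabilizer_of_transitive, hΩ, hG, mul_assoc] at this
    exact Nat.eq_of_mul_eq_mul_left (by omega) this
  obtain ⟨P⟩ : Nonempty (Sylow p (stabilizer G a)) := inferInstance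
  have hP : Nat.card P = p := by
    rw [P.card_eq_multiplicity, hS, Nat.factorization_mul hp.ne_zero hd0, Finsupp.add_apply,
      hp.factorization_self, Nat.factorization_eq_zero_of_not_dvd hpd, pow_one]
  have hi : (P : Subgroup (stabilizer G a)).index = d := by
    have := (P : Subgroup (stabilizer G a)).card_mul_index
    rw [hS, hP] at this
    exact Nat.eq_of_mul_eq_mul_left hp.pos this
  have h1 : Nat.card (Sylow p (stabilizer G a)) = 1 := by
    have h2 := card_sylow_modEq_one p (stabilizer G a)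
    have h3 := Nat.le_of_dvd (Nat.pos_of_ne_zero hd0) (hi ▸ P.card_dvd_index)
    exact Nat.ModEq.eq_of_lt_of_lt h2 (by omega) hp.one_lt
  haveI : Subsingleton (Sylow p (stabilizer G a)) := (Nat.card_eq_one_iff_unique.1 h1).1
  have hn := P.normal_of_subsingleton
  set K := (P : Subgroup (stabilizer G a)).map (stabilizer G a).subtype with hK
  have hKc : Nat.card K = p := by
    rw [hK, Subgroup.card_map_of_injective (Subgroup.subtype_injective _), hP]
  have hfix : ∀ u ∈ K, u • a = a := fun u hu => Subgroup.map_subtype_le _ hu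
  haveI : Fact (Nat.card K).Prime := ⟨hKc ▸ hp⟩
  have hne : ∀ (u : K) (y : Ω), y ≠ a → (u : G) • y ≠ a := fun u y hy e =>
    hy (smul_left_cancel (u : G) (e.trans (hfix u u.2).symm))
  have hcs : Nat.card {y : Ω // y ≠ a} = p := by
    haveI := Fintype.ofFinite Ω
    rw [Nat.card_eq_fintype_card, Fintype.card_subtype_compl, ← Nat.card_eq_fintype_card, hΩ]
    simp
  have hbij : ∀ x : Ω, (hx : x ≠ a) → stabilizer K x = ⊥ →
      Function.Bijective (fun u : K => (⟨(u : G) • x, hne u x hx⟩ : {y : Ω // y ≠ a})) := by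
    intro x hx hs
    refine Function.Injective.bijective_of_nat_card_le (fun u v e => ?_) (by rw [hKc, hcs])
    have e' : u • x = v • x := congrArg Subtype.val e
    have : v⁻¹ * u ∈ stabilizer K x := by rw [mem_stabilizer_iff, mul_smul, e', inv_smul_smul]
    rw [hs] at this
    exact (inv_mul_eq_one.1 this).symm
  have hstab : ∀ x : Ω, x ≠ a → stabilizer K x = ⊥ := by
    obtain ⟨u, hu⟩ : ∃ u : K, u ≠ 1 := by
      haveI : Nontrivial K := Finite.one_lt_card_iff_nontrivial.1 (hKc ▸ hp.one_lt)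
      exact exists_ne 1
    obtain ⟨y, hy⟩ : ∃ y : Ω, (u : G) • y ≠ y := by
      by_contra h
      push Not at h
      exact hu (Subtype.ext (eq_of_smul_eq_smul (α := Ω) fun c => by simp [h c]))
    have hya : y ≠ a := fun e => hy (e ▸ hfix u u.2)
    have hys : stabilizer K y = ⊥ := (Subgroup.eq_bot_or_eq_top_of_prime_card _).resolve_right
      fun e => hy (by
        have : u ∈ stabilizer K y := e ▸ Subgroup.mem_top u
        exact this)
    intro x hx
    refine (Subgroup.eq_bot_or_eq_top_of_prime_card _).resolve_right fun e => ?_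
    obtain ⟨v, hv⟩ := (hbij y hya hys).2 ⟨x, hx⟩
    have hv' : v • y = x := congrArg Subtype.val hv
    have h4 : v * u * v⁻¹ ∈ stabilizer K x := e ▸ Subgroup.mem_top _
    rw [mem_stabilizer_iff, ← hv', mul_smul, mul_smul, inv_smul_smul] at h4
    exact hy (smul_left_cancel v h4)
  refine ⟨K, ⟨hfix, ?_, fun y z hy hz => ?_⟩, hKc⟩
  · rintro g hg _ ⟨u, hu, rfl⟩
    exact ⟨_, hn.conj_mem u hu ⟨g, hg⟩, rfl⟩
  · obtain ⟨u, hu, hu'⟩ := (hbij y hy (hstab y hy)).existsUnique ⟨z, hz⟩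
    exact ⟨u, congrArg Subtype.val hu, fun v hv => hu' v (Subtype.ext hv)⟩

theorem sharp3_of_ker [Finite G] [FaithfulSMul G Ω] {p : ℕ} (hp : p.Prime)
    (h : ∀ a : Ω, ∃ K : Subgroup G, IsKer a K ∧ Nat.card K = p) : Sharp3 G Ω := by
  intro g a b c hab hbc hac ha hb hc
  obtain ⟨K, hK, hKc⟩ := h a
  haveI : Fact (Nat.card K).Prime := ⟨hKc ▸ hp⟩
  obtain ⟨u, hu, e⟩ := hK.exists_smul hab.symm hac.symm
  have h1 : g * u * g⁻¹ = u := hK.eq_of_smul_eq (hK.norm g ha u hu) hu hab.symm (by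
    rw [mul_smul, mul_smul, inv_smul_eq_iff.2 hb.symm, e, hc])
  have h2 : (Subgroup.centralizer {g}).subgroupOf K = ⊤ := by
    refine (Subgroup.eq_bot_or_eq_top_of_prime_card _).resolve_left fun h => hbc ?_
    have : (⟨u, hu⟩ : K) ∈ (Subgroup.centralizer {g}).subgroupOf K :=
      Subgroup.mem_centralizer_singleton_iff.2 (mul_inv_eq_iff_eq_mul.1 h1).symm
    rw [h] at this
    have h3 : u = 1 := congrArg Subtype.val this
    rw [← e, h3, one_smul]
  refine eq_of_smul_eq_smul (α := Ω) fun x => ?_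
  rw [one_smul]
  by_cases hx : x = a
  · rw [hx, ha]
  obtain ⟨v, hv, rfl⟩ := hK.exists_smul hab.symm hx
  have : (⟨v, hv⟩ : K) ∈ (Subgroup.centralizer {g}).subgroupOf K := h2 ▸ Subgroup.mem_top _
  have h3 : v * g = g * v := Subgroup.mem_centralizer_singleton_iff.1 this
  rw [← mul_smul, ← h3, mul_smul, hb]

theorem main [Finite G] [Fintype Ω] [FaithfulSMul G Ω] [IsPretransitive G Ω] {p d : ℕ}
    (hp : p.Prime) (hΩ : Fintype.card Ω = p + 1) (hG : Nat.card G = (p + 1) * p * d)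
    (hd : d < p) :
    (d = p - 1 ∧ Nonempty (G ≃* Matrix.ProjGenLinGroup (Fin 2) (ZMod p))) ∨
    (2 * d = p - 1 ∧ Nonempty (G ≃* Matrix.ProjectiveSpecialLinearGroup (Fin 2) (ZMod p))) ∨
    (∃ q : ℕ, q.Prime ∧ p + 1 = 2 ^ q ∧ (d = 1 ∨ d = q) ∧ ∃ e : Ω ≃ GaloisField 2 q, ∀ g : G,
      ∃ (c : (GaloisField 2 q)ˣ) (t : GaloisField 2 q) (τ : GaloisField 2 q ≃+* GaloisField 2 q),
        ∀ x, e (g • x) = c * τ (e x) + t) := by
  classical
  haveI := Fact.mk hp
  have hΩ' : Nat.card Ω = p + 1 := by rw [Nat.card_eq_fintype_card, hΩ]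
  have hker := exists_ker hp hΩ' hG hd
  have h3 : Sharp3 G Ω := sharp3_of_ker hp hker
  have hp2 := hp.two_le
  obtain ⟨a, b, c, hab, hac, hbc⟩ := Sharp.exists_three (Ω := Ω) (by omega)
  obtain ⟨K, hK, hKc⟩ := hker a
  have h2 : IsMultiplyPretransitive G Ω 2 := by
    have := ZassNormal.two_trans_of_le hab hK (le_top (a := K)) fun x y => by
      obtain ⟨g, hg⟩ := exists_smul_eq G x y
      exact ⟨g, trivial, hg⟩
    rw [is_two_pretransitive_iff] at this ⊢
    intro x y z w hxy hzw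
    obtain ⟨g, hg⟩ := this hxy hzw
    exact ⟨g, hg⟩
  have hE : Nat.card ↥(stabilizer G a ⊓ stabilizer G b) = d := by
    have := hK.card_group h2 hab
    rw [hG, hΩ', hKc, mul_assoc] at this
    exact (Nat.eq_of_mul_eq_mul_left hp.pos (Nat.eq_of_mul_eq_mul_left (by omega) this)).symm
  have hcomm : ∀ u ∈ K, ∀ v ∈ K, u * v = v * u := by
    haveI : IsCyclic K := isCyclic_of_prime_card hKc
    intro u hu v hv
    exact congrArg Subtype.val (IsCyclic.commGroup.mul_comm (⟨u, hu⟩ : K) ⟨v, hv⟩)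
  obtain ⟨s, hs1, hs2⟩ := two_trans h2 hab hab.symm
  by_cases hp2' : p = 2
  · left
    have hd0 : 0 < d := hE ▸ Nat.card_pos
    refine ⟨by omega, Ident.equiv_pgl h3 hab hK (by omega) hs1 hs2 (fun h hh => ?_) (ZMod p)
      (by rw [ZMod.card, hKc])⟩
    have : stabilizer G a ⊓ stabilizer G b = ⊥ := Subgroup.card_eq_one.1 (by omega)
    rw [this, Subgroup.mem_bot] at hh
    simp [hh]
  by_cases hZ : Cfsg.IsZassenhausGroup G Ω
  · rcases Feit.feit hZ hab hK hcomm with h | ⟨h, hall⟩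
    · left
      exact ⟨by omega, OddExp.equiv_pgl_of_odd (Feit.three_trans_of_card h2 h3 hab (by omega)) h3
        hp hp2' odd_one (by rw [pow_one, hΩ]) (ZMod p) (by rw [ZMod.card, pow_one])⟩
    · right; left
      exact ⟨by omega, Ident.equiv_psl h3 hab hK h (hall s hs1 hs2) hs1 hs2
        (Sharp.inverted_of_all_invol hall hs1 hs2) (ZMod p) (by rw [ZMod.card, hKc])⟩
  right; right
  have hM : ∃ M : Subgroup G, M.Normal ∧ (∀ x : Ω, ∃ u ∈ M, u • a = x) ∧
      ∀ u ∈ M, u • a = a → u = 1 := by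
    by_cases h4 : ∃ g : G, g ≠ 1 ∧ ∃ a b : Ω, a ≠ b ∧ g • a = a ∧ g • b = b
    · by_contra hcon
      refine hZ ⟨inferInstance, h2, h3, h4, fun N hN hNt => ?_⟩
      by_contra h5
      push Not at h5
      refine hcon ⟨N, hN, fun x => ?_, fun u hu h => ?_⟩
      · obtain ⟨u, hu⟩ := hNt.exists_smul_eq a x
        exact ⟨u, u.2, hu⟩
      · have : (⟨u, hu⟩ : N) ∈ stabilizer N a := h
        rw [h5 a] at this
        exact congrArg Subtype.val this
    · haveI : Nontrivial Ω := ⟨a, b, hab⟩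
      obtain ⟨N, hN, h5, -, -, h6, -⟩ := H2.Sharp2.exists_kernel (G := G) (Ω := Ω)
        (fun _ _ _ _ h h' => two_trans h2 h h') (fun g x y hxy hx hy => by
          by_contra hg
          exact h4 ⟨g, hg, x, y, hxy, hx, hy⟩)
      exact ⟨N, hN, h6 a, fun u hu h => ((h5 u).1 hu).resolve_right fun h' => h' a h⟩
  obtain ⟨M, hM, hMt, hMr⟩ := hM
  have hinj : ∀ u ∈ M, ∀ v ∈ M, u • a = v • a → u = v := fun u hu v hv e =>
    (inv_mul_eq_one.1 (hMr (v⁻¹ * u) (M.mul_mem (M.inv_mem hv) hu)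
      (by rw [mul_smul, e, inv_smul_smul]))).symm
  have hMc : Nat.card M = p + 1 := by
    rw [← hΩ']
    refine Nat.card_congr (Equiv.ofBijective (fun u : M => (u : G) • a)
      ⟨fun u v e => Subtype.ext (hinj _ u.2 _ v.2 e), fun x => ?_⟩)
    obtain ⟨u, hu, e⟩ := hMt x
    exact ⟨⟨u, hu⟩, e⟩
  obtain ⟨t, ht, htt, ht1⟩ := exists_involution_of_even M (hMc ▸ (hp.odd_of_ne_two hp2').add_one)
  have hsq : ∀ u ∈ M, u * u = 1 := by
    intro u hu
    by_cases hu1 : u = 1
    · simp [hu1]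
    obtain ⟨k, hk, e⟩ := hK.exists_smul (y := t • a) (z := u • a) (fun h => ht1 (hMr t ht h))
      (fun h => hu1 (hMr u hu h))
    have := hinj _ (hM.conj_mem t ht k) u hu (by
      rw [mul_smul, mul_smul, inv_smul_eq_iff.2 (hK.fix k hk).symm, e])
    rw [← this]
    calc k * t * k⁻¹ * (k * t * k⁻¹) = k * (t * t) * k⁻¹ := by group
      _ = 1 := by rw [htt]; simp
  have hMcomm : ∀ u ∈ M, ∀ v ∈ M, u * v = v * u := by
    intro u hu v hv
    rw [eq_inv_of_mul_eq_one_left (hsq _ (M.mul_mem hu hv)), mul_inv_rev,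
      ← eq_inv_of_mul_eq_one_left (hsq u hu), ← eq_inv_of_mul_eq_one_left (hsq v hv)]
  have hM2 : IsPGroup 2 M := fun u => ⟨1, Subtype.ext (by simpa [sq] using hsq u u.2)⟩
  obtain ⟨q, hq⟩ := IsPGroup.iff_card.1 hM2
  have hq' : p = 2 ^ q - 1 := by omega
  have hq1 : q ≠ 1 := by
    rintro rfl
    omega
  have hqp : q.Prime := (Nat.prime_of_pow_sub_one_prime hq1 (hq' ▸ hp)).2
  haveI := Fintype.ofFinite (GaloisField 2 q)
  have hF : Fintype.card (GaloisField 2 q) = 2 ^ q := by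
    rw [← Nat.card_eq_fintype_card, GaloisField.card 2 q hqp.ne_zero]
  obtain ⟨e, hea, heb, he⟩ := AffineCoord.exists_affine_coord hab M K hM hMcomm hMt hMr hK.fix hcomm
    hK.norm (fun x y hx hy => hK.exists_smul hx hy) (GaloisField 2 q) (by rw [hF, hq])
  refine ⟨q, hqp, by omega, ?_, e, he⟩
  have h5 : ∀ h : ↥(stabilizer G a ⊓ stabilizer G b), ∃ τ : GaloisField 2 q ≃+* GaloisField 2 q,
      ∀ x, e ((h : G) • x) = τ (e x) := by
    intro h
    obtain ⟨c, t, τ, hτ⟩ := he h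
    have h6 := hτ a
    have h7 := hτ b
    rw [h.2.1, hea, map_zero, mul_zero, zero_add] at h6
    rw [h.2.2, heb, map_one, mul_one, ← h6, add_zero] at h7
    exact ⟨τ, fun x => by rw [hτ, ← h6, ← h7, one_mul, add_zero]⟩
  choose τ hτ using h5
  let φ : ↥(stabilizer G a ⊓ stabilizer G b) →* (GaloisField 2 q ≃+* GaloisField 2 q) :=
    MonoidHom.mk' τ fun h k => by
      ext x
      obtain ⟨y, rfl⟩ := e.surjective x
      change _ = τ h (τ k (e y))
      rw [← hτ, ← hτ, ← hτ, Subgroup.coe_mul, mul_smul]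
  have h6 := Subgroup.card_dvd_of_injective φ (by
    intro h k hhk
    refine Subtype.ext (eq_of_smul_eq_smul (α := Ω) fun x => e.injective ?_)
    have : τ h = τ k := hhk
    rw [hτ, hτ, this])
  rw [hE, OddExp.card_aut Nat.prime_two hF] at h6
  exact (Nat.dvd_prime hqp).1 h6

end Cfsg.Agent.H4.PrimePlusOne
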